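/-
Root groups and unipotent radicals of isotropic points in the special unitary group of an abstract
Hermitian form, their parametrisation, and the invariants `(Aof, Bof)` of a subgroup.
-/
import Mathlib
import Cfsg.Agent.Lib.Classical.HermSimple
import Cfsg.Agent.Lib.Classical.HermGen

set_option autoImplicit false
set_option linter.unusedSimpArgs false
set_option linter.unusedSectionVars false
set_option linter.style.haveILetI false
set_option linter.unusedVariables false

namespace Cfsg.Agent.Lib.MinSU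

open Module Cfsg.Agent.Lib.Classical.HermBasic Cfsg.Agent.Lib.Classical.HermElem

universe u v

variable {F : Type u} [Field F] {V : Type v} [AddCommGroup V] [Module F V]
variable {σ : F →+* F} {h : V → V → F}
variable [FiniteDimensional F V]

/-- The trace-zero elements. -/
def pureF (σ : F →+* F) : AddSubgroup F where
  carrier := {c | c + σ c = 0}
  add_mem' := by
    intro a b (ha : a + σ a = 0) (hb : b + σ b = 0)
    show a + b + σ (a + b) = 0
    rw [map_add]
    linear_combination ha + hb
  zero_mem' := by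
    show (0 : F) + σ 0 = 0
    simp
  neg_mem' := by
    intro a (ha : a + σ a = 0)
    show -a + σ (-a) = 0
    rw [map_neg]
    linear_combination -ha

theorem mem_pureF {c : F} : c ∈ pureF σ ↔ c + σ c = 0 := Iff.rfl

section groups

variable (S : HForm σ h) (hσ : Invol σ) (e : V) (hee : h e e = 0)

include S hee in
theorem eich_one : EichAt σ h e 0 0 (1 : V ≃ₗ[F] V) := by
  refine ⟨hee, S.zero_left e, by simp [S.zero_left], fun x => ?_⟩
  simp [S.zero_right]

include S hσ hee

/-- The unipotent radical of the stabilizer of the point `e`. -/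
def radQ : Subgroup (suGroup h) where
  carrier := {g | ∃ w a, EichAt σ h e w a g.1}
  mul_mem' := by
    rintro x y ⟨w, a, hx⟩ ⟨w', a', hy⟩
    exact ⟨_, _, hx.mul S hy⟩
  one_mem' := ⟨0, 0, eich_one S e hee⟩
  inv_mem' := by
    rintro x ⟨w, a, hx⟩
    exact ⟨_, _, hx.inv S hσ⟩

/-- The root group (transvections with centre `e`). -/
def rootX : Subgroup (suGroup h) where
  carrier := {g | ∃ a, EichAt σ h e 0 a g.1}
  mul_mem' := by
    rintro x y ⟨a, hx⟩ ⟨a', hy⟩
    have := hx.mul S hy
    simp only [add_zero, S.zero_left, sub_zero] at this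
    exact ⟨_, this⟩
  one_mem' := ⟨0, eich_one S e hee⟩
  inv_mem' := by
    rintro x ⟨a, hx⟩
    have := hx.inv S hσ
    simp only [neg_zero] at this
    exact ⟨_, this⟩

theorem mem_radQ {g : suGroup h} : g ∈ radQ S hσ e hee ↔ ∃ w a, EichAt σ h e w a g.1 := Iff.rfl

theorem mem_rootX {g : suGroup h} : g ∈ rootX S hσ e hee ↔ ∃ a, EichAt σ h e 0 a g.1 := Iff.rfl

theorem rootX_le_radQ : rootX S hσ e hee ≤ radQ S hσ e hee := by
  rintro g ⟨a, hg⟩
  exact ⟨0, a, hg⟩

variable (K : Subgroup (suGroup h))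

/-- The additive group of parameters of the root elements in `K`. -/
def Aof : AddSubgroup F where
  carrier := {c | ∃ g ∈ K, EichAt σ h e 0 c g.1}
  add_mem' := by
    rintro a b ⟨x, hxK, hx⟩ ⟨y, hyK, hy⟩
    have := hx.mul S hy
    simp only [add_zero, S.zero_left, sub_zero] at this
    exact ⟨x * y, K.mul_mem hxK hyK, this⟩
  zero_mem' := ⟨1, K.one_mem, eich_one S e hee⟩
  neg_mem' := by
    rintro a ⟨x, hxK, hx⟩
    have h1 := hx.inv S hσ
    have h2 := hx.ha
    rw [S.zero_left, add_zero] at h2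
    have h3 : σ a = -a := by linear_combination h2
    rw [h3] at h1
    simp only [neg_zero] at h1
    exact ⟨x⁻¹, K.inv_mem hxK, h1⟩

theorem mem_Aof {c : F} : c ∈ Aof S hσ e hee K ↔ ∃ g ∈ K, EichAt σ h e 0 c g.1 := Iff.rfl

theorem Aof_le_pure : Aof S hσ e hee K ≤ pureF σ := by
  rintro c ⟨g, -, hg⟩
  have h2 := hg.ha
  rw [S.zero_left, add_zero] at h2
  exact h2

theorem Aof_top : Aof S hσ e hee ⊤ = pureF σ := by
  apply le_antisymm (Aof_le_pure S hσ e hee ⊤)
  intro c hc
  have hha : c + σ c + h (0 : V) 0 = 0 := by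
    rw [S.zero_left, add_zero]
    exact hc
  obtain ⟨g, hg⟩ := exists_eichAt S hee (S.zero_left e) hha
  exact ⟨⟨g, hg.mem_suGroup S⟩, trivial, hg⟩

end groups

section hp

variable (S : HForm σ h) (hσ : Invol σ) {e f : V} (H : IsHP h e f)

include hσ H in
/-- The projection of an Eichler element to the complement. -/
def Bof (K : Subgroup (suGroup h)) : AddSubgroup V where
  carrier := {w | w ∈ perp2 S e f ∧ ∃ g ∈ K, ∃ a, EichAt σ h e w a g.1}
  add_mem' := by
    rintro a b ⟨ha, x, hxK, c, hx⟩ ⟨hb, y, hyK, d, hy⟩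
    exact ⟨(perp2 S e f).add_mem ha hb, x * y, K.mul_mem hxK hyK, _, hx.mul S hy⟩
  zero_mem' := ⟨(perp2 S e f).zero_mem, 1, K.one_mem, 0, eich_one S e H.ee⟩
  neg_mem' := by
    rintro a ⟨ha, x, hxK, c, hx⟩
    exact ⟨(perp2 S e f).neg_mem ha, x⁻¹, K.inv_mem hxK, _, hx.inv S hσ⟩

theorem mem_Bof {K : Subgroup (suGroup h)} {w : V} : w ∈ Bof S hσ H K ↔
    w ∈ perp2 S e f ∧ ∃ g ∈ K, ∃ a, EichAt σ h e w a g.1 := Iff.rfl

include S H

/-- An Eichler element with `w` in the complement: value at `f`. -/
theorem eich_apply_f {w : V} {a : F} {g : V ≃ₗ[F] V} (E : EichAt σ h e w a g)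
    (hw : w ∈ perp2 S e f) : g f = f + w + a • e := by
  have hfw : h f w = 0 := S.zero_symm hw.2
  rw [E.apply, H.fe, hfw]
  simp only [one_smul, zero_smul, mul_one, sub_zero]

theorem proj_eich {w : V} {a : F} {g : V ≃ₗ[F] V} (E : EichAt σ h e w a g)
    (hw : w ∈ perp2 S e f) : proj e f (g f) h = w := by
  rw [eich_apply_f S H E hw]
  have hef := H.ef S
  simp only [proj, S.add_left, S.smul_left, H.ff, H.fe, hw.1, hw.2, H.ee, hef]
  simp only [zero_add, add_zero, mul_one, mul_zero, one_smul]
  abel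

theorem param_eich {w : V} {a : F} {g : V ≃ₗ[F] V} (E : EichAt σ h e w a g)
    (hw : w ∈ perp2 S e f) : h (g f) f = a := by
  rw [eich_apply_f S H E hw]
  have hef := H.ef S
  simp only [S.add_left, S.smul_left, H.ff, hw.2, hef]
  simp

include hσ in
/-- Every element of the radical has a normal form with `w` in the complement. -/
theorem eich_normal {w : V} {a : F} {g : V ≃ₗ[F] V} (E : EichAt σ h e w a g) :
    ∃ w' ∈ perp2 S e f, ∃ a', EichAt σ h e w' a' g := by
  have hwe : h w e = 0 := E.we
  have hmem := proj_mem S H w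
  set w₀ := proj e f w h with hw₀
  have hdec : w = w₀ + h w f • e := by
    have := decomp (e := e) (f := f) (h := h) w
    rw [hwe, zero_smul, add_zero] at this
    exact this
  have E' : EichAt σ h e (w₀ + h w f • e) a g := by
    rw [← hdec]
    exact E
  exact ⟨w₀, hmem, _, E'.shift S hσ⟩

omit S H in
theorem eich_eq_of_params {w : V} {a : F} {g g' : V ≃ₗ[F] V} (E : EichAt σ h e w a g)
    (E' : EichAt σ h e w a g') : g = g' := by
  ext x
  rw [E.apply, E'.apply]

end hp

end Cfsg.Agent.Lib.MinSU
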