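/-
Counting: the order of `L ⊓ radQ` in terms of the invariants, and the coset count.
-/
import Mathlib
import Cfsg.Agent.Lib.MinSU.Basic

set_option autoImplicit false
set_option linter.unusedSimpArgs false
set_option linter.unusedSectionVars false
set_option linter.style.haveILetI false
set_option linter.unusedVariables false

namespace Cfsg.Agent.Lib.MinSU

open Module Cfsg.Agent.Lib.Classical.HermBasic Cfsg.Agent.Lib.Classical.HermElem

universe u v

/-- Fibres of a surjective homomorphism. -/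
theorem card_of_surj {A B : Type*} [Group A] [Group B] (f : A →* B)
    (hf : Function.Surjective f) : Nat.card A = Nat.card f.ker * Nat.card B := by
  rw [← Subgroup.card_mul_index f.ker, Subgroup.index_eq_card]
  congr 1
  exact Nat.card_congr (QuotientGroup.quotientKerEquivOfSurjective f hf).toEquiv

/-- Conjugate of a subgroup. -/
def cj {G : Type*} [Group G] (y : G) (L : Subgroup G) : Subgroup G :=
  L.map (MulAut.conj y).toMonoidHom

theorem mem_cj {G : Type*} [Group G] {y x : G} {L : Subgroup G} :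
    x ∈ cj y L ↔ y⁻¹ * x * y ∈ L := by
  unfold cj
  rw [Subgroup.mem_map]
  constructor
  · rintro ⟨g, hg, rfl⟩
    simpa [MulAut.conj_apply, mul_assoc] using hg
  · intro hx
    exact ⟨_, hx, by simp [MulAut.conj_apply, mul_assoc]⟩

theorem conj_mem_cj {G : Type*} [Group G] {y x : G} {L : Subgroup G} (hx : x ∈ L) :
    y * x * y⁻¹ ∈ cj y L := by
  rw [mem_cj]
  simpa [mul_assoc] using hx

theorem cj_mul {G : Type*} [Group G] (a b : G) (L : Subgroup G) : cj (a * b) L = cj a (cj b L) := by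
  ext x
  simp only [mem_cj, mul_inv_rev, mul_assoc]

theorem cj_inv_cj {G : Type*} [Group G] (a : G) (L : Subgroup G) : cj a⁻¹ (cj a L) = L := by
  rw [← cj_mul]
  ext x
  simp [mem_cj]

theorem index_cj {G : Type*} [Group G] (a : G) (L : Subgroup G) : (cj a L).index = L.index := by
  unfold cj
  exact Subgroup.index_map_equiv L (MulAut.conj a)

/-- The coset count: cosets coming from a family with distinct invariants. -/
theorem count_cosets {G : Type*} [Group G] [Finite G] (K Q : Subgroup G) {T ι : Type*} [Finite ι]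
    (Φ : Subgroup G → T) (hΦ : ∀ u ∈ Q, ∀ L, Φ (cj u L) = Φ L) (y : ι → G)
    (hy : ∀ i, ∀ u ∈ Q, y i * u * (y i)⁻¹ ∈ Q)
    (hinj : Function.Injective fun i => Φ (cj (y i) K)) :
    Nat.card ι * (K.subgroupOf Q).index ≤ K.index := by
  classical
  rw [Subgroup.index_eq_card, Subgroup.index_eq_card, ← Nat.card_prod]
  let ψ : ι × (Q ⧸ K.subgroupOf Q) → G ⧸ K := fun p =>
    QuotientGroup.mk (y p.1 * (Quotient.out p.2 : Q).1)
  refine Nat.card_le_card_of_injective ψ ?_
  rintro ⟨i, a⟩ ⟨j, b⟩ hab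
  have hab' : (y i * (Quotient.out a : Q).1)⁻¹ * (y j * (Quotient.out b : Q).1) ∈ K :=
    QuotientGroup.eq.1 hab
  set u := (Quotient.out a : Q) with hu
  set v := (Quotient.out b : Q) with hv
  have hij : i = j := by
    apply hinj
    show Φ (cj (y i) K) = Φ (cj (y j) K)
    have h1 : cj (y i * u.1) K = cj (y j * v.1) K := by
      ext x
      simp only [mem_cj]
      set k := (y i * u.1)⁻¹ * (y j * v.1) with hk
      have hk' : y j * v.1 = (y i * u.1) * k := by rw [hk]; group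
      rw [hk']
      constructor
      · intro hx
        have : ((y i * u.1) * k)⁻¹ * x * ((y i * u.1) * k) =
            k⁻¹ * ((y i * u.1)⁻¹ * x * (y i * u.1)) * k := by group
        rw [this]
        exact K.mul_mem (K.mul_mem (K.inv_mem hab') hx) hab'
      · intro hx
        have : (y i * u.1)⁻¹ * x * (y i * u.1) =
            k * (((y i * u.1) * k)⁻¹ * x * ((y i * u.1) * k)) * k⁻¹ := by group
        rw [this]
        exact K.mul_mem (K.mul_mem hab' hx) (K.inv_mem hab')
    have h2 : y i * u.1 = (y i * u.1 * (y i)⁻¹) * y i := by group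
    have h3 : y j * v.1 = (y j * v.1 * (y j)⁻¹) * y j := by group
    have h4 : cj (y i * u.1) K = cj (y i * u.1 * (y i)⁻¹) (cj (y i) K) := by
      rw [← cj_mul, ← h2]
    have h5 : cj (y j * v.1) K = cj (y j * v.1 * (y j)⁻¹) (cj (y j) K) := by
      rw [← cj_mul, ← h3]
    rw [← hΦ _ (hy i u.1 u.2) (cj (y i) K), ← h4, h1, h5, hΦ _ (hy j v.1 v.2)]
  subst hij
  have hmem : u⁻¹ * v ∈ K.subgroupOf Q := by
    rw [Subgroup.mem_subgroupOf]
    have : (y i * u.1)⁻¹ * (y i * v.1) = u.1⁻¹ * v.1 := by group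
    rw [this] at hab'
    exact hab'
  have hab2 : (QuotientGroup.mk u : Q ⧸ K.subgroupOf Q) = QuotientGroup.mk v :=
    QuotientGroup.eq.2 hmem
  have h6 : (QuotientGroup.mk u : Q ⧸ K.subgroupOf Q) = a := QuotientGroup.out_eq' a
  have h7 : (QuotientGroup.mk v : Q ⧸ K.subgroupOf Q) = b := QuotientGroup.out_eq' b
  rw [Prod.mk.injEq]
  exact ⟨rfl, by rw [← h6, ← h7, hab2]⟩

variable {F : Type u} [Field F] {V : Type v} [AddCommGroup V] [Module F V]
variable {σ : F →+* F} {h : V → V → F}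
variable [FiniteDimensional F V]

section hp

variable (S : HForm σ h) (hσ : Invol σ) {e f : V} (H : IsHP h e f)

include S hσ H

theorem exists_normal_params {g : suGroup h} (hg : g ∈ radQ S hσ e H.ee) :
    EichAt σ h e (proj e f (g.1 f) h) (h (g.1 f) f) g.1 := by
  obtain ⟨w, a, E⟩ := hg
  obtain ⟨w', hw', a', E'⟩ := eich_normal S hσ H E
  rw [proj_eich S H E' hw', param_eich S H E' hw']
  exact E'

theorem proj_mul_radQ {g g' : suGroup h} (hg : g ∈ radQ S hσ e H.ee)
    (hg' : g' ∈ radQ S hσ e H.ee) :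
    proj e f ((g * g').1 f) h = proj e f (g.1 f) h + proj e f (g'.1 f) h := by
  have E := exists_normal_params S hσ H hg
  have E' := exists_normal_params S hσ H hg'
  have := E.mul S E'
  exact proj_eich S H this ((perp2 S e f).add_mem (proj_mem S H _) (proj_mem S H _))

/-- The projection of `L ⊓ radQ` onto `Bof L`. -/
noncomputable def piL (L : Subgroup (suGroup h)) :
    ↥(L ⊓ radQ S hσ e H.ee) →* Multiplicative ↥(Bof S hσ H L) where
  toFun g := Multiplicative.ofAdd ⟨proj e f (g.1.1 f) h, proj_mem S H _, g.1, g.2.1, _,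
    exists_normal_params S hσ H g.2.2⟩
  map_one' := by
    rw [← ofAdd_zero]
    congr 1
    apply Subtype.ext
    exact proj_eich S H (eich_one S e H.ee) (perp2 S e f).zero_mem
  map_mul' := by
    intro a b
    rw [← ofAdd_add]
    congr 1
    apply Subtype.ext
    exact proj_mul_radQ S hσ H a.2.2 b.2.2

theorem piL_surj (L : Subgroup (suGroup h)) : Function.Surjective (piL S hσ H L) := by
  intro x
  obtain ⟨hw, g, hgL, a, E⟩ := (Multiplicative.toAdd x).2
  refine ⟨⟨g, hgL, ⟨_, _, E⟩⟩, ?_⟩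
  apply Multiplicative.toAdd.injective
  apply Subtype.ext
  exact proj_eich S H E hw

theorem piL_ker_iff (L : Subgroup (suGroup h)) (g : ↥(L ⊓ radQ S hσ e H.ee)) :
    g ∈ (piL S hσ H L).ker ↔ proj e f (g.1.1 f) h = 0 := by
  rw [MonoidHom.mem_ker]
  constructor
  · intro hg
    have := congrArg (fun x => (Multiplicative.toAdd x).1) hg
    exact this
  · intro hg
    apply Multiplicative.toAdd.injective
    apply Subtype.ext
    exact hg

theorem card_ker_piL (L : Subgroup (suGroup h)) :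
    Nat.card (piL S hσ H L).ker = Nat.card (Aof S hσ e H.ee L) := by
  have hE : ∀ g : (piL S hσ H L).ker, EichAt σ h e 0 (h (g.1.1.1 f) f) g.1.1.1 := by
    intro g
    have h1 := exists_normal_params S hσ H g.1.2.2
    rw [(piL_ker_iff S hσ H L g.1).1 g.2] at h1
    exact h1
  apply Nat.card_congr
  refine Equiv.ofBijective (fun g => ⟨h (g.1.1.1 f) f, g.1.1, g.1.2.1, hE g⟩) ⟨?_, ?_⟩
  · intro a b hab
    have h1 : h (a.1.1.1 f) f = h (b.1.1.1 f) f := congrArg Subtype.val hab
    have h2 := hE a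
    rw [h1] at h2
    have h3 := eich_eq_of_params h2 (hE b)
    apply Subtype.ext
    apply Subtype.ext
    apply Subtype.ext
    exact h3
  · rintro ⟨c, g, hgL, E⟩
    have hmem : (⟨g, hgL, ⟨0, c, E⟩⟩ : ↥(L ⊓ radQ S hσ e H.ee)) ∈ (piL S hσ H L).ker := by
      rw [piL_ker_iff]
      exact proj_eich S H E (perp2 S e f).zero_mem
    refine ⟨⟨_, hmem⟩, ?_⟩
    apply Subtype.ext
    exact param_eich S H E (perp2 S e f).zero_mem

theorem card_inf_radQ (L : Subgroup (suGroup h)) :
    Nat.card ↥(L ⊓ radQ S hσ e H.ee) =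
      Nat.card (Aof S hσ e H.ee L) * Nat.card (Bof S hσ H L) := by
  rw [card_of_surj (piL S hσ H L) (piL_surj S hσ H L), card_ker_piL]
  congr 1

theorem card_radQ :
    Nat.card ↥(radQ S hσ e H.ee) =
      Nat.card (Aof S hσ e H.ee ⊤) * Nat.card (Bof S hσ H ⊤) := by
  rw [← card_inf_radQ S hσ H ⊤, top_inf_eq]

theorem index_formula [Finite (suGroup h)] (K : Subgroup (suGroup h)) :
    (K.subgroupOf (radQ S hσ e H.ee)).index *
        (Nat.card (Aof S hσ e H.ee K) * Nat.card (Bof S hσ H K)) =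
      Nat.card (Aof S hσ e H.ee ⊤) * Nat.card (Bof S hσ H ⊤) := by
  rw [← card_radQ S hσ H, ← card_inf_radQ S hσ H K,
    ← Subgroup.index_mul_card (K.subgroupOf (radQ S hσ e H.ee))]
  congr 1
  apply Nat.card_congr
  exact Equiv.symm
    { toFun := fun x => ⟨x.1.1, x.2, x.1.2⟩
      invFun := fun x => ⟨⟨x.1, x.2.2⟩, x.2.1⟩
      left_inv := fun x => rfl
      right_inv := fun x => rfl }

end hp

/-- The elements normalising the radical and the complement. -/
structure NP (σ : F →+* F) (e f : V) (t : F) (y : V ≃ₗ[F] V) : Prop where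
  ne : t ≠ 0
  left : y e = t • e
  right : y f = (σ t)⁻¹ • f

/-- The action on the complement, with the central twist. -/
def hatY (σ : F →+* F) (t : F) (y : V ≃ₗ[F] V) : V →+ V :=
  ((σ t) • (y : V →ₗ[F] V)).toAddMonoidHom

@[simp] theorem hatY_apply (t : F) (y : V ≃ₗ[F] V) (w : V) : hatY σ t y w = σ t • y w := rfl

theorem hatY_injective (hσ : Invol σ) {t : F} (ht : t ≠ 0) (y : V ≃ₗ[F] V) :
    Function.Injective (hatY σ t y) := by
  intro a b hab
  have hst : σ t ≠ 0 := by simpa using ht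
  simp only [hatY_apply] at hab
  exact y.injective (smul_right_injective V hst hab)

theorem NP.inv (hσ : Invol σ) {e f : V} {t : F} {y : V ≃ₗ[F] V} (H : NP σ e f t y) :
    NP σ e f t⁻¹ y⁻¹ := by
  have hst : σ t ≠ 0 := by simpa using H.ne
  refine ⟨inv_ne_zero H.ne, ?_, ?_⟩
  · apply y.injective
    have h1 : y (y⁻¹ e) = e := y.apply_symm_apply e
    rw [h1, map_smul, H.left, smul_smul, inv_mul_cancel₀ H.ne, one_smul]
  · apply y.injective
    have h1 : y (y⁻¹ f) = f := y.apply_symm_apply f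
    rw [h1, map_smul, H.right, smul_smul, map_inv₀, inv_inv, mul_inv_cancel₀ hst, one_smul]

theorem NP.mul {e f : V} {t t' : F} {y y' : V ≃ₗ[F] V} (H : NP σ e f t y)
    (H' : NP σ e f t' y') : NP σ e f (t * t') (y * y') := by
  have hst : σ t ≠ 0 := by simpa using H.ne
  have hst' : σ t' ≠ 0 := by simpa using H'.ne
  refine ⟨mul_ne_zero H.ne H'.ne, ?_, ?_⟩
  · show y (y' e) = _
    rw [H'.left, map_smul, H.left, smul_smul, mul_comm]
  · show y (y' f) = _
    rw [H'.right, map_smul, H.right, smul_smul, map_mul, mul_inv, mul_comm]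

section conj

variable (S : HForm σ h) (hσ : Invol σ) {e f : V} (H : IsHP h e f)

include S

theorem NP.perp (hσ : Invol σ) (H : IsHP h e f) {t : F} {y : suGroup h} (HY : NP σ e f t y.1)
    {w : V} (hw : w ∈ perp2 S e f) : y.1 w ∈ perp2 S e f := by
  have hst : σ t ≠ 0 := by simpa using HY.ne
  have hu := (mem_suGroup.1 y.2).1
  constructor
  · have h1 := hu w e
    rw [HY.left, S.smul_right, hw.1] at h1
    exact (mul_eq_zero.1 h1).resolve_left hst
  · have h1 := hu w f
    rw [HY.right, S.smul_right, hw.2, map_inv₀, hσ.invol] at h1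
    exact (mul_eq_zero.1 h1).resolve_left (inv_ne_zero HY.ne)

include hσ H

theorem Aof_conj_forward {L : Subgroup (suGroup h)} {t : F} {y : suGroup h}
    (HY : NP σ e f t y.1) {c : F} (hc : c ∈ Aof S hσ e H.ee L) :
    c * (t * σ t) ∈ Aof S hσ e H.ee (cj y L) := by
  obtain ⟨g, hgL, E⟩ := hc
  have h1 := E.conj (mem_suGroup.1 y.2).1
  rw [HY.left, map_zero] at h1
  have h2 := h1.smul_center S hσ HY.ne
  rw [smul_zero] at h2
  exact ⟨y * g * y⁻¹, conj_mem_cj hgL, h2⟩

theorem Bof_conj_forward {L : Subgroup (suGroup h)} {t : F} {y : suGroup h}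
    (HY : NP σ e f t y.1) {w : V} (hw : w ∈ Bof S hσ H L) :
    hatY σ t y.1 w ∈ Bof S hσ H (cj y L) := by
  obtain ⟨hwp, g, hgL, a, E⟩ := hw
  have h1 := E.conj (mem_suGroup.1 y.2).1
  rw [HY.left] at h1
  have h2 := h1.smul_center S hσ HY.ne
  refine ⟨(perp2 S e f).smul_mem _ (HY.perp S hσ H hwp), y * g * y⁻¹, conj_mem_cj hgL, _, h2⟩

theorem Aof_conj {L : Subgroup (suGroup h)} {t : F} {y : suGroup h} (HY : NP σ e f t y.1) :
    Aof S hσ e H.ee (cj y L) = (Aof S hσ e H.ee L).map (AddMonoidHom.mulRight (t * σ t)) := by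
  have hst : σ t ≠ 0 := by simpa using HY.ne
  apply le_antisymm
  · intro c hc
    have HY' : NP σ e f t⁻¹ (y⁻¹).1 := HY.inv hσ
    have h1 := Aof_conj_forward S hσ H (L := cj y L) (y := y⁻¹) HY' hc
    rw [cj_inv_cj] at h1
    refine ⟨_, h1, ?_⟩
    show c * (t⁻¹ * σ t⁻¹) * (t * σ t) = c
    rw [map_inv₀]
    have := HY.ne
    field_simp
  · rintro _ ⟨c, hc, rfl⟩
    exact Aof_conj_forward S hσ H HY hc

theorem Bof_conj {L : Subgroup (suGroup h)} {t : F} {y : suGroup h} (HY : NP σ e f t y.1) :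
    Bof S hσ H (cj y L) = (Bof S hσ H L).map (hatY σ t y.1) := by
  have hst : σ t ≠ 0 := by simpa using HY.ne
  apply le_antisymm
  · intro c hc
    have HY' : NP σ e f t⁻¹ (y⁻¹).1 := HY.inv hσ
    have h1 := Bof_conj_forward S hσ H (L := cj y L) (y := y⁻¹) HY' hc
    rw [cj_inv_cj] at h1
    refine ⟨_, h1, ?_⟩
    show σ t • y.1 (σ t⁻¹ • (y⁻¹).1 c) = c
    rw [map_smul, smul_smul, map_inv₀, mul_inv_cancel₀ hst, one_smul]
    exact y.1.apply_symm_apply c
  · rintro _ ⟨c, hc, rfl⟩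
    exact Bof_conj_forward S hσ H HY hc

/-- Conjugation by an `NP` element preserves the radical. -/
theorem NP.conj_radQ {t : F} {y u : suGroup h} (HY : NP σ e f t y.1)
    (hu : u ∈ radQ S hσ e H.ee) : y * u * y⁻¹ ∈ radQ S hσ e H.ee := by
  obtain ⟨w, a, E⟩ := hu
  have h1 := E.conj (mem_suGroup.1 y.2).1
  rw [HY.left] at h1
  exact ⟨_, _, h1.smul_center S hσ HY.ne⟩

/-- Conjugation by an element of the radical, on the parameters. -/
theorem conj_radQ_params {u : suGroup h} (hu : u ∈ radQ S hσ e H.ee) {w : V} {a : F}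
    {g : V ≃ₗ[F] V} (E : EichAt σ h e w a g) :
    ∃ a', EichAt σ h e w a' (u.1 * g * u.1⁻¹) := by
  obtain ⟨w₁, a₁, E₁⟩ := hu
  have hue : u.1 e = e := E₁.apply_center S
  have h1 := E.conj (mem_suGroup.1 u.2).1
  rw [hue] at h1
  have hwe : h w e = 0 := E.we
  have huw : u.1 w = w + (- h w w₁) • e := by
    rw [E₁.apply, hwe]
    simp only [zero_smul, add_zero, mul_zero, neg_smul, sub_eq_add_neg]
  rw [huw] at h1
  exact ⟨_, h1.shift S hσ⟩

theorem Aof_cj_radQ_le {u : suGroup h} (hu : u ∈ radQ S hσ e H.ee) (L : Subgroup (suGroup h)) :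
    Aof S hσ e H.ee (cj u L) ≤ Aof S hσ e H.ee L := by
  rintro c ⟨g, hgL, E⟩
  have hu' : u⁻¹ ∈ radQ S hσ e H.ee := inv_mem hu
  obtain ⟨w₁, a₁, E₁⟩ := hu'
  have hue : u⁻¹.1 e = e := E₁.apply_center S
  have h1 := E.conj (mem_suGroup.1 (u⁻¹).2).1
  rw [hue, map_zero] at h1
  refine ⟨u⁻¹ * g * u⁻¹⁻¹, ?_, h1⟩
  rw [mem_cj] at hgL
  simpa using hgL

theorem Bof_cj_radQ_le {u : suGroup h} (hu : u ∈ radQ S hσ e H.ee) (L : Subgroup (suGroup h)) :
    Bof S hσ H (cj u L) ≤ Bof S hσ H L := by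
  rintro w ⟨hw, g, hgL, a, E⟩
  have hu' : u⁻¹ ∈ radQ S hσ e H.ee := inv_mem hu
  obtain ⟨a', E'⟩ := conj_radQ_params S hσ H hu' E
  refine ⟨hw, u⁻¹ * g * u⁻¹⁻¹, ?_, a', E'⟩
  rw [mem_cj] at hgL
  simpa using hgL

theorem Aof_cj_radQ {u : suGroup h} (hu : u ∈ radQ S hσ e H.ee) (L : Subgroup (suGroup h)) :
    Aof S hσ e H.ee (cj u L) = Aof S hσ e H.ee L := by
  apply le_antisymm (Aof_cj_radQ_le S hσ H hu L)
  have := Aof_cj_radQ_le S hσ H (inv_mem hu) (cj u L)
  rwa [cj_inv_cj] at this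

theorem Bof_cj_radQ {u : suGroup h} (hu : u ∈ radQ S hσ e H.ee) (L : Subgroup (suGroup h)) :
    Bof S hσ H (cj u L) = Bof S hσ H L := by
  apply le_antisymm (Bof_cj_radQ_le S hσ H hu L)
  have := Bof_cj_radQ_le S hσ H (inv_mem hu) (cj u L)
  rwa [cj_inv_cj] at this

/-- The main orbit inequality. -/
theorem main_count [Finite (suGroup h)] (K : Subgroup (suGroup h)) {ι : Type*} [Finite ι]
    (y : ι → suGroup h) (t : ι → F) (hy : ∀ i, NP σ e f (t i) (y i).1)
    (hinj : Function.Injective fun i =>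
      (Aof S hσ e H.ee (cj (y i) K), Bof S hσ H (cj (y i) K))) :
    Nat.card ι * (Nat.card (Aof S hσ e H.ee ⊤) * Nat.card (Bof S hσ H ⊤)) ≤
      K.index * (Nat.card (Aof S hσ e H.ee K) * Nat.card (Bof S hσ H K)) := by
  have h1 := count_cosets K (radQ S hσ e H.ee)
    (fun L => (Aof S hσ e H.ee L, Bof S hσ H L))
    (fun u hu L => by
      show (_, _) = (_, _)
      rw [Aof_cj_radQ S hσ H hu, Bof_cj_radQ S hσ H hu])
    y (fun i u hu => NP.conj_radQ S hσ H (hy i) hu) hinj
  rw [← index_formula S hσ H K, ← mul_assoc]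
  exact Nat.mul_le_mul_right _ h1

end conj

end Cfsg.Agent.Lib.MinSU
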