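/-
Multiples of an additive subgroup of the trace-zero elements; the isotropy bound; the torus elements.
-/
import Mathlib
import Cfsg.Agent.Lib.MinSU.Count

set_option autoImplicit false
set_option linter.unusedSimpArgs false
set_option linter.unusedSectionVars false
set_option linter.style.haveILetI false
set_option linter.unusedVariables false

namespace Cfsg.Agent.Lib.MinSU

open Module Cfsg.Agent.Lib.Classical.HermBasic Cfsg.Agent.Lib.Classical.HermElem
open Cfsg.Agent.Lib.Classical.HermGen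

universe u v

/-- The number of values of a map whose fibres are the cosets of a subgroup. -/
theorem card_range_of_cosets {G T : Type*} [Group G] [Finite G] (Sb : Subgroup G) (f : G → T)
    (hf : ∀ a b, f a = f b ↔ a⁻¹ * b ∈ Sb) :
    Nat.card (Set.range f) * Nat.card Sb = Nat.card G := by
  rw [← Subgroup.index_mul_card Sb]
  congr 1
  rw [Subgroup.index_eq_card]
  apply Nat.card_congr
  symm
  refine Equiv.ofBijective (fun x => ⟨f (Quotient.out x), Set.mem_range_self _⟩) ⟨?_, ?_⟩
  · intro a b hab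
    have h1 : f (Quotient.out a) = f (Quotient.out b) := congrArg Subtype.val hab
    rw [hf] at h1
    have h2 : (QuotientGroup.mk (Quotient.out a) : G ⧸ Sb) = QuotientGroup.mk (Quotient.out b) :=
      QuotientGroup.eq.2 h1
    rwa [QuotientGroup.out_eq', QuotientGroup.out_eq'] at h2
  · rintro ⟨_, g, rfl⟩
    refine ⟨QuotientGroup.mk g, ?_⟩
    apply Subtype.ext
    show f (Quotient.out (QuotientGroup.mk g : G ⧸ Sb)) = f g
    rw [hf]
    have h1 : (QuotientGroup.mk (Quotient.out (QuotientGroup.mk g : G ⧸ Sb)) : G ⧸ Sb) =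
        QuotientGroup.mk g := QuotientGroup.out_eq' _
    exact QuotientGroup.eq.1 h1

/-- Extending a character trivial on a subgroup to the quotient. -/
noncomputable def liftChar {W : Type*} [AddCommGroup W] (B : AddSubgroup W) (χ : AddChar W ℂ)
    (hχ : ∀ b ∈ B, χ b = 1) : AddChar (W ⧸ B) ℂ where
  toFun x := χ (Quotient.out x)
  map_zero_eq_one' := by
    have h1 : (QuotientAddGroup.mk (Quotient.out (0 : W ⧸ B)) : W ⧸ B) = QuotientAddGroup.mk 0 :=
      QuotientAddGroup.out_eq' _
    exact hχ _ (by simpa using QuotientAddGroup.eq.1 h1)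
  map_add_eq_mul' := by
    intro a b
    set x := Quotient.out a with hx
    set y := Quotient.out b with hy
    have h1 : (QuotientAddGroup.mk x : W ⧸ B) = a := QuotientAddGroup.out_eq' _
    have h2 : (QuotientAddGroup.mk y : W ⧸ B) = b := QuotientAddGroup.out_eq' _
    have h3 : (QuotientAddGroup.mk (Quotient.out (a + b)) : W ⧸ B) = QuotientAddGroup.mk (x + y) := by
      rw [QuotientAddGroup.out_eq', QuotientAddGroup.mk_add, h1, h2]
    have h4 := QuotientAddGroup.eq.1 h3
    have h5 := hχ _ h4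
    have h6 : x + y = Quotient.out (a + b) + (-Quotient.out (a + b) + (x + y)) := by abel
    rw [← AddChar.map_add_eq_mul, h6, AddChar.map_add_eq_mul, h5, mul_one]

theorem liftChar_mk {W : Type*} [AddCommGroup W] (B : AddSubgroup W) (χ : AddChar W ℂ)
    (hχ : ∀ b ∈ B, χ b = 1) (x : W) : liftChar B χ hχ (QuotientAddGroup.mk x) = χ x := by
  show χ (Quotient.out (QuotientAddGroup.mk x : W ⧸ B)) = χ x
  have h1 : (QuotientAddGroup.mk (Quotient.out (QuotientAddGroup.mk x : W ⧸ B)) : W ⧸ B) =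
      QuotientAddGroup.mk x := QuotientAddGroup.out_eq' _
  have h4 := QuotientAddGroup.eq.1 h1
  have h5 := hχ _ h4
  have h6 : x = Quotient.out (QuotientAddGroup.mk x : W ⧸ B) +
      (-Quotient.out (QuotientAddGroup.mk x : W ⧸ B) + x) := by abel
  conv_rhs => rw [h6]
  rw [AddChar.map_add_eq_mul, h5, mul_one]

/-- The number of characters trivial on `B` is at most the index of `B`. -/
theorem card_le_of_char_inj {W I : Type*} [AddCommGroup W] [Finite W] (B : AddSubgroup W)
    [Finite I] (χ : I → AddChar W ℂ) (hχ : Function.Injective χ) (htriv : ∀ i, ∀ b ∈ B, χ i b = 1) :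
    Nat.card I ≤ B.index := by
  classical
  haveI : Fintype W := Fintype.ofFinite W
  haveI : Fintype (W ⧸ B) := Fintype.ofFinite _
  rw [AddSubgroup.index_eq_card]
  have h1 : Nat.card (AddChar (W ⧸ B) ℂ) = Nat.card (W ⧸ B) := by
    simp only [Nat.card_eq_fintype_card]
    exact AddChar.card_eq
  rw [← h1]
  refine Nat.card_le_card_of_injective (fun i => liftChar B (χ i) (htriv i)) ?_
  intro a b hab
  apply hχ
  ext x
  have := congrArg (fun ψ : AddChar (W ⧸ B) ℂ => ψ (QuotientAddGroup.mk x)) hab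
  simpa [liftChar_mk] using this

/-- The isotropy bound. -/
theorem card_sq_le_of_isotropic {W Y : Type*} [AddCommGroup W] [Finite W] (B : AddSubgroup W)
    [AddCommGroup Y] [Finite Y] (φ : W → W → Y)
    (hadd : ∀ a a' b, φ (a + a') b = φ a b + φ a' b)
    (hadd' : ∀ a b b', φ a (b + b') = φ a b + φ a b')
    (hB : ∀ a ∈ B, ∀ b ∈ B, φ a b = 0) (y₀ : Y) (hy₀ : y₀ ≠ 0)
    (hnd : ∀ a, a ≠ 0 → ∃ b, φ a b = y₀) :
    Nat.card B * Nat.card B ≤ Nat.card W := by
  classical
  haveI : Fintype Y := Fintype.ofFinite Y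
  obtain ⟨ψ, hψ⟩ := AddChar.exists_apply_ne_zero.2 hy₀
  have hφ0 : ∀ b, φ 0 b = 0 := by
    intro b
    have := hadd 0 0 b
    simpa using this
  have hφ0' : ∀ a, φ a 0 = 0 := by
    intro a
    have := hadd' a 0 0
    simpa using this
  let χ : B → AddChar W ℂ := fun a =>
    { toFun := fun b => ψ (φ a.1 b)
      map_zero_eq_one' := by simp [hφ0']
      map_add_eq_mul' := fun x y => by rw [hadd', AddChar.map_add_eq_mul] }
  have hχ : ∀ a b, χ a b = ψ (φ a.1 b) := fun a b => rfl
  have hinj : Function.Injective χ := by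
    intro a a' haa
    by_contra hne
    have hne' : a.1 + (-a'.1) ≠ 0 := by
      intro h0
      apply hne
      apply Subtype.ext
      have : a.1 = a'.1 := by
        have h1 : a.1 = a.1 + (-a'.1) + a'.1 := by abel
        rw [h1, h0, zero_add]
      exact this
    obtain ⟨b, hb⟩ := hnd _ hne'
    have h1 : χ a b = χ a' b := by rw [haa]
    rw [hχ, hχ] at h1
    have h2 : φ a.1 b = y₀ + φ a'.1 b := by
      rw [← hb, ← hadd]
      congr 1
      abel
    rw [h2, AddChar.map_add_eq_mul] at h1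
    have hne0 : ψ (φ a'.1 b) ≠ 0 := by
      intro h0
      have h7 : ψ (φ a'.1 b) * ψ (-φ a'.1 b) = 1 := by
        rw [← AddChar.map_add_eq_mul, add_neg_cancel, AddChar.map_zero_eq_one]
      rw [h0, zero_mul] at h7
      exact zero_ne_one h7
    exact hψ (mul_right_cancel₀ hne0 (by rw [h1, one_mul]))
  have h1 := card_le_of_char_inj B χ hinj (fun a b hb => by
    rw [hχ, hB a.1 a.2 b hb]
    exact ψ.map_zero_eq_one)
  have h2 := B.card_mul_index
  calc Nat.card B * Nat.card B ≤ Nat.card B * B.index := Nat.mul_le_mul_left _ h1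
    _ = Nat.card W := h2

variable {F : Type u} [Field F] {V : Type v} [AddCommGroup V] [Module F V]
variable {σ : F →+* F} {h : V → V → F}

section fieldcount

variable (σ) in
/-- The non-zero fixed elements, as a group. -/
def fqU : Subgroup Fˣ where
  carrier := {u | σ (u : F) = u}
  mul_mem' := by
    intro a b (ha : σ (a : F) = a) (hb : σ (b : F) = b)
    show σ ((a * b : Fˣ) : F) = ((a * b : Fˣ) : F)
    simp [ha, hb]
  one_mem' := by
    show σ ((1 : Fˣ) : F) = ((1 : Fˣ) : F)
    simp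
  inv_mem' := by
    intro a (ha : σ (a : F) = a)
    show σ ((a⁻¹ : Fˣ) : F) = ((a⁻¹ : Fˣ) : F)
    simp [ha]

variable (σ) in
/-- The fixed field as an additive group. -/
def fixF : AddSubgroup F where
  carrier := {x | σ x = x}
  add_mem' := by
    intro a b (ha : σ a = a) (hb : σ b = b)
    show σ (a + b) = a + b
    rw [map_add, ha, hb]
  zero_mem' := map_zero σ
  neg_mem' := by
    intro a (ha : σ a = a)
    show σ (-a) = -a
    rw [map_neg, ha]

theorem card_fix_eq_pure [Finite F] (hσ : Invol σ) : Nat.card (fixF σ) = Nat.card (pureF σ) := by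
  obtain ⟨c, hc0, hc⟩ := hσ.exists_pure
  have hsc : σ c = -c := by linear_combination hc
  apply Nat.card_congr
  refine Equiv.ofBijective (fun x => ⟨x.1 * c, ?_⟩) ⟨?_, ?_⟩
  · show x.1 * c + σ (x.1 * c) = 0
    rw [map_mul, hsc, show σ x.1 = x.1 from x.2]
    ring
  · intro a b hab
    apply Subtype.ext
    exact mul_right_cancel₀ hc0 (congrArg Subtype.val hab)
  · rintro ⟨y, (hy : y + σ y = 0)⟩
    have hsy : σ y = -y := by linear_combination hy
    refine ⟨⟨y * c⁻¹, ?_⟩, ?_⟩
    · show σ (y * c⁻¹) = y * c⁻¹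
      rw [map_mul, map_inv₀, hsy, hsc]
      field_simp
    · apply Subtype.ext
      show y * c⁻¹ * c = y
      field_simp

theorem card_fqU_add_one [Finite F] (hσ : Invol σ) :
    Nat.card (fqU σ) + 1 = Nat.card (pureF σ) := by
  classical
  rw [← card_fix_eq_pure hσ]
  have : Nat.card (fixF σ) = Nat.card (Option (fqU σ)) := by
    apply Nat.card_congr
    refine Equiv.ofBijective (fun x => if hx : x.1 = 0 then none else
      some ⟨Units.mk0 x.1 hx, x.2⟩) ⟨?_, ?_⟩
    · intro a b hab
      by_cases ha : a.1 = 0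
      · by_cases hb : b.1 = 0
        · exact Subtype.ext (ha.trans hb.symm)
        · simp [ha, hb] at hab
      · by_cases hb : b.1 = 0
        · simp [ha, hb] at hab
        · simp only [ha, hb, dite_false, Option.some.injEq] at hab
          apply Subtype.ext
          have h1 := congrArg (fun u : fqU σ => ((u.1 : Fˣ) : F)) hab
          simpa using h1
    · intro x
      cases x with
      | none => exact ⟨⟨0, (fixF σ).zero_mem⟩, by simp⟩
      | some u =>
        refine ⟨⟨(u.1 : F), u.2⟩, ?_⟩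
        simp only [Units.ne_zero, dite_false, Option.some.injEq]
        apply Subtype.ext
        apply Units.ext
        rfl
  rw [this, Finite.card_option]

end fieldcount

section mult

variable [Finite F] (hσ : Invol σ) (A : AddSubgroup F)

/-- Multiplying an additive subgroup by a scalar. -/
def scaleA (r : F) (A : AddSubgroup F) : AddSubgroup F := A.map (AddMonoidHom.mulRight r)

theorem mem_scaleA {r x : F} (hr : r ≠ 0) : x ∈ scaleA r A ↔ x * r⁻¹ ∈ A := by
  constructor
  · rintro ⟨a, ha, rfl⟩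
    show a * r * r⁻¹ ∈ A
    rwa [mul_assoc, mul_inv_cancel₀ hr, mul_one]
  · intro hx
    refine ⟨_, hx, ?_⟩
    show x * r⁻¹ * r = x
    rw [mul_assoc, inv_mul_cancel₀ hr, mul_one]

/-- The stabilizer of `A` in the group of fixed scalars. -/
def stabA (σ : F →+* F) (A : AddSubgroup F) : Subgroup (fqU σ) where
  carrier := {u | ∀ x, x ∈ A ↔ x * ((u.1 : Fˣ) : F) ∈ A}
  mul_mem' := by
    intro a b ha hb x
    have h1 : x * (((a * b : fqU σ).1 : Fˣ) : F) = x * ((a.1 : Fˣ) : F) * ((b.1 : Fˣ) : F) := by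
      simp [mul_assoc]
    rw [h1, ← hb, ← ha]
  one_mem' := by
    intro x
    simp
  inv_mem' := by
    intro a ha x
    have h1 : x = x * (((a⁻¹ : fqU σ).1 : Fˣ) : F) * ((a.1 : Fˣ) : F) := by
      simp [mul_assoc]
    have h2 := ha (x * (((a⁻¹ : fqU σ).1 : Fˣ) : F))
    rw [← h1] at h2
    exact h2.symm

theorem mem_stabA {u : fqU σ} : u ∈ stabA σ A ↔ ∀ x, x ∈ A ↔ x * ((u.1 : Fˣ) : F) ∈ A := Iff.rfl

theorem scaleA_eq_iff (a b : fqU σ) :
    scaleA ((a.1 : Fˣ) : F) A = scaleA ((b.1 : Fˣ) : F) A ↔ a⁻¹ * b ∈ stabA σ A := by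
  have ha0 : ((a.1 : Fˣ) : F) ≠ 0 := Units.ne_zero _
  have hb0 : ((b.1 : Fˣ) : F) ≠ 0 := Units.ne_zero _
  rw [mem_stabA]
  have hval : ∀ x : F, x * (((a⁻¹ * b : fqU σ).1 : Fˣ) : F) = x * ((b.1 : Fˣ) : F) * ((a.1 : Fˣ) : F)⁻¹ := by
    intro x
    simp only [Subgroup.coe_mul, Subgroup.coe_inv, Units.val_mul, Units.val_inv_eq_inv_val]
    ring
  constructor
  · intro hab x
    rw [hval, ← mem_scaleA A ha0, hab, mem_scaleA A hb0]
    have : x * ((b.1 : Fˣ) : F) * ((b.1 : Fˣ) : F)⁻¹ = x := by field_simp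
    rw [this]
  · intro hab
    ext x
    rw [mem_scaleA A ha0, mem_scaleA A hb0, hab (x * ((b.1 : Fˣ) : F)⁻¹), hval]
    have : x * ((b.1 : Fˣ) : F)⁻¹ * ((b.1 : Fˣ) : F) * ((a.1 : Fˣ) : F)⁻¹ = x * ((a.1 : Fˣ) : F)⁻¹ := by
      field_simp
    rw [this]

include hσ in
/-- Counting multiples of a proper subgroup of the pure elements. -/
theorem card_mult_aux (hA : A ≤ pureF σ) (hne : A ≠ pureF σ) :
    Nat.card A * (Nat.card (stabA σ A) + 1) ≤ Nat.card (pureF σ) := by
  classical
  have hx : ∃ x ∈ pureF σ, x ∉ A := by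
    by_contra hc
    push Not at hc
    exact hne (le_antisymm hA hc)
  obtain ⟨x, hxp, hxA⟩ := hx
  rw [mul_comm, ← Finite.card_option (α := stabA σ A), ← Nat.card_prod]
  let φ : Option (stabA σ A) × A → pureF σ := fun p => match p.1 with
    | none => ⟨p.2.1, hA p.2.2⟩
    | some u => ⟨x * ((u.1.1 : Fˣ) : F) + p.2.1, by
        apply (pureF σ).add_mem _ (hA p.2.2)
        show x * ((u.1.1 : Fˣ) : F) + σ (x * ((u.1.1 : Fˣ) : F)) = 0
        have h1 : σ ((u.1.1 : Fˣ) : F) = ((u.1.1 : Fˣ) : F) := u.1.2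
        have h2 : x + σ x = 0 := hxp
        rw [map_mul, h1]
        linear_combination ((u.1.1 : Fˣ) : F) * h2⟩
  refine Nat.card_le_card_of_injective φ ?_
  rintro ⟨a, b⟩ ⟨c, d⟩ hab
  cases a with
  | none =>
    cases c with
    | none =>
      have h1 : b.1 = d.1 := congrArg (fun x : pureF σ => x.1) hab
      rw [Prod.mk.injEq]
      exact ⟨rfl, Subtype.ext h1⟩
    | some u =>
      exfalso
      have h1 : b.1 = x * ((u.1.1 : Fˣ) : F) + d.1 := congrArg (fun x : pureF σ => x.1) hab
      have h2 : x * ((u.1.1 : Fˣ) : F) ∈ A := by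
        have : x * ((u.1.1 : Fˣ) : F) = b.1 - d.1 := by rw [h1]; ring
        rw [this]
        exact A.sub_mem b.2 d.2
      exact hxA ((u.2 x).2 h2)
  | some u =>
    cases c with
    | none =>
      exfalso
      have h1 : x * ((u.1.1 : Fˣ) : F) + b.1 = d.1 := congrArg (fun x : pureF σ => x.1) hab
      have h2 : x * ((u.1.1 : Fˣ) : F) ∈ A := by
        have : x * ((u.1.1 : Fˣ) : F) = d.1 - b.1 := by rw [← h1]; ring
        rw [this]
        exact A.sub_mem d.2 b.2
      exact hxA ((u.2 x).2 h2)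
    | some v =>
      have h1 : x * ((u.1.1 : Fˣ) : F) + b.1 = x * ((v.1.1 : Fˣ) : F) + d.1 :=
        congrArg (fun x : pureF σ => x.1) hab
      by_cases huv : ((u.1.1 : Fˣ) : F) = ((v.1.1 : Fˣ) : F)
      · have huv' : u = v := by
          apply Subtype.ext
          apply Subtype.ext
          apply Units.ext
          exact huv
        subst huv'
        have h2 : b.1 = d.1 := by
          have := h1
          exact add_left_cancel this
        rw [Prod.mk.injEq]
        exact ⟨rfl, Subtype.ext h2⟩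
      · exfalso
        set r := ((u.1.1 : Fˣ) : F) - ((v.1.1 : Fˣ) : F) with hr
        have hr0 : r ≠ 0 := sub_ne_zero.2 huv
        let m : A → A := fun a => ⟨a.1 * r, by
          rw [hr, mul_sub]
          exact A.sub_mem ((u.2 a.1).1 a.2) ((v.2 a.1).1 a.2)⟩
        have hm : Function.Injective m := by
          intro a b hab
          apply Subtype.ext
          exact mul_right_cancel₀ hr0 (Subtype.ext_iff.1 hab)
        have hm' := Finite.injective_iff_surjective.1 hm
        have hd : d.1 - b.1 ∈ A := A.sub_mem d.2 b.2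
        obtain ⟨a₀, ha₀⟩ := hm' ⟨_, hd⟩
        have h3 : a₀.1 * r = d.1 - b.1 := Subtype.ext_iff.1 ha₀
        have h4 : x * r = d.1 - b.1 := by
          rw [hr]
          linear_combination h1
        have h5 : a₀.1 = x := mul_right_cancel₀ hr0 (h3.trans h4.symm)
        exact hxA (h5 ▸ a₀.2)

/-- The set of multiples of `A`. -/
abbrev multSet (σ : F →+* F) (A : AddSubgroup F) : Set (AddSubgroup F) :=
  Set.range fun u : fqU σ => scaleA ((u.1 : Fˣ) : F) A

include hσ in
theorem card_multSet_mul : Nat.card (multSet σ A) * Nat.card (stabA σ A) + 1 =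
    Nat.card (pureF σ) := by
  rw [card_range_of_cosets (stabA σ A) (fun u : fqU σ => scaleA ((u.1 : Fˣ) : F) A)
    (fun a b => scaleA_eq_iff A a b)]
  exact card_fqU_add_one hσ

include hσ in
theorem card_le_multSet (hA : A ≤ pureF σ) (hne : A ≠ pureF σ) :
    Nat.card A ≤ Nat.card (multSet σ A) := by
  have h1 := card_mult_aux hσ A hA hne
  have h2 := card_multSet_mul hσ A
  have h3 : 0 < Nat.card (stabA σ A) := Nat.card_pos
  have h4 : 0 < Nat.card A := Nat.card_pos
  by_contra hc
  push Not at hc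
  have h5 : Nat.card (multSet σ A) * Nat.card (stabA σ A) + Nat.card (stabA σ A) ≤
      Nat.card A * Nat.card (stabA σ A) := by
    have := Nat.mul_le_mul_right (Nat.card (stabA σ A)) (Nat.succ_le_of_lt hc)
    rwa [Nat.succ_mul] at this
  nlinarith

include hσ in
theorem card_lt_multSet (hA : A ≤ pureF σ) (hne : A ≠ pureF σ) (hb : A ≠ ⊥) :
    Nat.card A + 1 ≤ Nat.card (multSet σ A) := by
  have h1 := card_mult_aux hσ A hA hne
  have h2 := card_multSet_mul hσ A
  have h3 : 0 < Nat.card (stabA σ A) := Nat.card_pos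
  have h4 : 2 ≤ Nat.card A := by
    have : Nontrivial A := (AddSubgroup.nontrivial_iff_ne_bot A).2 hb
    exact Nat.succ_le_of_lt Finite.one_lt_card
  by_contra hc
  push Not at hc
  have h5 : Nat.card (multSet σ A) ≤ Nat.card A := by omega
  have h6 := Nat.mul_le_mul_right (Nat.card (stabA σ A)) h5
  nlinarith

end mult

section main

variable [Finite F] [FiniteDimensional F V] (S : HForm σ h) (hσ : Invol σ) {e f : V} (H : IsHP h e f)

include S hσ H

theorem Bof_top : Bof S hσ H ⊤ = (perp2 S e f).toAddSubgroup := by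
  ext w
  constructor
  · rintro ⟨hw, -⟩
    exact hw
  · intro hw
    have hw' : w ∈ perp2 S e f := hw
    obtain ⟨a, ha⟩ := hσ.exists_trace (- h w w) (by rw [map_neg, S.self_fix])
    have hha : a + σ a + h w w = 0 := by rw [ha]; ring
    obtain ⟨g, hg⟩ := exists_eichAt S H.ee hw'.1 hha
    exact ⟨hw', ⟨g, hg.mem_suGroup S⟩, trivial, a, hg⟩

theorem card_Bof_top : Nat.card (Bof S hσ H ⊤) = Nat.card (perp2 S e f) := by
  rw [Bof_top S hσ H]
  rfl

theorem Bof_le (K : Subgroup (suGroup h)) : ∀ w ∈ Bof S hσ H K, w ∈ perp2 S e f := fun _ hw => hw.1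

/-- Torus elements. -/
theorem exists_NP_torus (hV : 3 ≤ finrank F V) {t : F} (ht : t ≠ 0) :
    ∃ y : suGroup h, NP σ e f t y.1 := by
  obtain ⟨w₀, hw₀, hww⟩ := exists_nonisotropic_perp2 S hσ hV H
  have hst : σ t ≠ 0 := by simpa using ht
  obtain ⟨d, hd⟩ := exists_dAt S hσ H ht
  have hβ : (σ t * t⁻¹) * σ (σ t * t⁻¹) = 1 := by
    rw [map_mul, map_inv₀, hσ.invol]
    field_simp
  obtain ⟨r, hr⟩ := exists_qrAt S hww hβ
  have hu : d * r ∈ uGroup h := mul_mem (hd.mem_uGroup S hσ) (hr.mem_uGroup S)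
  have hdet : LinearMap.det (((d * r : V ≃ₗ[F] V) : V ≃ₗ[F] V) : V →ₗ[F] V) = 1 := by
    rw [dt_mul, hd.det S, hr.det S]
    field_simp
  refine ⟨⟨d * r, mem_suGroup.2 ⟨hu, hdet⟩⟩, ht, ?_, ?_⟩
  · show d (r e) = _
    rw [hr.apply_orth (S.zero_symm hw₀.1), hd.apply_left S]
  · show d (r f) = _
    rw [hr.apply_orth (S.zero_symm hw₀.2), hd.apply_right S]

/-- Lifting from the complement. -/
theorem exists_lift (g₀ : suGroup (fun a b : perp2 S e f => h a b)) :
    ∃ y : suGroup h, NP σ e f 1 y.1 ∧ ∀ x : perp2 S e f, y.1 x = g₀.1 x := by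
  have h1 : g₀.1 ∈ eGroup σ (fun a b : perp2 S e f => h a b) := by
    rw [← suGroup_eq_eGroup hσ (restrict S H) (h := fun a b : perp2 S e f => h a b)]
    exact g₀.2
  obtain ⟨ε, hε, h2, h3, h4⟩ := ext_eGroup S hσ H h1
  refine ⟨⟨ε, eGroup_le_suGroup S hε⟩, ⟨one_ne_zero, ?_, ?_⟩, h2⟩
  · rw [one_smul]; exact h3
  · rw [map_one, inv_one, one_smul]; exact h4

/-- Commutators of elements of `K ∩ radQ` give root elements of `K`. -/
theorem comm_mem_Aof {K : Subgroup (suGroup h)} {w w' : V} (hw : w ∈ Bof S hσ H K)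
    (hw' : w' ∈ Bof S hσ H K) : h w w' - σ (h w w') ∈ Aof S hσ e H.ee K := by
  obtain ⟨-, g, hgK, a, E⟩ := hw
  obtain ⟨-, g', hg'K, a', E'⟩ := hw'
  have h1 := (E.mul S E').mul S ((E'.mul S E).inv S hσ)
  have h0 : w + w' + -(w' + w) = 0 := by abel
  rw [h0] at h1
  have ha := E.ha
  have ha' := E'.ha
  have hc : a + a' - h w' w + σ (a' + a - h w w') - h (-(w' + w)) (w + w') = h w w' - σ (h w w') := by
    have h3 : σ (h w w') = h w' w := (S.conj w w').symm
    simp only [map_add, map_sub, S.neg_left, S.add_left, S.add_right, h3]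
    linear_combination ha + ha'
  rw [hc] at h1
  exact ⟨g * g' * (g' * g)⁻¹, K.mul_mem (K.mul_mem hgK hg'K) (K.inv_mem (K.mul_mem hg'K hgK)), h1⟩

/-- The isotropy bound for `Bof`. -/
theorem card_Bof_sq_le (K : Subgroup (suGroup h)) (hA : Aof S hσ e H.ee K ≠ pureF σ) :
    Nat.card (Bof S hσ H K) * Nat.card (Bof S hσ H K) ≤ Nat.card (perp2 S e f) := by
  classical
  haveI : Finite V := Module.finite_of_finite F
  set A := Aof S hσ e H.ee K with hAdef
  have hle : A ≤ pureF σ := Aof_le_pure S hσ e H.ee K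
  have hx : ∃ x ∈ pureF σ, x ∉ A := by
    by_contra hc
    push Not at hc
    exact hA (le_antisymm hle hc)
  obtain ⟨c₀, hc₀p, hc₀A⟩ := hx
  have hc₀ : c₀ + σ c₀ = 0 := hc₀p
  let B' : AddSubgroup (perp2 S e f) := (Bof S hσ H K).addSubgroupOf (perp2 S e f).toAddSubgroup
  have hcardB : Nat.card B' = Nat.card (Bof S hσ H K) := by
    apply Nat.card_congr
    exact
      { toFun := fun x => ⟨x.1.1, x.2⟩
        invFun := fun x => ⟨⟨x.1, x.2.1⟩, x.2⟩
        left_inv := fun x => rfl
        right_inv := fun x => rfl }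
  rw [← hcardB]
  let φ : perp2 S e f → perp2 S e f → (F ⧸ A) := fun a b =>
    QuotientAddGroup.mk (h a b - σ (h a b))
  refine card_sq_le_of_isotropic B' φ ?_ ?_ ?_ (QuotientAddGroup.mk c₀) ?_ ?_
  · intro a a' b
    show QuotientAddGroup.mk _ = QuotientAddGroup.mk _ + QuotientAddGroup.mk _
    rw [← QuotientAddGroup.mk_add]
    congr 1
    show h (a.1 + a'.1) b.1 - σ (h (a.1 + a'.1) b.1) = _
    rw [S.add_left, map_add]
    ring
  · intro a b b'
    show QuotientAddGroup.mk _ = QuotientAddGroup.mk _ + QuotientAddGroup.mk _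
    rw [← QuotientAddGroup.mk_add]
    congr 1
    show h a.1 (b.1 + b'.1) - σ (h a.1 (b.1 + b'.1)) = _
    rw [S.add_right, map_add]
    ring
  · intro a ha b hb
    have h1 := comm_mem_Aof S hσ H ha hb
    exact (QuotientAddGroup.eq_zero_iff _).2 h1
  · intro h0
    exact hc₀A ((QuotientAddGroup.eq_zero_iff _).1 h0)
  · intro a ha0
    have hnd : ∃ b : perp2 S e f, h a.1 b.1 ≠ 0 := by
      by_contra hc
      push Not at hc
      exact ha0 (Subtype.ext (perp2_nd S H a.1 a.2 (fun v hv => hc ⟨v, hv⟩)))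
    obtain ⟨b, hb⟩ := hnd
    obtain ⟨l, hl⟩ := hσ.exists_sub_eq c₀ hc₀
    -- want `y = -l`, `y - σ y = c₀`
    have hsb : σ (h a.1 b.1) ≠ 0 := by simpa using hb
    refine ⟨⟨σ (-l / h a.1 b.1) • b.1, (perp2 S e f).smul_mem _ b.2⟩, ?_⟩
    show QuotientAddGroup.mk _ = QuotientAddGroup.mk _
    congr 1
    show h a.1 (σ (-l / h a.1 b.1) • b.1) - σ (h a.1 (σ (-l / h a.1 b.1) • b.1)) = c₀
    have h5 : h a.1 (σ (-l / h a.1 b.1) • b.1) = -l := by
      rw [S.smul_right, hσ.invol]
      field_simp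
    rw [h5, map_neg, ← hl]
    ring

/-- The family bound: multiples and a family of conjugates. -/
theorem family_bound [Finite (suGroup h)] (hV : 3 ≤ finrank F V) (K : Subgroup (suGroup h))
    {J : Type*} [Finite J] (g : J → suGroup h) (s : J → F)
    (hg : ∀ j, NP σ e f (s j) (g j).1) (hs : ∀ j, s j * σ (s j) = 1)
    (hJ : Function.Injective fun j => (Bof S hσ H K).map (hatY σ (s j) (g j).1)) :
    Nat.card (multSet σ (Aof S hσ e H.ee K)) * Nat.card J *
        (Nat.card (Aof S hσ e H.ee ⊤) * Nat.card (Bof S hσ H ⊤)) ≤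
      K.index * (Nat.card (Aof S hσ e H.ee K) * Nat.card (Bof S hσ H K)) := by
  classical
  set A := Aof S hσ e H.ee K with hAdef
  -- torus elements with prescribed norm
  have hT : ∀ u : fqU σ, ∃ t : F, t * σ t = ((u.1 : Fˣ) : F) ∧ t ≠ 0 := by
    intro u
    obtain ⟨l, hl⟩ := hσ.exists_norm ((u.1 : Fˣ) : F) (Units.ne_zero _) u.2
    refine ⟨l, hl, ?_⟩
    rintro rfl
    rw [zero_mul] at hl
    exact Units.ne_zero _ hl.symm
  choose tT htT ht0 using hT
  choose yT hyT using fun u => exists_NP_torus S hσ H hV (ht0 u)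
  have hch : ∀ A' : multSet σ A, ∃ u : fqU σ, scaleA ((u.1 : Fˣ) : F) A = A'.1 := fun A' => A'.2
  choose uC huC using hch
  let ι := multSet σ A × J
  let y : ι → suGroup h := fun p => yT (uC p.1) * g p.2
  let t : ι → F := fun p => tT (uC p.1) * s p.2
  have hy : ∀ p, NP σ e f (t p) (y p).1 := fun p => (hyT _).mul (hg _)
  have hA : ∀ p : ι, Aof S hσ e H.ee (cj (y p) K) = p.1.1 := by
    intro p
    show Aof S hσ e H.ee (cj (yT (uC p.1) * g p.2) K) = _
    rw [cj_mul, Aof_conj S hσ H (hyT _), Aof_conj S hσ H (hg _), hs, ← huC p.1, htT]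
    show (A.map _).map _ = A.map _
    rw [AddSubgroup.map_map]
    congr 1
    ext x
    simp
  have hB : ∀ p : ι, Bof S hσ H (cj (y p) K) =
      ((Bof S hσ H K).map (hatY σ (s p.2) (g p.2).1)).map (hatY σ (tT (uC p.1)) (yT (uC p.1)).1) := by
    intro p
    show Bof S hσ H (cj (yT (uC p.1) * g p.2) K) = _
    rw [cj_mul, Bof_conj S hσ H (hyT _), Bof_conj S hσ H (hg _)]
  have hinj : Function.Injective fun p : ι =>
      (Aof S hσ e H.ee (cj (y p) K), Bof S hσ H (cj (y p) K)) := by
    rintro ⟨A₁, j₁⟩ ⟨A₂, j₂⟩ hp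
    have h1 := congrArg Prod.fst hp
    have h2 := congrArg Prod.snd hp
    simp only [hA] at h1
    have hA12 : A₁ = A₂ := Subtype.ext h1
    subst hA12
    simp only [hB] at h2
    have h3 := AddSubgroup.map_injective (hatY_injective hσ (ht0 (uC A₁)) (yT (uC A₁)).1) h2
    rw [Prod.mk.injEq]
    exact ⟨rfl, hJ h3⟩
  have := main_count S hσ H K y t hy hinj
  rwa [Nat.card_prod] at this

/-- Consequence: the bound without multiples. -/
theorem family_bound₁ [Finite (suGroup h)] (hV : 3 ≤ finrank F V) (K : Subgroup (suGroup h))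
    (hA : Aof S hσ e H.ee K ≠ pureF σ)
    {J : Type*} [Finite J] (g : J → suGroup h) (s : J → F)
    (hg : ∀ j, NP σ e f (s j) (g j).1) (hs : ∀ j, s j * σ (s j) = 1)
    (hJ : Function.Injective fun j => (Bof S hσ H K).map (hatY σ (s j) (g j).1)) :
    Nat.card J * (Nat.card (pureF σ) * Nat.card (perp2 S e f)) ≤
      K.index * Nat.card (Bof S hσ H K) := by
  have h1 := family_bound S hσ H hV K g s hg hs hJ
  rw [Aof_top, card_Bof_top S hσ H] at h1
  have h2 := card_le_multSet hσ _ (Aof_le_pure S hσ e H.ee K) hA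
  have h3 : 0 < Nat.card (Aof S hσ e H.ee K) := Nat.card_pos
  refine Nat.le_of_mul_le_mul_left ?_ h3
  calc Nat.card (Aof S hσ e H.ee K) * (Nat.card J * (Nat.card (pureF σ) * Nat.card (perp2 S e f)))
      = Nat.card (Aof S hσ e H.ee K) * Nat.card J * (Nat.card (pureF σ) * Nat.card (perp2 S e f)) := by
        ring
    _ ≤ Nat.card (multSet σ (Aof S hσ e H.ee K)) * Nat.card J *
        (Nat.card (pureF σ) * Nat.card (perp2 S e f)) := by
        apply Nat.mul_le_mul_right
        exact Nat.mul_le_mul_right _ h2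
    _ ≤ _ := h1
    _ = _ := by ring

/-- Consequence: a strictly better bound when `A` is non-trivial. -/
theorem family_bound₂ [Finite (suGroup h)] (hV : 3 ≤ finrank F V) (K : Subgroup (suGroup h))
    (hA : Aof S hσ e H.ee K ≠ pureF σ) (hA0 : Aof S hσ e H.ee K ≠ ⊥)
    {J : Type*} [Finite J] (g : J → suGroup h) (s : J → F)
    (hg : ∀ j, NP σ e f (s j) (g j).1) (hs : ∀ j, s j * σ (s j) = 1)
    (hJ : Function.Injective fun j => (Bof S hσ H K).map (hatY σ (s j) (g j).1)) :
    Nat.card J * ((Nat.card (pureF σ) + 1) * Nat.card (perp2 S e f)) ≤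
      K.index * Nat.card (Bof S hσ H K) := by
  have h1 := family_bound S hσ H hV K g s hg hs hJ
  rw [Aof_top, card_Bof_top S hσ H] at h1
  have h2 := card_lt_multSet hσ _ (Aof_le_pure S hσ e H.ee K) hA hA0
  have h3 : 0 < Nat.card (Aof S hσ e H.ee K) := Nat.card_pos
  have h4 : Nat.card (Aof S hσ e H.ee K) ≤ Nat.card (pureF σ) := by
    exact Nat.card_le_card_of_injective
      (fun x : Aof S hσ e H.ee K => (⟨x.1, Aof_le_pure S hσ e H.ee K x.2⟩ : pureF σ))
      (fun a b hab => Subtype.ext (congrArg (fun x : pureF σ => x.1) hab))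
  refine Nat.le_of_mul_le_mul_left ?_ h3
  set a := Nat.card (Aof S hσ e H.ee K)
  set m := Nat.card (multSet σ (Aof S hσ e H.ee K))
  set p := Nat.card (pureF σ)
  set j := Nat.card J
  set w := Nat.card (perp2 S e f)
  set b := Nat.card (Bof S hσ H K)
  have h5 : a * (p + 1) ≤ m * p := by
    calc a * (p + 1) = a * p + a := by ring
      _ ≤ a * p + p := by omega
      _ = (a + 1) * p := by ring
      _ ≤ m * p := Nat.mul_le_mul_right _ h2
  calc a * (j * ((p + 1) * w)) = (a * (p + 1)) * (j * w) := by ring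
    _ ≤ (m * p) * (j * w) := Nat.mul_le_mul_right _ h5
    _ = m * j * (p * w) := by ring
    _ ≤ K.index * (a * b) := h1
    _ = a * (K.index * b) := by ring

end main

end Cfsg.Agent.Lib.MinSU
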