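/-
Irreducibility of `SU` on its natural module, and the dichotomy: a subgroup of small index either
contains a root group or meets the radical trivially.
-/
import Mathlib
import Cfsg.Agent.Lib.MinSU.Mult

set_option autoImplicit false
set_option linter.unusedSimpArgs false
set_option linter.unusedSectionVars false
set_option linter.style.haveILetI false
set_option linter.unusedVariables false

namespace Cfsg.Agent.Lib.MinSU

open Module Cfsg.Agent.Lib.Classical.HermBasic Cfsg.Agent.Lib.Classical.HermElem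
open Cfsg.Agent.Lib.Classical.HermGen Cfsg.Agent.Lib.Classical.HermSimple

universe u v

variable {F : Type u} [Field F] {V : Type v} [AddCommGroup V] [Module F V]
variable {σ : F →+* F} {h : V → V → F}

theorem finite_su [Finite F] [FiniteDimensional F V] : Finite (suGroup h) := by
  haveI : Finite V := Module.finite_of_finite F
  haveI : Finite (V ≃ₗ[F] V) :=
    Finite.of_injective (fun g : V ≃ₗ[F] V => (g : V → V)) DFunLike.coe_injective
  infer_instance

section field

variable [Finite F] (hσ : Invol σ)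

include hσ in
theorem card_F_eq : Nat.card F = Nat.card (pureF σ) * Nat.card (pureF σ) := by
  let f : F →+ fixF σ :=
    { toFun := fun x => ⟨x + σ x, by
        show σ (x + σ x) = x + σ x
        rw [map_add, hσ.invol]
        ring⟩
      map_zero' := by
        apply Subtype.ext
        simp
      map_add' := by
        intro a b
        apply Subtype.ext
        show a + b + σ (a + b) = a + σ a + (b + σ b)
        rw [map_add]
        ring }
  have hf : Function.Surjective f := by
    rintro ⟨t, ht⟩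
    obtain ⟨s, hs⟩ := hσ.exists_trace t ht
    exact ⟨s, Subtype.ext hs⟩
  have hker : f.ker = pureF σ := by
    ext x
    rw [AddMonoidHom.mem_ker]
    constructor
    · intro hx
      exact congrArg (fun y : fixF σ => y.1) hx
    · intro (hx : x + σ x = 0)
      exact Subtype.ext hx
  have h1 := f.ker.card_mul_index
  rw [AddSubgroup.index_eq_card] at h1
  have h2 : Nat.card (F ⧸ f.ker) = Nat.card (fixF σ) :=
    Nat.card_congr (QuotientAddGroup.quotientKerEquivOfSurjective f hf).toEquiv
  rw [h2, card_fix_eq_pure hσ, hker] at h1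
  exact h1.symm

end field

section vec

variable [Finite F] [FiniteDimensional F V] (S : HForm σ h) (hσ : Invol σ)

include S hσ

theorem exists_sing_not_orth (hV : 2 ≤ finrank F V) {x : V} (hx : x ≠ 0) :
    ∃ y, y ≠ 0 ∧ h y y = 0 ∧ h x y ≠ 0 := by
  obtain ⟨e, f, H⟩ := exists_hp S hσ hV
  by_cases h1 : h x e = 0
  · by_cases h2 : h x f = 0
    · have hxp : x ∈ perp2 S e f := ⟨h1, h2⟩
      have hnd : ∃ z ∈ perp2 S e f, h x z ≠ 0 := by
        by_contra hc
        push Not at hc
        exact hx (perp2_nd S H x hxp hc)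
      obtain ⟨z, hz, hxz⟩ := hnd
      obtain ⟨s, hs⟩ := hσ.exists_trace (- h z z) (by rw [map_neg, S.self_fix])
      have hval : h x (e + z + s • f) = h x z := by
        simp only [S.add_right, S.smul_right, h1, h2]
        ring
      refine ⟨e + z + s • f, ?_, ?_, by rwa [hval]⟩
      · intro h0
        rw [h0, S.zero_right] at hval
        exact hxz hval.symm
      · have hef := H.ef S
        have hze : h z e = 0 := hz.1
        have hzf : h z f = 0 := hz.2
        have hez : h e z = 0 := S.zero_symm hze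
        have hfz : h f z = 0 := S.zero_symm hzf
        simp only [S.add_left, S.add_right, S.smul_left, S.smul_right, H.ee, H.ff, H.fe, hef, hze,
          hzf, hez, hfz]
        linear_combination hs + h z z * 0
    · exact ⟨f, H.ne_right S, H.ff, h2⟩
  · exact ⟨e, H.ne_left S, H.ee, h1⟩

/-- An additive subgroup containing all isotropic vectors is everything. -/
theorem eq_top_of_sing (hV : 2 ≤ finrank F V) (C : AddSubgroup V)
    (hC : ∀ y, y ≠ 0 → h y y = 0 → y ∈ C) : C = ⊤ := by
  have hC' : ∀ y, h y y = 0 → y ∈ C := by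
    intro y hy
    by_cases h0 : y = 0
    · rw [h0]
      exact C.zero_mem
    · exact hC y h0 hy
  rw [eq_top_iff]
  intro x _
  by_cases hx : x = 0
  · rw [hx]
    exact C.zero_mem
  obtain ⟨y, hy0, hyy, hxy⟩ := exists_sing_not_orth S hσ hV hx
  have hyx : h y x ≠ 0 := by
    rw [S.conj x y]
    simpa using hxy
  obtain ⟨s, hs⟩ := hσ.exists_trace (- h x x) (by rw [map_neg, S.self_fix])
  set l := s / h y x with hl
  have hl1 : l * h y x = s := by
    rw [hl]
    field_simp
  have hl2 : σ l * h x y = σ s := by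
    have := congrArg σ hl1
    rw [map_mul, S.conj' y x] at this
    exact this
  have h1 : h (x + l • y) (x + l • y) = 0 := by
    simp only [S.add_left, S.add_right, S.smul_left, S.smul_right, hyy]
    linear_combination hs + hl1 + hl2
  have h2 : h (l • y) (l • y) = 0 := by
    simp only [S.smul_left, S.smul_right, hyy, mul_zero]
  have h3 : x = (x + l • y) - l • y := by abel
  rw [h3]
  exact C.sub_mem (hC' _ h1) (hC' _ h2)

/-- Irreducibility of the special unitary group on its natural module. -/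
theorem irred_su (hV : 3 ≤ finrank F V) (C : AddSubgroup V)
    (hinv : ∀ g : suGroup h, ∀ x ∈ C, g.1 x ∈ C) (hne : C ≠ ⊥) : C = ⊤ := by
  obtain ⟨a, ha, ha0⟩ : ∃ a ∈ C, a ≠ 0 := by
    by_contra hc
    push Not at hc
    exact hne (eq_bot_iff.2 fun x hx => (AddSubgroup.mem_bot).2 (hc x hx))
  obtain ⟨y, hy0, hyy, hay⟩ := exists_sing_not_orth S hσ (by omega) ha0
  obtain ⟨s, hs0, hs⟩ := hσ.exists_pure
  have hha : s + σ s + h (0 : V) 0 = 0 := by
    rw [S.zero_left, add_zero, hs]
  obtain ⟨g, hg⟩ := exists_eichAt S hyy (S.zero_left y) hha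
  have h1 : g a = a + (s * h a y) • y := by
    rw [hg.apply]
    simp [S.zero_right]
  have h2 : (s * h a y) • y ∈ C := by
    have h3 := hinv ⟨g, hg.mem_suGroup S⟩ a ha
    have h4 : g a - a = (s * h a y) • y := by
      rw [h1]
      abel
    rw [← h4]
    exact C.sub_mem h3 ha
  set c := s * h a y with hc
  have hc0 : c ≠ 0 := mul_ne_zero hs0 hay
  apply eq_top_of_sing S hσ (by omega) C
  intro z hz0 hzz
  have h5 : h (c⁻¹ • z) (c⁻¹ • z) = 0 := by
    simp only [S.smul_left, S.smul_right, hzz, mul_zero]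
  have h6 : c⁻¹ • z ≠ 0 := smul_ne_zero (inv_ne_zero hc0) hz0
  obtain ⟨g', hg'⟩ := exists_su_map S hσ hV hy0 h6 hyy h5
  have h7 := hinv g' _ h2
  rw [map_smul, hg', smul_smul, mul_inv_cancel₀ hc0, one_smul] at h7
  exact h7

end vec

section dich

variable [Finite F] [FiniteDimensional F V] (S : HForm σ h) (hσ : Invol σ)

include S hσ

theorem rootX_le_iff {e : V} (hee : h e e = 0) (K : Subgroup (suGroup h)) :
    rootX S hσ e hee ≤ K ↔ Aof S hσ e hee K = pureF σ := by
  constructor
  · intro hle
    apply le_antisymm (Aof_le_pure S hσ e hee K)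
    intro c hc
    have hha : c + σ c + h (0 : V) 0 = 0 := by
      rw [S.zero_left, add_zero]
      exact hc
    obtain ⟨g, hg⟩ := exists_eichAt S hee (S.zero_left e) hha
    exact ⟨⟨g, hg.mem_suGroup S⟩, hle ⟨c, hg⟩, hg⟩
  · intro hA g hg
    obtain ⟨a, E⟩ := hg
    have ha : a ∈ pureF σ := by
      have h2 := E.ha
      rw [S.zero_left, add_zero] at h2
      exact h2
    rw [← hA] at ha
    obtain ⟨g', hg'K, E'⟩ := ha
    have : g = g' := Subtype.ext (eich_eq_of_params E E')
    rw [this]
    exact hg'K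

theorem inf_radQ_eq_bot {e f : V} (H : IsHP h e f) {K : Subgroup (suGroup h)}
    (hA : Aof S hσ e H.ee K = ⊥) (hB : Bof S hσ H K = ⊥) : K ⊓ radQ S hσ e H.ee = ⊥ := by
  rw [eq_bot_iff]
  rintro g ⟨hgK, hgQ⟩
  have E := exists_normal_params S hσ H hgQ
  have h1 : proj e f (g.1 f) h ∈ Bof S hσ H K := ⟨proj_mem S H _, g, hgK, _, E⟩
  rw [hB, AddSubgroup.mem_bot] at h1
  rw [h1] at E
  have h2 : h (g.1 f) f ∈ Aof S hσ e H.ee K := ⟨g, hgK, E⟩
  rw [hA, AddSubgroup.mem_bot] at h2
  rw [h2] at E
  have := eich_eq_of_params E (eich_one S e H.ee)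
  rw [Subgroup.mem_bot]
  exact Subtype.ext this

/-- The lower bound when `Bof` is non-trivial. -/
theorem bound_of_Bof_ne_bot {e f : V} (H : IsHP h e f) (hV : 5 ≤ finrank F V) (q μ m : ℕ)
    (hq : Nat.card (pureF σ) = q) (hm : finrank F V = m + 2)
    (hμ : ∀ K₀ : Subgroup (suGroup (fun a b : perp2 S e f => h a b)), K₀ ≠ ⊤ → μ ≤ K₀.index)
    (K : Subgroup (suGroup h)) (hA : Aof S hσ e H.ee K ≠ pureF σ)
    (hB : Bof S hσ H K ≠ ⊥) : μ * q ^ (m + 1) ≤ K.index := by
  classical
  haveI : Finite V := Module.finite_of_finite F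
  haveI : Finite (suGroup h) := finite_su
  haveI : Finite (suGroup (fun a b : perp2 S e f => h a b)) := finite_su
  have hF : Nat.card F = q * q := by rw [card_F_eq hσ, hq]
  have hfr : finrank F (perp2 S e f) = m := by
    have := finrank_perp2 S H
    omega
  have hW : Nat.card (perp2 S e f) = q ^ (2 * m) := by
    rw [Module.natCard_eq_pow_finrank (K := F), hfr, hF, pow_mul, sq]
  set B := Bof S hσ H K with hBdef
  have hq0 : 0 < q := by
    rw [← hq]
    exact Nat.card_pos
  have hcardB := card_Bof_sq_le S hσ H K hA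
  rw [hW] at hcardB
  have hbB : Nat.card B ≤ q ^ m := by
    by_contra hc
    push Not at hc
    have : q ^ m * q ^ m < Nat.card B * Nat.card B := Nat.mul_lt_mul'' hc hc
    rw [← pow_add, ← two_mul] at this
    exact absurd (lt_of_lt_of_le this hcardB) (lt_irrefl _)
  -- the subgroup of the complement
  let B' : AddSubgroup (perp2 S e f) := B.addSubgroupOf (perp2 S e f).toAddSubgroup
  have hmemB' : ∀ x : perp2 S e f, x ∈ B' ↔ x.1 ∈ B := fun x => Iff.rfl
  let K₀ : Subgroup (suGroup (fun a b : perp2 S e f => h a b)) :=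
    { carrier := {g | ∀ x, x ∈ B' ↔ g.1 x ∈ B'}
      mul_mem' := by
        intro a b ha hb x
        show x ∈ B' ↔ a.1 (b.1 x) ∈ B'
        rw [← ha, ← hb]
      one_mem' := fun x => Iff.rfl
      inv_mem' := by
        intro a ha x
        have h1 := ha ((a⁻¹).1 x)
        have h2 : a.1 ((a⁻¹).1 x) = x := a.1.apply_symm_apply x
        rw [h2] at h1
        exact h1.symm }
  have hK₀ : K₀ ≠ ⊤ := by
    intro htop
    have hb0 : B' ≠ ⊥ := by
      intro h0
      apply hB
      rw [eq_bot_iff]
      intro x hx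
      have hx' : (⟨x, hx.1⟩ : perp2 S e f) ∈ B' := hx
      rw [h0, AddSubgroup.mem_bot] at hx'
      rw [AddSubgroup.mem_bot]
      exact congrArg Subtype.val hx'
    have hfr3 : 3 ≤ finrank F (perp2 S e f) := by omega
    have htB := irred_su (restrict S H) hσ hfr3 B' (fun g x hx => by
      have : g ∈ K₀ := by rw [htop]; trivial
      exact (this x).1 hx) hb0
    have h1 : Nat.card B = Nat.card (perp2 S e f) := by
      have h2 : Nat.card B' = Nat.card (perp2 S e f) := by
        rw [htB]
        exact Nat.card_congr AddSubgroup.topEquiv.toEquiv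
      rw [← h2]
      apply Nat.card_congr
      exact
        { toFun := fun x => ⟨⟨x.1, x.2.1⟩, x.2⟩
          invFun := fun x => ⟨x.1.1, x.2⟩
          left_inv := fun x => rfl
          right_inv := fun x => rfl }
    have h3 : 1 < q ^ m := by
      have h4 : 1 < q := by
        rw [← hq]
        obtain ⟨c, hc0, hc⟩ := hσ.exists_pure
        haveI : Nontrivial (pureF σ) := ⟨⟨⟨c, hc⟩, 0, fun h0 => hc0 (congrArg (fun x : pureF σ => x.1) h0)⟩⟩
        exact Finite.one_lt_card
      have hm0 : m ≠ 0 := by omega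
      exact Nat.one_lt_pow hm0 h4
    rw [hW] at h1
    rw [h1] at hbB
    have : q ^ m * 1 < q ^ m * q ^ m := Nat.mul_lt_mul_of_pos_left h3 (by positivity)
    rw [← pow_add, ← two_mul, mul_one] at this
    exact absurd (lt_of_lt_of_le this hbB) (lt_irrefl _)
  have hμ' := hμ K₀ hK₀
  -- the family
  choose lift hlift1 hlift2 using fun g₀ => exists_lift S hσ H g₀
  let J := suGroup (fun a b : perp2 S e f => h a b) ⧸ K₀
  let g : J → suGroup h := fun j => lift (Quotient.out j)
  have hs1 : ∀ j : J, (1 : F) * σ 1 = 1 := fun _ => by simp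
  have hJ : Function.Injective fun j : J => B.map (hatY σ 1 (g j).1) := by
    intro a b hab
    set a₀ := (Quotient.out a) with ha₀
    set b₀ := (Quotient.out b) with hb₀
    have hab' : B.map (hatY σ 1 (lift a₀).1) = B.map (hatY σ 1 (lift b₀).1) := hab
    have himg : ∀ x : perp2 S e f, x ∈ B' → ∃ y ∈ B', b₀.1 y = a₀.1 x := by
      intro x hx
      have h1 : hatY σ 1 (lift a₀).1 x.1 ∈ B.map (hatY σ 1 (lift b₀).1) := by
        rw [← hab']
        exact ⟨_, hx, rfl⟩
      obtain ⟨y, hy, hy2⟩ := h1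
      have hy2' : (lift b₀).1 y = (lift a₀).1 x.1 := by simpa using hy2
      refine ⟨⟨y, hy.1⟩, hy, ?_⟩
      apply Subtype.ext
      rw [← hlift2 b₀ ⟨y, hy.1⟩, ← hlift2 a₀ x]
      exact hy2'
    have himg' : ∀ x : perp2 S e f, x ∈ B' → ∃ y ∈ B', a₀.1 y = b₀.1 x := by
      intro x hx
      have h1 : hatY σ 1 (lift b₀).1 x.1 ∈ B.map (hatY σ 1 (lift a₀).1) := by
        rw [hab']
        exact ⟨_, hx, rfl⟩
      obtain ⟨y, hy, hy2⟩ := h1
      have hy2' : (lift a₀).1 y = (lift b₀).1 x.1 := by simpa using hy2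
      refine ⟨⟨y, hy.1⟩, hy, ?_⟩
      apply Subtype.ext
      rw [← hlift2 a₀ ⟨y, hy.1⟩, ← hlift2 b₀ x]
      exact hy2'
    have hmem : a₀⁻¹ * b₀ ∈ K₀ := by
      intro x
      constructor
      · intro hx
        obtain ⟨y, hy, hy2⟩ := himg' x hx
        have : (a₀⁻¹ * b₀).1 x = y := by
          show a₀.1.symm (b₀.1 x) = y
          rw [← hy2]
          exact a₀.1.symm_apply_apply y
        rw [this]
        exact hy
      · intro hx
        have h5 : a₀.1 ((a₀⁻¹ * b₀).1 x) = b₀.1 x := by
          show a₀.1 (a₀.1.symm (b₀.1 x)) = b₀.1 x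
          exact a₀.1.apply_symm_apply _
        obtain ⟨y, hy, hy2⟩ := himg _ hx
        rw [h5] at hy2
        have := b₀.1.injective hy2
        rw [← this]
        exact hy
    have h6 : (QuotientGroup.mk a₀ : J) = QuotientGroup.mk b₀ := QuotientGroup.eq.2 hmem
    rw [ha₀, hb₀, QuotientGroup.out_eq', QuotientGroup.out_eq'] at h6
    exact h6
  have hfam := family_bound₁ S hσ H (by omega) K hA g (fun _ => 1)
    (fun j => hlift1 _) hs1 hJ
  rw [hq, hW] at hfam
  have hJcard : Nat.card J = K₀.index := (Subgroup.index_eq_card _).symm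
  rw [hJcard] at hfam
  have hfin : q ^ m * (μ * q ^ (m + 1)) ≤ q ^ m * K.index := by
    calc q ^ m * (μ * q ^ (m + 1)) = μ * (q * q ^ (2 * m)) := by ring
      _ ≤ K₀.index * (q * q ^ (2 * m)) := Nat.mul_le_mul_right _ hμ'
      _ ≤ K.index * Nat.card B := hfam
      _ ≤ K.index * q ^ m := Nat.mul_le_mul_left _ hbB
      _ = q ^ m * K.index := by ring
  exact Nat.le_of_mul_le_mul_left hfin (by positivity)

/-- The lower bound when `Bof` is trivial but `Aof` is not. -/
theorem bound_of_Aof_ne_bot {e f : V} (H : IsHP h e f) (hV : 3 ≤ finrank F V) (q m : ℕ)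
    (hq : Nat.card (pureF σ) = q) (hm : finrank F V = m + 2)
    (K : Subgroup (suGroup h)) (hA : Aof S hσ e H.ee K ≠ pureF σ) (hA0 : Aof S hσ e H.ee K ≠ ⊥)
    (hB : Bof S hσ H K = ⊥) : (q + 1) * q ^ (2 * m) ≤ K.index := by
  classical
  haveI : Finite V := Module.finite_of_finite F
  haveI : Finite (suGroup h) := finite_su
  have hF : Nat.card F = q * q := by rw [card_F_eq hσ, hq]
  have hfr : finrank F (perp2 S e f) = m := by
    have := finrank_perp2 S H
    omega
  have hW : Nat.card (perp2 S e f) = q ^ (2 * m) := by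
    rw [Module.natCard_eq_pow_finrank (K := F), hfr, hF, pow_mul, sq]
  have hfam := family_bound₂ S hσ H hV K hA hA0 (J := Unit) (fun _ => 1) (fun _ => 1)
    (fun _ => ⟨one_ne_zero, by simp, by simp⟩) (fun _ => by simp)
    (fun a b _ => Subsingleton.elim a b)
  rw [hq, hW, hB] at hfam
  simpa using hfam

/-- The dichotomy. -/
theorem dichotomy (hV : 5 ≤ finrank F V) (q μ m : ℕ) (hq : Nat.card (pureF σ) = q)
    (hm : finrank F V = m + 2)
    (hμ : ∀ (e f : V) (H : IsHP h e f) (K₀ : Subgroup (suGroup (fun a b : perp2 S e f => h a b))),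
      K₀ ≠ ⊤ → μ ≤ K₀.index)
    (K : Subgroup (suGroup h)) (h1 : K.index < μ * q ^ (m + 1))
    (h2 : K.index < (q + 1) * q ^ (2 * m)) {e : V} (he : e ≠ 0) (hee : h e e = 0) :
    rootX S hσ e hee ≤ K ∨ K ⊓ radQ S hσ e hee = ⊥ := by
  obtain ⟨f, hff, hfe⟩ := S.exists_partner hσ he hee
  have H : IsHP h e f := ⟨hee, hff, hfe⟩
  by_cases hA : Aof S hσ e hee K = pureF σ
  · exact Or.inl ((rootX_le_iff S hσ hee K).2 hA)
  · right
    have hB : Bof S hσ H K = ⊥ := by
      by_contra hB
      exact absurd (bound_of_Bof_ne_bot S hσ H hV q μ m hq hm (hμ e f H) K hA hB) (by omega)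
    have hA0 : Aof S hσ e hee K = ⊥ := by
      by_contra hA0
      exact absurd (bound_of_Aof_ne_bot S hσ H (by omega) q m hq hm K hA hA0 hB) (by omega)
    exact inf_radQ_eq_bot S hσ H hA0 hB

end dich

end Cfsg.Agent.Lib.MinSU
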