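/-
The closure lemma: a set of isotropic vectors closed under lines contains all isotropic vectors of
its span.
-/
import Mathlib
import Cfsg.Agent.Lib.MinSU.Dich

set_option autoImplicit false
set_option linter.unusedSimpArgs false
set_option linter.unusedSectionVars false
set_option linter.style.haveILetI false
set_option linter.unusedVariables false

namespace Cfsg.Agent.Lib.MinSU

open Module Cfsg.Agent.Lib.Classical.HermBasic Cfsg.Agent.Lib.Classical.HermElem
open Cfsg.Agent.Lib.Classical.HermGen Cfsg.Agent.Lib.Classical.HermSimple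

universe u v

variable {F : Type u} [Field F] {V : Type v} [AddCommGroup V] [Module F V]
variable {σ : F →+* F} {h : V → V → F}

section fieldlemma

/-- The norm form on the hyperbolic line. -/
def nrm2 (σ : F →+* F) (a b : F) : F := a * σ b + b * σ a

theorem nrm2_sub_fix (a b : F) : σ (nrm2 σ a b) = nrm2 σ a b → True := fun _ => trivial

variable [Finite F] (hσ : Invol σ)

include hσ

/-- Two steps connect vectors of the same non-zero norm on a hyperbolic line. -/
theorem two_step {x₁ x₂ y₁ y₂ c : F} (hc : c ≠ 0) (hx : nrm2 σ x₁ x₂ = c) (hy : nrm2 σ y₁ y₂ = c)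
    (hne : ¬ (y₁ = -x₁ ∧ y₂ = -x₂)) :
    ∃ a b : F, nrm2 σ a b = c ∧ nrm2 σ (a - x₁) (b - x₂) = 0 ∧ nrm2 σ (y₁ - a) (y₂ - b) = 0 := by
  classical
  by_cases heq : y₁ = x₁ ∧ y₂ = x₂
  · refine ⟨x₁, x₂, hx, by simp [nrm2], ?_⟩
    rw [heq.1, heq.2]
    simp [nrm2]
  obtain ⟨κ₀, hκ0, hκ⟩ := hσ.exists_pure
  have hsκ : σ κ₀ = -κ₀ := by linear_combination hκ
  let φ : F → F := fun κ => σ x₂ + κ * σ x₁
  let ψ : F → F := fun κ => σ y₂ + κ * σ y₁
  have hφ0 : ∀ κ, σ κ = -κ → φ κ ≠ 0 := by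
    intro κ hk h0
    have h1 : σ x₂ = -κ * σ x₁ := by
      have : σ x₂ + κ * σ x₁ = 0 := h0
      linear_combination this
    have h2 : x₂ = κ * x₁ := by
      have := congrArg σ h1
      rw [hσ.invol, map_mul, map_neg, hk, hσ.invol] at this
      rw [this]
      ring
    apply hc
    rw [← hx, nrm2, h1, h2]
    ring
  have hψ0 : ∀ κ, σ κ = -κ → ψ κ ≠ 0 := by
    intro κ hk h0
    have h1 : σ y₂ = -κ * σ y₁ := by
      have : σ y₂ + κ * σ y₁ = 0 := h0
      linear_combination this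
    have h2 : y₂ = κ * y₁ := by
      have := congrArg σ h1
      rw [hσ.invol, map_mul, map_neg, hk, hσ.invol] at this
      rw [this]
      ring
    apply hc
    rw [← hy, nrm2, h1, h2]
    ring
  -- the good direction
  by_cases hgood : ∃ κ, σ κ = -κ ∧ σ (ψ κ / φ κ) ≠ ψ κ / φ κ
  · obtain ⟨κ, hk, hρ⟩ := hgood
    set ρ := ψ κ / φ κ with hρdef
    have hφκ := hφ0 κ hk
    have hρψ : ψ κ = ρ * φ κ := by
      rw [hρdef]
      field_simp
    set δ := nrm2 σ (y₁ - x₁) (y₂ - x₂) with hδ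
    have hδfix : σ δ = δ := by
      rw [hδ, nrm2]
      simp only [map_add, map_mul, map_sub, hσ.invol]
      ring
    have hd : ρ - σ ρ ≠ 0 := sub_ne_zero.2 (Ne.symm hρ)
    set κ' := δ / (ρ - σ ρ) with hκ'
    have hκ'1 : κ' * (ρ - σ ρ) = δ := by
      rw [hκ']
      field_simp
    have hκ'2 : σ κ' = -κ' := by
      have h3 : σ (ρ - σ ρ) = -(ρ - σ ρ) := by
        rw [map_sub, hσ.invol]
        ring
      rw [hκ', map_div₀, hδfix, h3]
      field_simp
    set l := κ' / φ κ with hl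
    have hl1 : l * φ κ = κ' := by
      rw [hl]
      field_simp
    have hl2 : l * ψ κ = κ' * ρ := by
      rw [hρψ]
      linear_combination ρ * hl1
    have hσφ : σ l * σ (φ κ) = σ κ' := by
      rw [← map_mul, hl1]
    have hσψ : σ l * σ (ψ κ) = σ κ' * σ ρ := by
      rw [← map_mul, ← map_mul, hl2]
    have hφs : σ (φ κ) = x₂ - κ * x₁ := by
      show σ (σ x₂ + κ * σ x₁) = _
      rw [map_add, map_mul, hσ.invol, hσ.invol, hk]
      ring
    have hψs : σ (ψ κ) = y₂ - κ * y₁ := by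
      show σ (σ y₂ + κ * σ y₁) = _
      rw [map_add, map_mul, hσ.invol, hσ.invol, hk]
      ring
    rw [hφs] at hσφ
    rw [hψs] at hσψ
    have hφd : σ x₂ + κ * σ x₁ = φ κ := rfl
    have hψd : σ y₂ + κ * σ y₁ = ψ κ := rfl
    have hl1' : l * (σ x₂ + κ * σ x₁) = κ' := by rw [hφd]; exact hl1
    have hl2' : l * (σ y₂ + κ * σ y₁) = κ' * ρ := by rw [hψd]; exact hl2
    refine ⟨x₁ + l, x₂ + l * κ, ?_, ?_, ?_⟩
    · rw [← hx]
      simp only [nrm2, map_add, map_mul, hk]
      rw [hκ'2] at hσφ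
      linear_combination hl1' + hσφ
    · have h1 : x₁ + l - x₁ = l := by ring
      have h2 : x₂ + l * κ - x₂ = l * κ := by ring
      rw [h1, h2]
      simp only [nrm2, map_mul, hk]
      ring
    · simp only [nrm2, map_sub, map_add, map_mul, hk]
      rw [hκ'2] at hσφ hσψ
      have hδ' : δ = (y₁ - x₁) * (σ y₂ - σ x₂) + (y₂ - x₂) * (σ y₁ - σ x₁) := by
        rw [hδ, nrm2]
        simp only [map_sub]
      have h4 : κ' * (ρ - σ ρ) = (y₁ - x₁) * (σ y₂ - σ x₂) + (y₂ - x₂) * (σ y₁ - σ x₁) := by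
        rw [hκ'1, hδ']
      linear_combination -h4 - hl2' + hl1' - hσψ + hσφ
  · -- all ratios are fixed
    exfalso
    push Not at hgood
    let P : fixF σ → fixF σ := fun r =>
      ⟨ψ (r.1 * κ₀) / φ (r.1 * κ₀), hgood _ (by
        rw [map_mul, hsκ, show σ r.1 = r.1 from r.2]
        ring)⟩
    have hk_r : ∀ r : fixF σ, σ (r.1 * κ₀) = -(r.1 * κ₀) := by
      intro r
      rw [map_mul, hsκ, show σ r.1 = r.1 from r.2]
      ring
    by_cases hinj : Function.Injective P
    · have hsurj := Finite.injective_iff_surjective.1 hinj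
      obtain ⟨r, hr⟩ := hsurj ⟨0, (fixF σ).zero_mem⟩
      have h1 : ψ (r.1 * κ₀) / φ (r.1 * κ₀) = 0 := congrArg (fun x : fixF σ => x.1) hr
      rw [div_eq_zero_iff] at h1
      rcases h1 with h1 | h1
      · exact hψ0 _ (hk_r r) h1
      · exact hφ0 _ (hk_r r) h1
    · unfold Function.Injective at hinj
      push Not at hinj
      obtain ⟨r, r', hrr, hne'⟩ := hinj
      have h1 : ψ (r.1 * κ₀) / φ (r.1 * κ₀) = ψ (r'.1 * κ₀) / φ (r'.1 * κ₀) :=
        congrArg (fun x : fixF σ => x.1) hrr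
      set κ₁ := r.1 * κ₀ with hκ₁
      set κ₂ := r'.1 * κ₀ with hκ₂
      have hκ12 : κ₁ - κ₂ ≠ 0 := by
        intro h0
        apply hne'
        apply Subtype.ext
        have : (r.1 - r'.1) * κ₀ = 0 := by rw [sub_mul]; exact h0
        have h2 := (mul_eq_zero.1 this).resolve_right hκ0
        exact sub_eq_zero.1 h2
      set r₀ := ψ κ₁ / φ κ₁ with hr₀
      have hr₀fix : σ r₀ = r₀ := hgood _ (hk_r r)
      have hp1 : ψ κ₁ = r₀ * φ κ₁ := by
        rw [hr₀]
        have := hφ0 κ₁ (hk_r r)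
        field_simp
      have hp2 : ψ κ₂ = r₀ * φ κ₂ := by
        rw [h1]
        have := hφ0 κ₂ (hk_r r')
        field_simp
      have hp1' : σ y₂ + κ₁ * σ y₁ = r₀ * (σ x₂ + κ₁ * σ x₁) := hp1
      have hp2' : σ y₂ + κ₂ * σ y₁ = r₀ * (σ x₂ + κ₂ * σ x₁) := hp2
      have h3 : σ y₁ = r₀ * σ x₁ := by
        apply mul_left_cancel₀ hκ12
        linear_combination hp1' - hp2'
      have h4 : σ y₂ = r₀ * σ x₂ := by
        linear_combination hp1' - κ₁ * h3
      have h5 : y₁ = r₀ * x₁ := by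
        have := congrArg σ h3
        rwa [hσ.invol, map_mul, hσ.invol, hr₀fix] at this
      have h6 : y₂ = r₀ * x₂ := by
        have := congrArg σ h4
        rwa [hσ.invol, map_mul, hσ.invol, hr₀fix] at this
      have h7 : r₀ * r₀ = 1 := by
        have h8 : r₀ * r₀ * c = c := by
          nth_rewrite 2 [← hy]
          rw [← hx, nrm2, nrm2, h3, h4, h5, h6]
          ring
        exact mul_right_cancel₀ hc (by rw [h8, one_mul])
      have h8 : (r₀ - 1) * (r₀ + 1) = 0 := by linear_combination h7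
      rcases mul_eq_zero.1 h8 with h9 | h9
      · have : r₀ = 1 := sub_eq_zero.1 h9
        exact heq ⟨by rw [h5, this, one_mul], by rw [h6, this, one_mul]⟩
      · have : r₀ = -1 := by linear_combination h9
        exact hne ⟨by rw [h5, this]; ring, by rw [h6, this]; ring⟩

/-- One step always exists away from the given point. -/
theorem one_step {x₁ x₂ c : F} (hc : c ≠ 0) (hx : nrm2 σ x₁ x₂ = c) :
    ∃ a : F, a ≠ 0 ∧ nrm2 σ (x₁ + a) x₂ = c := by
  obtain ⟨κ₀, hκ0, hκ⟩ := hσ.exists_pure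
  have hsκ : σ κ₀ = -κ₀ := by linear_combination hκ
  have hx2 : x₂ ≠ 0 := by
    rintro rfl
    apply hc
    rw [← hx, nrm2]
    simp
  have hsx2 : σ x₂ ≠ 0 := by simpa using hx2
  refine ⟨κ₀ / σ x₂, div_ne_zero hκ0 hsx2, ?_⟩
  rw [← hx]
  simp only [nrm2, map_add, map_div₀, hsκ, hσ.invol]
  field_simp
  ring

end fieldlemma

section closure

variable [Finite F] [FiniteDimensional F V] (S : HForm σ h) (hσ : Invol σ)

/-- Closed under lines. -/
def LineClosed (h : V → V → F) (T : Set V) : Prop :=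
  ∀ a ∈ T, ∀ b ∈ T, ∀ α β : F, α • a + β • b ≠ 0 →
    h (α • a + β • b) (α • a + β • b) = 0 → α • a + β • b ∈ T

include S hσ

theorem norm_coords {e f : V} (H : IsHP h e f) {w : V} (hw : w ∈ perp2 S e f) (a b : F) :
    h (w + a • e + b • f) (w + a • e + b • f) = h w w + nrm2 σ a b := by
  have hef := H.ef S
  have hwe : h w e = 0 := hw.1
  have hwf : h w f = 0 := hw.2
  have hew : h e w = 0 := S.zero_symm hwe
  have hfw : h f w = 0 := S.zero_symm hwf
  simp only [S.add_left, S.add_right, S.smul_left, S.smul_right, H.ee, H.ff, H.fe, hef, hwe, hwf,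
    hew, hfw, nrm2]
  ring

theorem norm_coords₀ {e f : V} (H : IsHP h e f) (a b : F) :
    h (a • e + b • f) (a • e + b • f) = nrm2 σ a b := by
  have := norm_coords S hσ H (perp2 S e f).zero_mem a b
  rw [zero_add, S.zero_left, zero_add] at this
  exact this

/-- The key step: moving along a hyperbolic line all of whose points are in `T`. -/
theorem key_step {T : Set V} (hT : LineClosed h T) {e f : V} (H : IsHP h e f)
    (hline : ∀ a b : F, a • e + b • f ≠ 0 → nrm2 σ a b = 0 → a • e + b • f ∈ T)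
    {z t : V} (hz : z ∈ T) (hzz : h z z = 0) (htt : h t t = 0) (ht0 : t ≠ 0) (x₁ x₂ : F)
    (htz : t = z + x₁ • e + x₂ • f) : t ∈ T := by
  set w := proj e f z h with hw
  have hwp : w ∈ perp2 S e f := proj_mem S H z
  set a₁ := h z f with ha₁
  set a₂ := h z e with ha₂
  have hzdec : z = w + a₁ • e + a₂ • f := decomp (e := e) (f := f) (h := h) z
  have htdec : t = w + (a₁ + x₁) • e + (a₂ + x₂) • f := by
    rw [htz, add_smul, add_smul]
    nth_rewrite 1 [hzdec]
    abel
  have hNz : h w w + nrm2 σ a₁ a₂ = 0 := by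
    rw [← norm_coords S hσ H hwp, ← hzdec, hzz]
  have hNt : h w w + nrm2 σ (a₁ + x₁) (a₂ + x₂) = 0 := by
    rw [← norm_coords S hσ H hwp, ← htdec, htt]
  -- a line move
  have hmove : ∀ b₁ b₂ c₁ c₂ : F, w + b₁ • e + b₂ • f ∈ T →
      nrm2 σ (c₁ - b₁) (c₂ - b₂) = 0 → w + c₁ • e + c₂ • f ≠ 0 →
      h (w + c₁ • e + c₂ • f) (w + c₁ • e + c₂ • f) = 0 → w + c₁ • e + c₂ • f ∈ T := by
    intro b₁ b₂ c₁ c₂ hb hd hne hN
    by_cases hd0 : (c₁ - b₁) • e + (c₂ - b₂) • f = 0
    · have h1 : w + c₁ • e + c₂ • f = w + b₁ • e + b₂ • f + ((c₁ - b₁) • e + (c₂ - b₂) • f) := by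
        rw [sub_smul, sub_smul]
        abel
      rw [h1, hd0, add_zero]
      exact hb
    · have hdT := hline _ _ hd0 hd
      have h1 : w + c₁ • e + c₂ • f = (1 : F) • (w + b₁ • e + b₂ • f) +
          (1 : F) • ((c₁ - b₁) • e + (c₂ - b₂) • f) := by
        rw [sub_smul, sub_smul, one_smul, one_smul]
        abel
      rw [h1] at hne hN ⊢
      exact hT _ hb _ hdT _ _ hne hN
  set b₁ := a₁ + x₁ with hb₁
  set b₂ := a₂ + x₂ with hb₂
  have hzT : w + a₁ • e + a₂ • f ∈ T := by rw [← hzdec]; exact hz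
  rw [htdec] at ht0 htt ⊢
  by_cases hc : nrm2 σ a₁ a₂ = 0
  · -- the degenerate case
    have hww : h w w = 0 := by rw [hc, add_zero] at hNz; exact hNz
    have hnb : nrm2 σ b₁ b₂ = 0 := by rw [hww, zero_add] at hNt; exact hNt
    by_cases hw0 : w = 0
    · have h1 : w + b₁ • e + b₂ • f = b₁ • e + b₂ • f := by rw [hw0, zero_add]
      rw [h1] at ht0 ⊢
      exact hline _ _ ht0 hnb
    have hwT : w ∈ T := by
      by_cases hX : a₁ • e + a₂ • f = 0
      · have h1 : w = w + a₁ • e + a₂ • f := by rw [add_assoc, hX, add_zero]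
        rw [h1]
        exact hzT
      · have hXT := hline _ _ hX hc
        have h1 : w = (1 : F) • (w + a₁ • e + a₂ • f) + (-1 : F) • (a₁ • e + a₂ • f) := by
          rw [one_smul, neg_one_smul]
          abel
        rw [h1]
        refine hT _ hzT _ hXT _ _ ?_ ?_
        · rw [← h1]; exact hw0
        · rw [← h1]; exact hww
    by_cases hY : b₁ • e + b₂ • f = 0
    · have h1 : w + b₁ • e + b₂ • f = w := by rw [add_assoc, hY, add_zero]
      rw [h1]
      exact hwT
    · have hYT := hline _ _ hY hnb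
      have h1 : w + b₁ • e + b₂ • f = (1 : F) • w + (1 : F) • (b₁ • e + b₂ • f) := by
        rw [one_smul, one_smul]
        abel
      rw [h1] at ht0 htt ⊢
      exact hT _ hwT _ hYT _ _ ht0 htt
  · -- the main case
    have hcb : nrm2 σ b₁ b₂ = nrm2 σ a₁ a₂ := by
      have : h w w + nrm2 σ b₁ b₂ = h w w + nrm2 σ a₁ a₂ := by rw [hNt, hNz]
      exact add_left_cancel this
    have hvec : ∀ c₁ c₂ : F, nrm2 σ c₁ c₂ = nrm2 σ a₁ a₂ →
        w + c₁ • e + c₂ • f ≠ 0 ∧ h (w + c₁ • e + c₂ • f) (w + c₁ • e + c₂ • f) = 0 := by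
      intro c₁ c₂ hcc
      have hN : h (w + c₁ • e + c₂ • f) (w + c₁ • e + c₂ • f) = 0 := by
        rw [norm_coords S hσ H hwp, hcc]
        exact hNz
      refine ⟨?_, hN⟩
      intro h0
      -- then `c₁ = c₂ = 0`
      have h1 := congrArg (fun x => h x f) h0
      have h2 := congrArg (fun x => h x e) h0
      have hef := H.ef S
      simp only [S.add_left, S.smul_left, hwp.1, hwp.2, H.ee, H.ff, H.fe, hef, S.zero_left] at h1 h2
      have h3 : c₁ = 0 := by simpa using h1
      have h4 : c₂ = 0 := by simpa using h2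
      apply hc
      rw [← hcc, h3, h4, nrm2]
      simp
    -- two-step from `(p₁, p₂)` to `(b₁, b₂)` when possible
    have htwo : ∀ p₁ p₂ : F, nrm2 σ p₁ p₂ = nrm2 σ a₁ a₂ → ¬ (b₁ = -p₁ ∧ b₂ = -p₂) →
        w + p₁ • e + p₂ • f ∈ T → w + b₁ • e + b₂ • f ∈ T := by
      intro p₁ p₂ hp hne hpT
      obtain ⟨r₁, r₂, hr, hr1, hr2⟩ := two_step hσ hc hp hcb hne
      obtain ⟨hr0, hrN⟩ := hvec r₁ r₂ hr
      have hrT := hmove p₁ p₂ r₁ r₂ hpT hr1 hr0 hrN
      exact hmove r₁ r₂ b₁ b₂ hrT hr2 ht0 htt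
    by_cases hopp : b₁ = -a₁ ∧ b₂ = -a₂
    · -- one extra step
      obtain ⟨d, hd0, hd⟩ := one_step hσ hc (rfl : nrm2 σ a₁ a₂ = nrm2 σ a₁ a₂)
      obtain ⟨hd1, hdN⟩ := hvec (a₁ + d) a₂ hd
      have hdstep : nrm2 σ (a₁ + d - a₁) (a₂ - a₂) = 0 := by
        simp [nrm2]
      have hdT := hmove a₁ a₂ (a₁ + d) a₂ hzT hdstep hd1 hdN
      refine htwo (a₁ + d) a₂ hd ?_ hdT
      rintro ⟨h1, -⟩
      apply hd0
      have h2 : -a₁ = -(a₁ + d) := by rw [← hopp.1, h1]
      have h3 : a₁ = a₁ + d := neg_injective h2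
      exact (add_eq_left.1 h3.symm)
    · exact htwo a₁ a₂ rfl hopp hzT

/-- The closure lemma. -/
theorem closure_lemma {T : Set V} (hT : LineClosed h T) (hTs : ∀ x ∈ T, h x x = 0 ∧ x ≠ 0)
    {t : V} (ht : t ∈ Submodule.span F T) (ht0 : t ≠ 0) (htt : h t t = 0) : t ∈ T := by
  classical
  obtain ⟨s, hsT, hts⟩ := Submodule.mem_span_finite_of_mem_span ht
  have hmain : ∀ s : Finset V, (↑s : Set V) ⊆ T → ∀ t ∈ Submodule.span F (s : Set V), t ≠ 0 →
      h t t = 0 → t ∈ T := by
    intro s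
    induction s using Finset.induction_on with
    | empty =>
      intro _ t ht ht0 _
      simp only [Finset.coe_empty, Submodule.span_empty, Submodule.mem_bot] at ht
      exact absurd ht ht0
    | insert z s hz ih =>
      intro hsT t ht ht0 htt
      have hzT : z ∈ T := hsT (by simp)
      have hsT' : (↑s : Set V) ⊆ T := fun x hx => hsT (by simp [Finset.mem_coe.1 hx])
      have ih' := ih hsT'
      rw [Finset.coe_insert, Submodule.mem_span_insert] at ht
      obtain ⟨c, u, hu, rfl⟩ := ht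
      by_cases hc : c = 0
      · rw [hc, zero_smul, zero_add] at ht0 htt ⊢
        exact ih' u hu ht0 htt
      have hcz0 : c • z ≠ 0 := smul_ne_zero hc (hTs z hzT).2
      have hczz : h (c • z) (c • z) = 0 := by
        simp only [S.smul_left, S.smul_right, (hTs z hzT).1, mul_zero]
      have hczT : c • z ∈ T := by
        have h1 : c • z = c • z + (0 : F) • z := by simp
        rw [h1]
        refine hT z hzT z hzT c 0 ?_ ?_
        · rw [← h1]; exact hcz0
        · rw [← h1]; exact hczz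
      by_cases hu0 : u = 0
      · rw [hu0, add_zero]
        exact hczT
      by_cases huu : h u u = 0
      · have huT := ih' u hu hu0 huu
        have h1 : c • z + u = (1 : F) • (c • z) + (1 : F) • u := by simp
        rw [h1] at ht0 htt ⊢
        exact hT _ hczT _ huT _ _ ht0 htt
      -- `u` is non-isotropic
      have hex : ∃ a ∈ s, h a u ≠ 0 := by
        by_contra hcon
        push Not at hcon
        apply huu
        have : ∀ x ∈ Submodule.span F (s : Set V), h x u = 0 := by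
          intro x hx
          induction hx using Submodule.span_induction with
          | mem x hx => exact hcon x (Finset.mem_coe.1 hx)
          | zero => exact S.zero_left u
          | add a b _ _ ha hb => rw [S.add_left, ha, hb, add_zero]
          | smul c a _ ha => rw [S.smul_left, ha, mul_zero]
        exact this u hu
      obtain ⟨a₀, ha₀s, ha₀u⟩ := hex
      have ha₀T : a₀ ∈ T := hsT' (Finset.mem_coe.2 ha₀s)
      have ha₀mem : a₀ ∈ Submodule.span F (s : Set V) := Submodule.subset_span (Finset.mem_coe.2 ha₀s)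
      have ha₀a₀ : h a₀ a₀ = 0 := (hTs a₀ ha₀T).1
      -- hyperbolic pair on the line through `a₀` and `u`
      have hua₀ : h u a₀ ≠ 0 := by
        rw [S.conj a₀ u]
        simpa using ha₀u
      set ρ := h u a₀ with hρ
      set b₀ := ρ⁻¹ • u with hb₀
      have hb₀a₀ : h b₀ a₀ = 1 := by
        rw [hb₀, S.smul_left, ← hρ]
        field_simp
      have ha₀b₀ : h a₀ b₀ = 1 := by
        rw [S.conj b₀ a₀, hb₀a₀, map_one]
      obtain ⟨μ, hμ⟩ := hσ.exists_trace (- h b₀ b₀) (by rw [map_neg, S.self_fix])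
      set f₀ := b₀ + μ • a₀ with hf₀
      have Hp : IsHP h a₀ f₀ := by
        refine ⟨ha₀a₀, ?_, ?_⟩
        · rw [hf₀]
          simp only [S.add_left, S.add_right, S.smul_left, S.smul_right, ha₀a₀, hb₀a₀, ha₀b₀]
          linear_combination hμ
        · rw [hf₀]
          simp only [S.add_left, S.smul_left, ha₀a₀, hb₀a₀]
          ring
      have hf₀mem : f₀ ∈ Submodule.span F (s : Set V) :=
        Submodule.add_mem _ (Submodule.smul_mem _ _ hu) (Submodule.smul_mem _ _ ha₀mem)
      have hline : ∀ a b : F, a • a₀ + b • f₀ ≠ 0 → nrm2 σ a b = 0 → a • a₀ + b • f₀ ∈ T := by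
        intro a b hne hN
        refine ih' _ (Submodule.add_mem _ (Submodule.smul_mem _ _ ha₀mem)
          (Submodule.smul_mem _ _ hf₀mem)) hne ?_
        rw [norm_coords₀ S hσ Hp, hN]
      have hueq : u = (-(ρ * μ)) • a₀ + ρ • f₀ := by
        rw [hf₀, hb₀, smul_add, smul_smul, mul_inv_cancel₀ hua₀, one_smul, smul_smul, neg_smul]
        abel
      refine key_step S hσ hT Hp hline hczT hczz htt ht0 (-(ρ * μ)) ρ ?_
      rw [add_assoc, ← hueq]
  exact hmain s hsT t hts ht0 htt

end closure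

end Cfsg.Agent.Lib.MinSU
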