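/-
The root set of a subgroup, its closure under lines, and the reduction to stabilizers of points.
-/
import Mathlib
import Cfsg.Agent.Lib.MinSU.Closure
import Cfsg.Agent.Lib.Classical.HermTransv

set_option autoImplicit false
set_option linter.unusedSimpArgs false
set_option linter.unusedSectionVars false
set_option linter.style.haveILetI false
set_option linter.unusedVariables false

namespace Cfsg.Agent.Lib.MinSU

open Module Cfsg.Agent.Lib.Classical.HermBasic Cfsg.Agent.Lib.Classical.HermElem
open Cfsg.Agent.Lib.Classical.HermGen Cfsg.Agent.Lib.Classical.HermSimple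

universe u v

variable {F : Type u} [Field F] {V : Type v} [AddCommGroup V] [Module F V]
variable {σ : F →+* F} {h : V → V → F}

section defs

variable [FiniteDimensional F V] (S : HForm σ h) (hσ : Invol σ)

/-- The stabilizer of a subspace. -/
def stabSub (h : V → V → F) (U : Submodule F V) : Subgroup (suGroup h) where
  carrier := {g | U.map (g.1 : V →ₗ[F] V) = U}
  mul_mem' := by
    intro a b ha hb
    show U.map ((a.1 * b.1 : V ≃ₗ[F] V) : V →ₗ[F] V) = U
    have : ((a.1 * b.1 : V ≃ₗ[F] V) : V →ₗ[F] V) = (a.1 : V →ₗ[F] V) ∘ₗ (b.1 : V →ₗ[F] V) := rfl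
    rw [this, Submodule.map_comp, hb, ha]
  one_mem' := by
    show U.map ((1 : V ≃ₗ[F] V) : V →ₗ[F] V) = U
    have : ((1 : V ≃ₗ[F] V) : V →ₗ[F] V) = LinearMap.id := rfl
    rw [this, Submodule.map_id]
  inv_mem' := by
    intro a (ha : U.map (a.1 : V →ₗ[F] V) = U)
    show U.map ((a.1⁻¹ : V ≃ₗ[F] V) : V →ₗ[F] V) = U
    ext x
    constructor
    · rintro ⟨y, hy, rfl⟩
      rw [← ha] at hy
      obtain ⟨z, hz, rfl⟩ := hy
      have : ((a.1⁻¹ : V ≃ₗ[F] V) : V →ₗ[F] V) ((a.1 : V →ₗ[F] V) z) = z := a.1.symm_apply_apply z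
      rw [this]
      exact hz
    · intro hx
      have hx' : a.1 x ∈ U := by
        rw [← ha]
        exact ⟨x, hx, rfl⟩
      exact ⟨a.1 x, hx', a.1.symm_apply_apply x⟩

theorem mem_stabSub_of_forall {U : Submodule F V} {g : suGroup h} (hg : ∀ x ∈ U, g.1 x ∈ U) :
    g ∈ stabSub h U := by
  show U.map (g.1 : V →ₗ[F] V) = U
  apply Submodule.eq_of_le_of_finrank_eq
  · rintro _ ⟨x, hx, rfl⟩
    exact hg x hx
  · exact LinearEquiv.finrank_map_eq g.1 U

theorem stabSub_apply {U : Submodule F V} {g : suGroup h} (hg : g ∈ stabSub h U) {x : V}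
    (hx : x ∈ U) : g.1 x ∈ U := by
  have hg' : U.map (g.1 : V →ₗ[F] V) = U := hg
  rw [← hg']
  exact ⟨x, hx, rfl⟩

/-- The orthogonal complement of a subspace. -/
def perpS (S : HForm σ h) (U : Submodule F V) : Submodule F V where
  carrier := {x | ∀ y ∈ U, h x y = 0}
  add_mem' := by
    intro a b ha hb y hy
    rw [S.add_left, ha y hy, hb y hy, add_zero]
  zero_mem' := fun y _ => S.zero_left y
  smul_mem' := by
    intro c x hx y hy
    rw [S.smul_left, hx y hy, mul_zero]

theorem mem_perpS {U : Submodule F V} {x : V} : x ∈ perpS S U ↔ ∀ y ∈ U, h x y = 0 := Iff.rfl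

/-- The root set of a subgroup. -/
def rootSet (K : Subgroup (suGroup h)) : Set V :=
  {v | v ≠ 0 ∧ ∃ hvv : h v v = 0, rootX S hσ v hvv ≤ K}

/-- The dichotomy as a property of a subgroup. -/
def DichAt (K : Subgroup (suGroup h)) : Prop :=
  ∀ (e : V) (he : e ≠ 0) (hee : h e e = 0), rootX S hσ e hee ≤ K ∨ K ⊓ radQ S hσ e hee = ⊥

include S hσ

theorem exists_tau {e : V} (hee : h e e = 0) {c : F} (hc : c + σ c = 0) :
    ∃ g : suGroup h, EichAt σ h e 0 c g.1 ∧ ∀ x, g.1 x = x + (c * h x e) • e := by
  have hha : c + σ c + h (0 : V) 0 = 0 := by rw [S.zero_left, add_zero, hc]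
  obtain ⟨g, hg⟩ := exists_eichAt S hee (S.zero_left e) hha
  refine ⟨⟨g, hg.mem_suGroup S⟩, hg, fun x => ?_⟩
  show g x = _
  rw [hg.apply]
  simp [S.zero_right]

variable {K : Subgroup (suGroup h)}

theorem rootSet_smul {v : V} (hv : v ∈ rootSet S hσ K) {c : F} (hc : c ≠ 0) :
    c • v ∈ rootSet S hσ K := by
  obtain ⟨hv0, hvv, hle⟩ := hv
  have hcc : h (c • v) (c • v) = 0 := by
    simp only [S.smul_left, S.smul_right, hvv, mul_zero]
  refine ⟨smul_ne_zero hc hv0, hcc, ?_⟩
  rintro g ⟨a, E⟩
  have h1 := E.smul_center S hσ hc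
  rw [smul_zero] at h1
  exact hle ⟨_, h1⟩

theorem rootSet_conj {v : V} (hv : v ∈ rootSet S hσ K) {g : suGroup h} (hg : g ∈ K) :
    g.1 v ∈ rootSet S hσ K := by
  obtain ⟨hv0, hvv, hle⟩ := hv
  have hu := (mem_suGroup.1 g.2).1
  have hgg : h (g.1 v) (g.1 v) = 0 := by rw [hu, hvv]
  refine ⟨by simpa using hv0, hgg, ?_⟩
  rintro x ⟨a, E⟩
  have hu' := (mem_suGroup.1 (g⁻¹).2).1
  have h1 := E.conj hu'
  have h2 : (g⁻¹).1 (g.1 v) = v := g.1.symm_apply_apply v
  rw [h2, map_zero] at h1
  have h3 : g⁻¹ * x * g⁻¹⁻¹ ∈ K := hle ⟨a, h1⟩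
  have h4 : x = g * (g⁻¹ * x * g⁻¹⁻¹) * g⁻¹ := by group
  rw [h4]
  exact K.mul_mem (K.mul_mem hg h3) (K.inv_mem hg)

/-- Sum of two orthogonal root points: an element of the radical at the sum. -/
theorem exists_sum_radical {a b : V} (haa : h a a = 0) (hbb : h b b = 0) (hab : h a b = 0)
    {ρ : F} (hρ : ρ + σ ρ = 0) :
    ∃ (x₁ x₂ : suGroup h), EichAt σ h a 0 (-ρ) x₁.1 ∧ EichAt σ h b 0 ρ x₂.1 ∧
      EichAt σ h (a + b) (ρ • b) (-ρ) (x₁ * x₂).1 ∧
      ∀ y, (x₁ * x₂).1 y = y + (-ρ * h y a) • a + (ρ * h y b) • b := by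
  have hba : h b a = 0 := S.zero_symm hab
  have hsρ : σ ρ = -ρ := by linear_combination hρ
  have hρ' : -ρ + σ (-ρ) = 0 := by
    rw [map_neg, hsρ]
    ring
  obtain ⟨x₁, E₁, hx₁⟩ := exists_tau S hσ haa hρ'
  obtain ⟨x₂, E₂, hx₂⟩ := exists_tau S hσ hbb hρ
  have hform : ∀ y, (x₁ * x₂).1 y = y + (-ρ * h y a) • a + (ρ * h y b) • b := by
    intro y
    show x₁.1 (x₂.1 y) = _
    rw [hx₂, hx₁]
    simp only [S.add_left, S.smul_left, hba, mul_zero, add_zero]
    abel
  refine ⟨x₁, x₂, E₁, E₂, ⟨?_, ?_, ?_, ?_⟩, hform⟩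
  · simp only [S.add_left, S.add_right, haa, hbb, hab, hba, add_zero]
  · simp only [S.add_right, S.smul_left, hbb, hba, add_zero, mul_zero]
  · simp only [S.smul_left, S.smul_right, hbb, mul_zero, add_zero, map_neg, hsρ]
    ring
  · intro y
    rw [hform]
    simp only [S.add_right, S.smul_right, hsρ]
    simp only [smul_add, smul_smul, add_smul, mul_add]
    have h1 : ∀ p r : F, ∀ v : V, (p * r) • v = p • r • v := fun p r v => mul_smul p r v
    module

/-- Closure under lines. -/
theorem rootSet_lineClosed (hD : DichAt S hσ K) : LineClosed h (rootSet S hσ K) := by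
  intro a ha b hb α β hne hN
  by_cases hα : α = 0
  · rw [hα, zero_smul, zero_add] at hne hN ⊢
    have hβ : β ≠ 0 := by
      rintro rfl
      exact hne (zero_smul _ _)
    exact rootSet_smul S hσ hb hβ
  by_cases hβ : β = 0
  · rw [hβ, zero_smul, add_zero] at hne hN ⊢
    exact rootSet_smul S hσ ha hα
  have ha' := rootSet_smul S hσ ha hα
  have hb' := rootSet_smul S hσ hb hβ
  set a' := α • a with ha'def
  set b' := β • b with hb'def
  obtain ⟨ha0, haa, hale⟩ := id ha'
  obtain ⟨hb0, hbb, hble⟩ := id hb'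
  by_cases hab : h a' b' = 0
  · -- the totally isotropic case
    by_cases hdep : ∃ r : F, b' = r • a'
    · obtain ⟨r, hr⟩ := hdep
      have h1 : a' + b' = (1 + r) • a' := by rw [hr, add_smul, one_smul]
      rw [h1] at hne ⊢
      exact rootSet_smul S hσ ha' (fun h0 => hne (by rw [h0, zero_smul]))
    obtain ⟨ρ, hρ0, hρ⟩ := hσ.exists_pure
    obtain ⟨x₁, x₂, E₁, E₂, E, hform⟩ := exists_sum_radical S hσ haa hbb hab hρ
    have hx₁ : x₁ ∈ K := hale ⟨_, E₁⟩
    have hx₂ : x₂ ∈ K := hble ⟨_, E₂⟩
    rcases hD (a' + b') hne hN with h1 | h1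
    · exact ⟨hne, hN, h1⟩
    · exfalso
      have hmem : x₁ * x₂ ∈ K ⊓ radQ S hσ (a' + b') hN := ⟨K.mul_mem hx₁ hx₂, _, _, E⟩
      rw [h1, Subgroup.mem_bot] at hmem
      -- independence contradiction
      obtain ⟨y, hy⟩ : ∃ y, h y a' ≠ 0 := by
        by_contra hc
        push Not at hc
        exact ha0 (S.sep_right a' hc)
      have h2 := hform y
      rw [hmem] at h2
      have h3 : (ρ * h y b') • b' = (ρ * h y a') • a' := by
        have h4 : y = y + (-ρ * h y a') • a' + (ρ * h y b') • b' := h2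
        have h5 : (-ρ * h y a') • a' + (ρ * h y b') • b' = 0 := by
          have := h4
          rw [add_assoc] at this
          exact left_eq_add.1 this
        rw [neg_mul, neg_smul] at h5
        exact (neg_add_eq_zero.1 h5).symm
      by_cases hz : ρ * h y b' = 0
      · rw [hz, zero_smul] at h3
        have h6 := (smul_eq_zero.1 h3.symm).resolve_right ha0
        exact (mul_ne_zero hρ0 hy) h6
      · apply hdep
        refine ⟨(ρ * h y b')⁻¹ * (ρ * h y a'), ?_⟩
        rw [mul_smul, ← h3, smul_smul, inv_mul_cancel₀ hz, one_smul]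
  · -- the hyperbolic case
    have hσab : σ (h a' b') = h b' a' := S.conj' a' b'
    have htr : h a' b' + h b' a' = 0 := by
      have : h (a' + b') (a' + b') = 0 := hN
      simp only [S.add_left, S.add_right, haa, hbb] at this
      linear_combination this
    set η := h a' b' with hη
    have hη0 : σ η ≠ 0 := by simpa using hab
    have hs : η⁻¹ + σ η⁻¹ = 0 := by
      rw [map_inv₀, hσab]
      have h1 : h b' a' = -η := by linear_combination htr
      rw [h1]
      field_simp
      ring
    obtain ⟨τ, Eτ, hτ⟩ := exists_tau S hσ hbb hs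
    have hτK : τ ∈ K := hble ⟨_, Eτ⟩
    have h1 := rootSet_conj S hσ ha' hτK
    rw [hτ, ← hη, inv_mul_cancel₀ hab, one_smul] at h1
    exact h1

end defs

section reduction

variable [Finite F] [FiniteDimensional F V] (S : HForm σ h) (hσ : Invol σ)

include S hσ

/-- A subspace of smaller dimension has a non-zero orthogonal vector. -/
theorem exists_perp_ne_zero {U : Submodule F V} (hU : U ≠ ⊤) : perpS S U ≠ ⊥ := by
  classical
  intro h0
  apply hU
  let b := Module.finBasis F U
  let φ : V →ₗ[F] (Fin (finrank F U) → F) := LinearMap.pi fun i => S.hL (b i).1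
  have hker : LinearMap.ker φ = perpS S U := by
    ext x
    rw [LinearMap.mem_ker]
    constructor
    · intro hx y hy
      have h1 : ∀ i, h x (b i).1 = 0 := fun i => congrFun hx i
      have hy' : (⟨y, hy⟩ : U) ∈ Submodule.span F (Set.range b) := by
        rw [b.span_eq]
        trivial
      have : ∀ z : U, z ∈ Submodule.span F (Set.range b) → h x z.1 = 0 := by
        intro z hz
        induction hz using Submodule.span_induction with
        | mem z hz =>
          obtain ⟨i, rfl⟩ := hz
          exact h1 i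
        | zero => exact S.zero_right x
        | add a b _ _ ha hb =>
          show h x (a.1 + b.1) = 0
          rw [S.add_right, ha, hb, add_zero]
        | smul c a _ ha =>
          show h x (c • a.1) = 0
          rw [S.smul_right, ha, mul_zero]
      exact this _ hy'
    · intro hx
      funext i
      exact hx _ (b i).2
  have h1 := LinearMap.finrank_range_add_finrank_ker φ
  rw [hker, h0, finrank_bot, add_zero] at h1
  have h2 : finrank F (LinearMap.range φ) ≤ finrank F U := by
    have := Submodule.finrank_le (LinearMap.range φ)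
    simpa using this
  exact Submodule.eq_top_of_finrank_eq (by
    have := Submodule.finrank_le U
    omega)

/-- An anisotropic subspace has dimension at most one. -/
theorem eq_span_of_aniso {U : Submodule F V} (hU : ∀ x ∈ U, x ≠ 0 → h x x ≠ 0) {u : V}
    (hu : u ∈ U) (hu0 : u ≠ 0) : U = Submodule.span F {u} := by
  apply le_antisymm
  · intro x hx
    by_contra hc
    have huu := hU u hu hu0
    set c := h x u / h u u with hc'
    set x' := x - c • u with hx'
    have hx'U : x' ∈ U := U.sub_mem hx (U.smul_mem _ hu)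
    have hx'0 : x' ≠ 0 := by
      intro h0
      apply hc
      have : x = c • u := sub_eq_zero.1 h0
      rw [this]
      exact Submodule.smul_mem _ _ (Submodule.mem_span_singleton_self u)
    have horth : h x' u = 0 := by
      rw [hx', S.sub_left, S.smul_left, hc']
      field_simp
      ring
    have hx'x' := hU x' hx'U hx'0
    obtain ⟨a, ha0, ha⟩ := S.exists_isotropic_of_orth hσ huu hx'x' (S.zero_symm horth)
    have hne : a • u + x' ≠ 0 := by
      intro h0
      have h1 := congrArg (fun y => h y u) h0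
      simp only [S.add_left, S.smul_left, horth, S.zero_left, add_zero] at h1
      exact (mul_ne_zero ha0 huu) h1
    exact hU _ (U.add_mem (U.smul_mem _ hu) hx'U) hne ha
  · rw [Submodule.span_singleton_le_iff_mem]
    exact hu

/-- The reduction to point stabilizers. -/
theorem subspace_step (hV : 4 ≤ finrank F V) {K : Subgroup (suGroup h)} (hK : K ≠ ⊤)
    (hD : ∀ K', K ≤ K' → DichAt S hσ K') (hne : (rootSet S hσ K).Nonempty) :
    (∃ y, y ≠ 0 ∧ h y y = 0 ∧ K ≤ stabSub h (Submodule.span F {y})) ∨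
      (∃ u, h u u ≠ 0 ∧ K ≤ stabSub h (Submodule.span F {u})) := by
  classical
  set T := rootSet S hσ K with hT
  set U := Submodule.span F T with hUdef
  have hTs : ∀ x ∈ T, h x x = 0 ∧ x ≠ 0 := fun x hx => ⟨hx.2.1, hx.1⟩
  have hLC : LineClosed h T := rootSet_lineClosed S hσ (hD K le_rfl)
  have hUtop : U ≠ ⊤ := by
    intro htop
    apply hK
    rw [eq_top_iff]
    have hcl := Cfsg.Agent.Lib.Classical.HermTransv.closure_transv_eq_top S hσ (Or.inl hV) (by omega)
    rw [← hcl, Subgroup.closure_le]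
    rintro g ⟨e, c, he0, E⟩
    have hsing : e ∈ T := closure_lemma S hσ hLC hTs (by rw [← hUdef, htop]; trivial) he0 E.ee
    exact hsing.2.2 ⟨c, E⟩
  have hKU : K ≤ stabSub h U := by
    intro g hg
    apply mem_stabSub_of_forall
    intro x hx
    induction hx using Submodule.span_induction with
    | mem x hx => exact Submodule.subset_span (rootSet_conj S hσ hx hg)
    | zero => rw [map_zero]; exact U.zero_mem
    | add a b _ _ ha hb => rw [map_add]; exact U.add_mem ha hb
    | smul c a _ ha => rw [map_smul]; exact U.smul_mem _ ha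
  have hKperp : ∀ {W : Submodule F V}, K ≤ stabSub h W → K ≤ stabSub h (perpS S W) := by
    intro W hW g hg
    apply mem_stabSub_of_forall
    intro x hx y hy
    have hu := (mem_suGroup.1 g.2).1
    have h1 : (g⁻¹).1 y ∈ W := stabSub_apply (hW (K.inv_mem hg)) hy
    have h2 := hu x ((g⁻¹).1 y)
    have h3 : g.1 ((g⁻¹).1 y) = y := g.1.apply_symm_apply y
    rw [h3] at h2
    rw [h2]
    exact hx _ h1
  obtain ⟨v₁, hv₁⟩ := hne
  have hv₁U : v₁ ∈ U := Submodule.subset_span hv₁
  set R := U ⊓ perpS S U with hR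
  have hKR : K ≤ stabSub h R := by
    intro g hg
    apply mem_stabSub_of_forall
    rintro x ⟨hx1, hx2⟩
    exact ⟨stabSub_apply (hKU hg) hx1, stabSub_apply (hKperp hKU hg) hx2⟩
  have hRti : ∀ a ∈ R, ∀ b ∈ R, h a b = 0 := fun a ha b hb => ha.2 b hb.1
  by_cases hR0 : R = ⊥
  · -- `U` is non-degenerate
    right
    have hU'aniso : ∀ x ∈ perpS S U, x ≠ 0 → h x x ≠ 0 := by
      intro v₂ hv₂ hv₂0 hv₂v₂
      have hv₁v₁ := (hTs v₁ hv₁).1
      have hv₁0 := (hTs v₁ hv₁).2
      have h12 : h v₁ v₂ = 0 := S.zero_symm (hv₂ v₁ hv₁U)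
      have hsum : h (v₁ + v₂) (v₁ + v₂) = 0 := by
        simp only [S.add_left, S.add_right, hv₁v₁, hv₂v₂, h12, S.zero_symm h12, add_zero]
      have hmemR : ∀ x, x ∈ U → x ∈ perpS S U → x = 0 := by
        intro x h1 h2
        have : x ∈ R := ⟨h1, h2⟩
        rw [hR0] at this
        exact (Submodule.mem_bot F).1 this
      have hsum0 : v₁ + v₂ ≠ 0 := by
        intro h0
        have h1 : v₂ = -v₁ := by
          rw [eq_neg_iff_add_eq_zero, add_comm]
          exact h0
        apply hv₂0
        apply hmemR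
        · rw [h1]
          exact U.neg_mem hv₁U
        · exact hv₂
      obtain ⟨ρ, hρ0, hρ⟩ := hσ.exists_pure
      obtain ⟨x₁, x₂, E₁, E₂, E, hform⟩ := exists_sum_radical S hσ hv₁v₁ hv₂v₂ h12 hρ
      have hxU : x₁ * x₂ ∈ stabSub h U := by
        apply mem_stabSub_of_forall
        intro y hy
        rw [hform]
        have h1 : h y v₂ = 0 := S.zero_symm (hv₂ y hy)
        rw [h1]
        simp only [mul_zero, zero_smul, add_zero]
        exact U.add_mem hy (U.smul_mem _ hv₁U)
      rcases hD _ hKU (v₁ + v₂) hsum0 hsum with h1 | h1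
      · -- the root group of the sum stabilizes `U`
        obtain ⟨y, hy⟩ : ∃ y ∈ U, h y v₁ ≠ 0 := by
          by_contra hc
          push Not at hc
          apply hv₁0
          apply hmemR v₁ hv₁U
          intro y hy
          exact S.zero_symm (hc y hy)
        obtain ⟨τ, Eτ, hτ⟩ := exists_tau S hσ hsum hρ
        have hτU := stabSub_apply (h1 ⟨_, Eτ⟩) hy.1
        rw [hτ] at hτU
        have h2 : h y (v₁ + v₂) = h y v₁ := by
          rw [S.add_right, S.zero_symm (hv₂ y hy.1), add_zero]
        rw [h2] at hτU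
        have h3 : (ρ * h y v₁) • (v₁ + v₂) ∈ U := by
          have := U.sub_mem hτU hy.1
          rwa [add_sub_cancel_left] at this
        have h4 : v₁ + v₂ ∈ U := by
          have := U.smul_mem (ρ * h y v₁)⁻¹ h3
          rwa [smul_smul, inv_mul_cancel₀ (mul_ne_zero hρ0 hy.2), one_smul] at this
        have h5 : v₂ ∈ U := by
          have := U.sub_mem h4 hv₁U
          rwa [add_sub_cancel_left] at this
        exact hv₂0 (hmemR v₂ h5 hv₂)
      · -- the product is a non-trivial element of the radical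
        have hmem : x₁ * x₂ ∈ stabSub h U ⊓ radQ S hσ (v₁ + v₂) hsum := ⟨hxU, _, _, E⟩
        rw [h1, Subgroup.mem_bot] at hmem
        obtain ⟨y, hy⟩ : ∃ y, h y v₁ ≠ 0 := by
          by_contra hc
          push Not at hc
          exact hv₁0 (S.sep_right v₁ hc)
        obtain ⟨y', hy'⟩ : ∃ y', h y' v₂ ≠ 0 := by
          by_contra hc
          push Not at hc
          exact hv₂0 (S.sep_right v₂ hc)
        -- choose a vector of `U` not orthogonal to `v₁`
        obtain ⟨z, hz⟩ : ∃ z ∈ U, h z v₁ ≠ 0 := by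
          by_contra hc
          push Not at hc
          apply hv₁0
          apply hmemR v₁ hv₁U
          intro w hw
          exact S.zero_symm (hc w hw)
        have h2 := hform z
        rw [hmem, S.zero_symm (hv₂ z hz.1)] at h2
        simp only [mul_zero, zero_smul, add_zero] at h2
        have h3 : (-ρ * h z v₁) • v₁ = 0 := left_eq_add.1 h2
        have h4 := (smul_eq_zero.1 h3).resolve_right hv₁0
        exact (mul_ne_zero (neg_ne_zero.2 hρ0) hz.2) h4
    have hU'ne := exists_perp_ne_zero S hσ hUtop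
    obtain ⟨u, hu, hu0⟩ : ∃ u ∈ perpS S U, u ≠ 0 := by
      by_contra hc
      push Not at hc
      exact hU'ne (eq_bot_iff.2 fun x hx => (Submodule.mem_bot F).2 (hc x hx))
    refine ⟨u, hU'aniso u hu hu0, ?_⟩
    rw [← eq_span_of_aniso S hσ hU'aniso hu hu0]
    exact hKperp hKU
  · -- the radical is a point
    left
    obtain ⟨y₁, hy₁, hy₁0⟩ : ∃ y ∈ R, y ≠ 0 := by
      by_contra hc
      push Not at hc
      exact hR0 (eq_bot_iff.2 fun x hx => (Submodule.mem_bot F).2 (hc x hx))
    have hy₁y₁ : h y₁ y₁ = 0 := hRti _ hy₁ _ hy₁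
    refine ⟨y₁, hy₁0, hy₁y₁, ?_⟩
    suffices hspan : R = Submodule.span F {y₁} by
      rw [← hspan]
      exact hKR
    apply le_antisymm
    · intro y₂ hy₂
      by_contra hdep
      -- contradiction with the dichotomy for the stabilizer of `R`
      obtain ⟨v, hv0, hvv, hy₁v⟩ := exists_sing_not_orth S hσ (by omega) hy₁0
      set c := h y₂ v / h y₁ v with hc
      set z := y₂ - c • y₁ with hz
      have hzR : z ∈ R := R.sub_mem hy₂ (R.smul_mem _ hy₁)
      have hz0 : z ≠ 0 := by
        intro h0
        apply hdep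
        have : y₂ = c • y₁ := sub_eq_zero.1 h0
        rw [this]
        exact Submodule.smul_mem _ _ (Submodule.mem_span_singleton_self y₁)
      have hzv : h z v = 0 := by
        rw [hz, S.sub_left, S.smul_left, hc]
        field_simp
        ring
      have hzz : h z z = 0 := hRti _ hzR _ hzR
      have hha : (0 : F) + σ 0 + h z z = 0 := by
        rw [hzz]
        simp
      obtain ⟨g, hg⟩ := exists_eichAt S hvv hzv hha
      let g' : suGroup h := ⟨g, hg.mem_suGroup S⟩
      have hgR : g' ∈ stabSub h R := by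
        apply mem_stabSub_of_forall
        intro b hb
        show g b ∈ R
        rw [hg.apply, hRti _ hb _ hzR]
        simp only [zero_smul, sub_zero, zero_mul, add_zero]
        exact R.add_mem hb (R.smul_mem _ hzR)
      have hgne : g' ≠ 1 := by
        intro h1
        have h2 : g y₁ = y₁ := by
          have := congrArg (fun x : suGroup h => x.1 y₁) h1
          exact this
        rw [hg.apply, hRti _ hy₁ _ hzR] at h2
        simp only [zero_smul, sub_zero, zero_mul, add_zero] at h2
        have h3 := left_eq_add.1 h2.symm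
        exact (smul_ne_zero hy₁v hz0) h3
      rcases hD _ hKR v hv0 hvv with h1 | h1
      · obtain ⟨ρ, hρ0, hρ⟩ := hσ.exists_pure
        obtain ⟨τ, Eτ, hτ⟩ := exists_tau S hσ hvv hρ
        have hτR := stabSub_apply (h1 ⟨_, Eτ⟩) hy₁
        rw [hτ] at hτR
        have h3 : (ρ * h y₁ v) • v ∈ R := by
          have := R.sub_mem hτR hy₁
          rwa [add_sub_cancel_left] at this
        have h4 : v ∈ R := by
          have := R.smul_mem (ρ * h y₁ v)⁻¹ h3
          rwa [smul_smul, inv_mul_cancel₀ (mul_ne_zero hρ0 hy₁v), one_smul] at this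
        exact hy₁v (hRti _ hy₁ _ h4)
      · have hmem : g' ∈ stabSub h R ⊓ radQ S hσ v hvv := ⟨hgR, _, _, hg⟩
        rw [h1, Subgroup.mem_bot] at hmem
        exact hgne hmem
    · rw [Submodule.span_singleton_le_iff_mem]
      exact hy₁

end reduction

end Cfsg.Agent.Lib.MinSU
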