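/-
Index bounds for stabilizers of points: Witt transitivity and the counts of isotropic and
non-isotropic points.
-/
import Mathlib
import Cfsg.Agent.Lib.MinSU.Subspace
import Cfsg.Agent.Lib.HermCount.Space
import Cfsg.Agent.Lib.Witt.HermFrames
import Cfsg.Agent.Lib.Witt.Hermitian

set_option autoImplicit false
set_option linter.unusedSimpArgs false
set_option linter.unusedSectionVars false
set_option linter.style.haveILetI false
set_option linter.unusedVariables false

namespace Cfsg.Agent.Lib.MinSU

open Module Cfsg.Agent.Lib.Classical.HermBasic Cfsg.Agent.Lib.Classical.HermElem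
open Cfsg.Agent.Lib.Classical.HermGen Cfsg.Agent.Lib.Classical.HermSimple
open Cfsg.Agent.Lib.HermCount.Field

universe u v

variable {F : Type u} [Field F] {V : Type v} [AddCommGroup V] [Module F V]
variable {σ : F →+* F} {h : V → V → F}

section witt

variable [Finite F] [FiniteDimensional F V] (S : HForm σ h) (hσ : Invol σ)

/-- The form as a sesquilinear map. -/
noncomputable def sesqOf : V →ₛₗ[σ] V →ₗ[F] F :=
  LinearMap.mk₂'ₛₗ σ (RingHom.id F) (fun a x => h x a)
    (fun a b x => S.add_right x a b)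
    (fun c a x => S.smul_right c x a)
    (fun a x y => S.add_left x y a)
    (fun c x a => S.smul_left c a x)

@[simp] theorem sesqOf_apply (a x : V) : sesqOf S a x = h x a := rfl

include S hσ

/-- Witt for one vector. -/
theorem exists_isometry_map {u u' : V} (hu : u ≠ 0) (hu' : u' ≠ 0) (hN : h u u = h u' u') :
    ∃ g ∈ uGroup h, g u = u' := by
  have hσne : σ ≠ RingHom.id F := hσ.ne_id'
  have hS : (sesqOf S).IsSymm := by
    refine ⟨fun x y => ?_⟩
    show σ (h y x) = h x y
    exact S.conj' y x
  have hB : (sesqOf S).Nondegenerate := by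
    constructor
    · intro x hx
      apply S.nd x
      intro y
      have h1 : h y x = 0 := hx y
      exact S.zero_symm h1
    · intro x hx
      apply S.nd x
      intro y
      exact hx y
  obtain ⟨g, hg1, hg2⟩ := Cfsg.Agent.Lib.Witt.Hermitian.witt_family hσne hσ.invol hS hB
    (fun _ : Unit => u) (fun _ : Unit => u') (linearIndependent_unique_iff.2 hu)
    (linearIndependent_unique_iff.2 hu') (fun _ _ => hN)
  exact ⟨g, fun x y => hg1 y x, hg2 ()⟩

/-- A non-isotropic vector in the orthogonal complement of a non-isotropic vector. -/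
theorem exists_nonisotropic_orth (hV : 2 ≤ finrank F V) {u : V} (hu : h u u ≠ 0) :
    ∃ w, h w w ≠ 0 ∧ h u w = 0 := by
  obtain ⟨x, hx0, hxu⟩ := exists_orth S hσ hV u
  have hux : h u x = 0 := S.zero_symm hxu
  by_cases hxx : h x x = 0
  · obtain ⟨y, hyy, hyx⟩ := S.exists_partner hσ hx0 hxx
    have hxy : h x y = 1 := by rw [S.conj y x, hyx, map_one]
    set y' := y - (h y u / h u u) • u with hy'
    have hy'u : h y' u = 0 := by
      rw [hy', S.sub_left, S.smul_left]
      field_simp
      ring
    have huy' : h u y' = 0 := S.zero_symm hy'u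
    by_cases hyy' : h y' y' = 0
    · obtain ⟨c, hc⟩ := hσ.exists_trace 1 (map_one σ)
      have hxy' : h x y' = 1 := by
        rw [hy', S.sub_right, S.smul_right, hxy, S.zero_symm hux, mul_zero, sub_zero] <;> rfl
      have hy'x : h y' x = 1 := by rw [S.conj x y', hxy', map_one]
      refine ⟨x + c • y', ?_, ?_⟩
      · simp only [S.add_left, S.add_right, S.smul_left, S.smul_right, hxx, hyy', hxy', hy'x]
        intro h0
        apply one_ne_zero (α := F)
        rw [← hc]
        linear_combination h0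
      · rw [S.add_right, S.smul_right, hux, huy']
        ring
    · exact ⟨y', hyy', huy'⟩
  · exact ⟨x, hxx, hux⟩

/-- `SU` is transitive on vectors of the same non-zero norm. -/
theorem exists_su_map_norm (hV : 2 ≤ finrank F V) {u u' : V} (hu : h u u ≠ 0)
    (hN : h u u = h u' u') : ∃ g : suGroup h, g.1 u = u' := by
  have hu0 : u ≠ 0 := by
    rintro rfl
    exact hu (S.zero_left _)
  have hu'u' : h u' u' ≠ 0 := hN ▸ hu
  have hu'0 : u' ≠ 0 := by
    rintro rfl
    exact hu'u' (S.zero_left _)
  obtain ⟨g, hg, hgu⟩ := exists_isometry_map S hσ hu0 hu'0 hN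
  obtain ⟨ε, hε, r, hr, hge⟩ := gu_decomp hσ _ V h S rfl g hg
  -- the determinant has norm one
  have hdet : ∃ β, LinearMap.det (g : V →ₗ[F] V) = β ∧ β * σ β = 1 ∧ β ≠ 0 := by
    rw [hge, dt_mul, dt_mem_eGroup S hε, one_mul]
    rcases hr with rfl | ⟨w, β, HQ⟩
    · refine ⟨1, dt_one, by simp, one_ne_zero⟩
    · refine ⟨β, HQ.det S, HQ.norm, ?_⟩
      rintro rfl
      have := HQ.norm
      simp at this
  obtain ⟨β, hβ, hβn, hβ0⟩ := hdet
  obtain ⟨w, hww, hu'w⟩ := exists_nonisotropic_orth S hσ hV hu'u'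
  have hnβ : β⁻¹ * σ β⁻¹ = 1 := by
    rw [map_inv₀]
    have : σ β ≠ 0 := by simpa using hβ0
    field_simp
    linear_combination -hβn
  obtain ⟨r', hr'⟩ := exists_qrAt S hww hnβ
  have hmem : r' * g ∈ suGroup h := by
    rw [mem_suGroup]
    refine ⟨mul_mem (hr'.mem_uGroup S) hg, ?_⟩
    rw [dt_mul, hr'.det S, hβ]
    field_simp
  refine ⟨⟨r' * g, hmem⟩, ?_⟩
  show r' (g u) = u'
  rw [hgu]
  exact hr'.apply_orth hu'w

end witt

section count

variable [Finite F]

/-- Counting lines: the map from vectors to lines has fibres of the size of `Fˣ`. -/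
theorem card_vectors_eq (P : V → Prop) (hP : ∀ (c : F) (x : V), c ≠ 0 → P x → P (c • x)) :
    Nat.card {x : V // x ≠ 0 ∧ P x} = Nat.card Fˣ *
      Nat.card (Set.range fun x : {x : V // x ≠ 0 ∧ P x} => Submodule.span F {x.1}) := by
  classical
  set L := Set.range fun x : {x : V // x ≠ 0 ∧ P x} => Submodule.span F {x.1} with hL
  have hrep : ∀ l : L, ∃ x : {x : V // x ≠ 0 ∧ P x}, Submodule.span F {x.1} = l.1 := fun l => l.2
  choose rep hrepe using hrep
  rw [← Nat.card_prod]
  apply Nat.card_congr
  symm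
  refine Equiv.ofBijective (fun p : Fˣ × L => ⟨(p.1 : F) • (rep p.2).1,
    smul_ne_zero p.1.ne_zero (rep p.2).2.1, hP _ _ p.1.ne_zero (rep p.2).2.2⟩) ⟨?_, ?_⟩
  · rintro ⟨c, l⟩ ⟨d, l'⟩ hab
    have h1 : (c : F) • (rep l).1 = (d : F) • (rep l').1 := congrArg (fun x : {x : V // x ≠ 0 ∧ P x} => x.1) hab
    have h2 : Submodule.span F {(rep l).1} = Submodule.span F {(rep l').1} := by
      rw [← Submodule.span_singleton_smul_eq c.isUnit (rep l).1, h1,
        Submodule.span_singleton_smul_eq d.isUnit (rep l').1]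
    have h3 : l = l' := by
      apply Subtype.ext
      rw [← hrepe l, ← hrepe l', h2]
    subst h3
    have h4 : (c : F) = d := smul_left_injective F (rep l).2.1 h1
    rw [Prod.mk.injEq]
    exact ⟨Units.ext h4, rfl⟩
  · rintro ⟨x, hx0, hPx⟩
    let l : L := ⟨_, ⟨x, hx0, hPx⟩, rfl⟩
    have h1 : x ∈ Submodule.span F {(rep l).1} := by
      rw [hrepe l]
      exact Submodule.mem_span_singleton_self x
    obtain ⟨c, hc⟩ := Submodule.mem_span_singleton.1 h1
    have hc0 : c ≠ 0 := by
      rintro rfl
      rw [zero_smul] at hc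
      exact hx0 hc.symm
    refine ⟨(Units.mk0 c hc0, l), ?_⟩
    apply Subtype.ext
    exact hc

variable [FiniteDimensional F V]

theorem span_conj_eq_iff (y : V) (hy : y ≠ 0) (a b : suGroup h) :
    Submodule.span F {a.1 y} = Submodule.span F {b.1 y} ↔ a⁻¹ * b ∈ stabSub h (Submodule.span F {y}) := by
  have hinv : ∀ z, a.1 ((a⁻¹).1 z) = z := fun z => a.1.apply_symm_apply z
  have hinv' : ∀ z, (a⁻¹).1 (a.1 z) = z := fun z => a.1.symm_apply_apply z
  have hval : ∀ z, (a⁻¹ * b).1 z = (a⁻¹).1 (b.1 z) := fun z => rfl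
  constructor
  · intro heq
    apply mem_stabSub_of_forall
    intro x hx
    obtain ⟨c, rfl⟩ := Submodule.mem_span_singleton.1 hx
    have h1 : b.1 y ∈ Submodule.span F {a.1 y} := by
      rw [heq]
      exact Submodule.mem_span_singleton_self _
    obtain ⟨d, hd⟩ := Submodule.mem_span_singleton.1 h1
    rw [map_smul, hval, ← hd, map_smul, hinv']
    exact Submodule.smul_mem _ _ (Submodule.smul_mem _ _ (Submodule.mem_span_singleton_self y))
  · intro hmem
    have h1 := stabSub_apply hmem (Submodule.mem_span_singleton_self y)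
    obtain ⟨c, hc⟩ := Submodule.mem_span_singleton.1 h1
    have h2 : b.1 y = c • a.1 y := by
      have h3 := congrArg a.1 hc
      rw [map_smul, hval, hinv] at h3
      exact h3.symm
    have hby : b.1 y ≠ 0 := by simpa using hy
    have hc0 : c ≠ 0 := by
      rintro rfl
      rw [zero_smul] at h2
      exact hby h2
    rw [h2]
    exact (Submodule.span_singleton_smul_eq (IsUnit.mk0 c hc0) _).symm

theorem card_range_le_index {K : Subgroup (suGroup h)} {y : V} (hy : y ≠ 0)
    (hK : K ≤ stabSub h (Submodule.span F {y})) :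
    Nat.card (Set.range fun g : suGroup h => Submodule.span F {g.1 y}) ≤ K.index := by
  haveI : Finite (suGroup h) := finite_su
  have h1 := Cfsg.Agent.Lib.MinSU.card_range_of_cosets (stabSub h (Submodule.span F {y}))
    (fun g : suGroup h => Submodule.span F {g.1 y}) (span_conj_eq_iff y hy)
  have h2 := Subgroup.index_mul_card (stabSub h (Submodule.span F {y}))
  have h3 : Nat.card (Set.range fun g : suGroup h => Submodule.span F {g.1 y}) =
      (stabSub h (Submodule.span F {y})).index := by
    apply Nat.eq_of_mul_eq_mul_right (Nat.card_pos (α := stabSub h (Submodule.span F {y})))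
    rw [h1, h2]
  rw [h3]
  refine Nat.le_of_dvd ?_ (Subgroup.index_dvd_of_le hK)
  exact Nat.pos_of_ne_zero (Subgroup.index_ne_zero_of_finite)

end count

section numbers

variable [Fintype F] [FiniteDimensional F V] {q : ℕ} (hF : Fintype.card F = q ^ 2)
variable (S : HForm (frobHom hF) h)

include S

theorem hspace_of_hform : Cfsg.Agent.Lib.HermCount.Space.HSpace q h where
  add_left := S.add_left
  smul_left := S.smul_left
  conj := S.conj
  nd := S.nd

theorem invol_frob' : Invol (frobHom hF) where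
  invol x := frob_frob hF x
  ne_id := by
    obtain ⟨x, hx⟩ := exists_frob_ne hF
    exact ⟨x, hx⟩

theorem card_units_F : Nat.card Fˣ = q ^ 2 - 1 := by
  classical
  rw [Nat.card_eq_fintype_card, Fintype.card_units, hF]

/-- The number of isotropic vectors. -/
theorem card_sing_vectors (k : ℕ) (hn : finrank F V = k + 1) :
    ((Nat.card {x : V // x ≠ 0 ∧ h x x = 0} : ℕ) : ℤ) =
      ((q : ℤ) ^ (k + 1) - (-1) ^ (k + 1)) * ((q : ℤ) ^ k - (-1) ^ k) := by
  classical
  haveI : Finite V := Module.finite_of_finite F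
  have h1 := Cfsg.Agent.Lib.HermCount.Space.card_isotropic hF (k + 1) V h (hspace_of_hform hF S) hn
  rw [Cfsg.Agent.Lib.Witt.HermFrames.A_formula] at h1
  have h2 : Nat.card {x : V // h x x = 0} = Nat.card {x : V // x ≠ 0 ∧ h x x = 0} + 1 := by
    have h3 : Nat.card {x : V // h x x = 0} = Nat.card (Option {x : V // x ≠ 0 ∧ h x x = 0}) := by
      apply Nat.card_congr
      refine Equiv.ofBijective (fun x => if hx : x.1 = 0 then none else some ⟨x.1, hx, x.2⟩) ⟨?_, ?_⟩
      · intro a b hab
        by_cases ha : a.1 = 0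
        · by_cases hb : b.1 = 0
          · exact Subtype.ext (ha.trans hb.symm)
          · simp [ha, hb] at hab
        · by_cases hb : b.1 = 0
          · simp [ha, hb] at hab
          · simp only [ha, hb, dite_false, Option.some.injEq] at hab
            exact Subtype.ext (congrArg (fun x : {x : V // x ≠ 0 ∧ h x x = 0} => x.1) hab)
      · intro x
        cases x with
        | none => exact ⟨⟨0, S.zero_left 0⟩, by simp⟩
        | some x => exact ⟨⟨x.1, x.2.2⟩, by simp [x.2.1]⟩
    rw [h3, Finite.card_option]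
  rw [h2] at h1
  push_cast at h1
  linarith

/-- The number of non-isotropic vectors. -/
theorem card_nonsing_vectors (k : ℕ) (hn : finrank F V = k + 1) :
    ((Nat.card {x : V // x ≠ 0 ∧ h x x ≠ 0} : ℕ) : ℤ) =
      (q : ℤ) ^ (2 * (k + 1)) - 1 - ((q : ℤ) ^ (k + 1) - (-1) ^ (k + 1)) * ((q : ℤ) ^ k - (-1) ^ k) := by
  classical
  haveI : Finite V := Module.finite_of_finite F
  have h1 := card_sing_vectors hF S k hn
  have h2 : Nat.card V = Nat.card {x : V // x ≠ 0 ∧ h x x ≠ 0} +
      Nat.card {x : V // x ≠ 0 ∧ h x x = 0} + 1 := by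
    have h3 : Nat.card V = Nat.card (Option ({x : V // x ≠ 0 ∧ h x x ≠ 0} ⊕ {x : V // x ≠ 0 ∧ h x x = 0})) := by
      apply Nat.card_congr
      refine Equiv.ofBijective (fun x => if hx : x = 0 then none else
        if hy : h x x = 0 then some (Sum.inr ⟨x, hx, hy⟩) else some (Sum.inl ⟨x, hx, hy⟩)) ⟨?_, ?_⟩
      · intro a b hab
        by_cases ha : a = 0
        · by_cases hb : b = 0
          · exact ha.trans hb.symm
          · simp only [ha, hb, dite_true, dite_false] at hab
            split_ifs at hab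
        · by_cases hb : b = 0
          · simp only [ha, hb, dite_true, dite_false] at hab
            split_ifs at hab
          · simp only [ha, hb, dite_false] at hab
            by_cases h5 : h a a = 0 <;> by_cases h6 : h b b = 0 <;> simp [h5, h6] at hab <;> exact hab
      · intro x
        cases x with
        | none => exact ⟨0, by simp⟩
        | some x =>
          cases x with
          | inl x => exact ⟨x.1, by simp [x.2.1, x.2.2]⟩
          | inr x => exact ⟨x.1, by simp [x.2.1, x.2.2]⟩
    rw [h3, Finite.card_option, Nat.card_sum]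
  have hVc : Nat.card V = q ^ (2 * (k + 1)) := by
    rw [Module.natCard_eq_pow_finrank (K := F), hn, Nat.card_eq_fintype_card, hF, pow_mul]
  rw [hVc] at h2
  have h3 : ((q ^ (2 * (k + 1)) : ℕ) : ℤ) = ((Nat.card {x : V // x ≠ 0 ∧ h x x ≠ 0} : ℕ) : ℤ) +
      ((Nat.card {x : V // x ≠ 0 ∧ h x x = 0} : ℕ) : ℤ) + 1 := by
    rw [h2]
    push_cast
    ring
  rw [h1] at h3
  push_cast at h3
  linarith

/-- The bound for subgroups stabilizing an isotropic point. -/
theorem index_sing_bound (k : ℕ) (hn : finrank F V = k + 1) (hV : 3 ≤ finrank F V)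
    {K : Subgroup (suGroup h)} {y : V} (hy : y ≠ 0) (hyy : h y y = 0)
    (hK : K ≤ stabSub h (Submodule.span F {y})) :
    ((q : ℤ) ^ (k + 1) - (-1) ^ (k + 1)) * ((q : ℤ) ^ k - (-1) ^ k) ≤
      ((q ^ 2 - 1 : ℕ) : ℤ) * (K.index : ℤ) := by
  classical
  have hσ := invol_frob' hF S
  haveI : Finite F := Finite.of_fintype F
  haveI : Finite (suGroup h) := finite_su
  have h1 := card_sing_vectors hF S k hn
  have h2 := card_vectors_eq (F := F) (V := V) (fun x => h x x = 0) (fun c x hc hx => by
    simp only [S.smul_left, S.smul_right, hx, mul_zero])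
  rw [card_units_F hF S] at h2
  have h3 := card_range_le_index hy hK
  have h4 : Nat.card (Set.range fun x : {x : V // x ≠ 0 ∧ h x x = 0} => Submodule.span F {x.1}) ≤
      Nat.card (Set.range fun g : suGroup h => Submodule.span F {g.1 y}) := by
    apply Nat.card_mono (Set.toFinite _)
    rintro _ ⟨x, rfl⟩
    obtain ⟨g, hg⟩ := exists_su_map S hσ hV hy x.2.1 hyy x.2.2
    exact ⟨g, by simp only [hg]⟩
  rw [← h1, h2]
  push_cast
  have h5 := h4.trans h3
  have h6 : ((q ^ 2 - 1 : ℕ) : ℤ) * ((Nat.card (Set.range fun x : {x : V // x ≠ 0 ∧ h x x = 0} =>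
      Submodule.span F {x.1}) : ℕ) : ℤ) ≤ ((q ^ 2 - 1 : ℕ) : ℤ) * (K.index : ℤ) := by
    apply mul_le_mul_of_nonneg_left _ (by positivity)
    exact_mod_cast h5
  simpa using h6

/-- The bound for subgroups stabilizing a non-isotropic point. -/
theorem index_nonsing_bound (k : ℕ) (hn : finrank F V = k + 1) (hV : 3 ≤ finrank F V)
    {K : Subgroup (suGroup h)} {u : V} (hu : h u u ≠ 0)
    (hK : K ≤ stabSub h (Submodule.span F {u})) :
    (q : ℤ) ^ (2 * (k + 1)) - 1 - ((q : ℤ) ^ (k + 1) - (-1) ^ (k + 1)) * ((q : ℤ) ^ k - (-1) ^ k) ≤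
      ((q ^ 2 - 1 : ℕ) : ℤ) * (K.index : ℤ) := by
  classical
  have hσ := invol_frob' hF S
  haveI : Finite F := Finite.of_fintype F
  haveI : Finite (suGroup h) := finite_su
  have hu0 : u ≠ 0 := by
    rintro rfl
    exact hu (S.zero_left _)
  have h1 := card_nonsing_vectors hF S k hn
  have h2 := card_vectors_eq (F := F) (V := V) (fun x => h x x ≠ 0) (fun c x hc hx => by
    simp only [S.smul_left, S.smul_right]
    have hsc : frobHom hF c ≠ 0 := (map_ne_zero _).2 hc
    exact mul_ne_zero hc (mul_ne_zero hsc hx))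
  rw [card_units_F hF S] at h2
  have h3 := card_range_le_index hu0 hK
  have h4 : Nat.card (Set.range fun x : {x : V // x ≠ 0 ∧ h x x ≠ 0} => Submodule.span F {x.1}) ≤
      Nat.card (Set.range fun g : suGroup h => Submodule.span F {g.1 u}) := by
    apply Nat.card_mono (Set.toFinite _)
    rintro _ ⟨x, rfl⟩
    obtain ⟨a, ha⟩ := S.exists_smul_norm hσ x.2.2 (h u u) (S.self_fix u)
    have ha0 : a ≠ 0 := by
      rintro rfl
      rw [zero_smul, S.zero_left] at ha
      exact hu ha.symm
    obtain ⟨g, hg⟩ := exists_su_map_norm S hσ (by omega) hu ha.symm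
    refine ⟨g, ?_⟩
    show Submodule.span F {g.1 u} = Submodule.span F {x.1}
    rw [hg]
    exact Submodule.span_singleton_smul_eq (IsUnit.mk0 a ha0) _
  rw [← h1, h2]
  push_cast
  have h5 := h4.trans h3
  have h6 : ((q ^ 2 - 1 : ℕ) : ℤ) * ((Nat.card (Set.range fun x : {x : V // x ≠ 0 ∧ h x x ≠ 0} =>
      Submodule.span F {x.1}) : ℕ) : ℤ) ≤ ((q ^ 2 - 1 : ℕ) : ℤ) * (K.index : ℤ) := by
    apply mul_le_mul_of_nonneg_left _ (by positivity)
    exact_mod_cast h5
  simpa using h6

end numbers

end Cfsg.Agent.Lib.MinSU
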