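/-
Families of images of `Bof`, with an incidence count.
-/
import Mathlib
import Cfsg.Agent.Lib.MinSU.Orbit

set_option autoImplicit false
set_option linter.unusedSimpArgs false
set_option linter.unusedSectionVars false
set_option linter.style.haveILetI false
set_option linter.unusedVariables false

namespace Cfsg.Agent.Lib.MinSU

open Module Cfsg.Agent.Lib.Classical.HermBasic Cfsg.Agent.Lib.Classical.HermElem
open Cfsg.Agent.Lib.Classical.HermGen Cfsg.Agent.Lib.Classical.HermSimple

universe u v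

variable {F : Type u} [Field F] {V : Type v} [AddCommGroup V] [Module F V]
variable {σ : F →+* F} {h : V → V → F}

/-- The family of images of an additive subgroup. -/
def famB (B : AddSubgroup V) {R : Type*} (t : R → F) (y : R → suGroup h) : Set (AddSubgroup V) :=
  Set.range fun r => B.map (hatY σ (t r) (y r).1)

theorem mem_famB_self (B : AddSubgroup V) {R : Type*} (t : R → F) (y : R → suGroup h) (r : R) :
    B.map (hatY σ (t r) (y r).1) ∈ famB (σ := σ) B t y := ⟨r, rfl⟩

/-- The incidence count. -/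
theorem incidence [Finite V] (hσ : Invol σ) (B : AddSubgroup V) {R : Type*} (t : R → F)
    (y : R → suGroup h) (hne : ∀ r, t r ≠ 0) (P : V → Prop)
    (hP : ∀ r x, P (hatY σ (t r) (y r).1 x) → P x) {T : Set V}
    (hT : ∀ z ∈ T, P z ∧ ∃ r, z ∈ B.map (hatY σ (t r) (y r).1)) :
    Nat.card T ≤ Nat.card (famB (σ := σ) B t y) * Nat.card {x // x ∈ B ∧ P x} := by
  classical
  haveI : Finite (AddSubgroup V) :=
    Finite.of_injective (fun H : AddSubgroup V => (H : Set V)) SetLike.coe_injective
  -- canonical representatives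
  have hrep : ∀ A : famB (σ := σ) B t y, ∃ r, B.map (hatY σ (t r) (y r).1) = A.1 := fun A => A.2
  choose rep hrep using hrep
  have hz : ∀ z : T, ∃ A : famB (σ := σ) B t y, z.1 ∈ A.1 := by
    intro z
    obtain ⟨r, hr⟩ := (hT z.1 z.2).2
    exact ⟨⟨_, mem_famB_self B t y r⟩, hr⟩
  choose A hA using hz
  have hx : ∀ z : T, ∃ x : V, x ∈ B ∧ hatY σ (t (rep (A z))) (y (rep (A z))).1 x = z.1 := by
    intro z
    have h1 := hA z
    rw [← hrep (A z)] at h1
    obtain ⟨x, hx, hxz⟩ := h1
    exact ⟨x, hx, hxz⟩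
  choose x hxB hxz using hx
  have hPx : ∀ z : T, P (x z) := by
    intro z
    apply hP (rep (A z))
    rw [hxz]
    exact (hT z.1 z.2).1
  let φ : T → famB (σ := σ) B t y × {x // x ∈ B ∧ P x} := fun z => (A z, ⟨x z, hxB z, hPx z⟩)
  have hφ : Function.Injective φ := by
    intro z z' hzz
    have h1 : A z = A z' := congrArg Prod.fst hzz
    have h2 : x z = x z' := congrArg (fun p => (Prod.snd p).1) hzz
    apply Subtype.ext
    rw [← hxz z, ← hxz z', h1, h2]
  have h3 := Nat.card_le_card_of_injective φ hφ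
  rwa [Nat.card_prod] at h3

theorem card_sub_nonzero_add_one_le [Finite V] (B : AddSubgroup V) (P : V → Prop)
    (hP : ∀ x, P x → x ≠ 0) : Nat.card {x // x ∈ B ∧ P x} + 1 ≤ Nat.card B := by
  classical
  haveI : Fintype V := Fintype.ofFinite V
  have h1 : Nat.card (Option {x // x ∈ B ∧ P x}) ≤ Nat.card B := by
    apply Nat.card_le_card_of_injective
      (fun o : Option {x // x ∈ B ∧ P x} => o.elim (0 : B) (fun x => (⟨x.1, x.2.1⟩ : B)))
    rintro (_ | ⟨a, ha⟩) (_ | ⟨b, hb⟩) hab
    · rfl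
    · exfalso
      have h2 : (0 : V) = b := congrArg (fun x : B => x.1) hab
      exact hP b hb.2 h2.symm
    · exfalso
      have h2 : a = (0 : V) := congrArg (fun x : B => x.1) hab
      exact hP a ha.2 h2
    · have h2 : a = b := congrArg (fun x : B => x.1) hab
      subst h2
      rfl
  rwa [Finite.card_option] at h1

section main

variable [Finite F] [FiniteDimensional F V] (S : HForm σ h) (hσ : Invol σ) {e f : V} (H : IsHP h e f)

include S hσ H

/-- The family count using `main_count`. -/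
theorem fam_main [Finite (suGroup h)] (K : Subgroup (suGroup h)) {R : Type*} (t : R → F)
    (y : R → suGroup h) (hy : ∀ r, NP σ e f (t r) (y r).1) :
    Nat.card (famB (σ := σ) (Bof S hσ H K) t y) *
        (Nat.card (pureF σ) * Nat.card (perp2 S e f)) ≤
      K.index * (Nat.card (Aof S hσ e H.ee K) * Nat.card (Bof S hσ H K)) := by
  classical
  haveI : Finite V := Module.finite_of_finite F
  haveI : Finite (AddSubgroup V) :=
    Finite.of_injective (fun H : AddSubgroup V => (H : Set V)) SetLike.coe_injective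
  have hrep : ∀ A : famB (σ := σ) (Bof S hσ H K) t y, ∃ r,
      (Bof S hσ H K).map (hatY σ (t r) (y r).1) = A.1 := fun A => A.2
  choose rep hrep using hrep
  have h1 := main_count S hσ H K (fun A : famB (σ := σ) (Bof S hσ H K) t y => y (rep A))
    (fun A => t (rep A)) (fun A => hy _) (by
      intro A A' hAA
      have h2 := congrArg Prod.snd hAA
      simp only [Bof_conj S hσ H (hy _)] at h2
      rw [hrep, hrep] at h2
      exact Subtype.ext h2)
  rw [Aof_top, card_Bof_top S hσ H] at h1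
  exact h1

/-- The family count when the scalings have norm one. -/
theorem fam_main₀ [Finite (suGroup h)] (hV : 3 ≤ finrank F V) (K : Subgroup (suGroup h))
    (hA : Aof S hσ e H.ee K ≠ pureF σ) {R : Type*} (t : R → F)
    (y : R → suGroup h) (hy : ∀ r, NP σ e f (t r) (y r).1) (hs : ∀ r, t r * σ (t r) = 1) :
    Nat.card (famB (σ := σ) (Bof S hσ H K) t y) *
        (Nat.card (pureF σ) * Nat.card (perp2 S e f)) ≤
      K.index * Nat.card (Bof S hσ H K) := by
  classical
  haveI : Finite V := Module.finite_of_finite F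
  haveI : Finite (AddSubgroup V) :=
    Finite.of_injective (fun H : AddSubgroup V => (H : Set V)) SetLike.coe_injective
  have hrep : ∀ A : famB (σ := σ) (Bof S hσ H K) t y, ∃ r,
      (Bof S hσ H K).map (hatY σ (t r) (y r).1) = A.1 := fun A => A.2
  choose rep hrep using hrep
  exact family_bound₁ S hσ H hV K hA (fun A : famB (σ := σ) (Bof S hσ H K) t y => y (rep A))
    (fun A => t (rep A)) (fun A => hy _) (fun A => hs _) (by
      intro A A' hAA
      have h2 : (Bof S hσ H K).map (hatY σ (t (rep A)) (y (rep A)).1) =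
          (Bof S hσ H K).map (hatY σ (t (rep A')) (y (rep A')).1) := hAA
      rw [hrep, hrep] at h2
      exact Subtype.ext h2)

end main

section trans

variable [Finite F] [FiniteDimensional F V] (S : HForm σ h) (hσ : Invol σ)

include S hσ

/-- Hilbert 90. -/
theorem exists_hilbert {β : F} (hβ : β * σ β = 1) : ∃ α, α ≠ 0 ∧ β = α * (σ α)⁻¹ := by
  have hβ0 : β ≠ 0 := by
    rintro rfl
    simp at hβ
  by_cases h1 : 1 + β = 0
  · obtain ⟨c, hc0, hc⟩ := hσ.exists_pure
    refine ⟨c, hc0, ?_⟩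
    have hsc : σ c = -c := by linear_combination hc
    rw [hsc]
    have h2 : β = -1 := by linear_combination h1
    rw [h2]
    field_simp
  · refine ⟨1 + β, h1, ?_⟩
    have h2 : σ (1 + β) = (1 + β) * (σ β) := by
      rw [map_add, map_one]
      linear_combination -hβ
    have hsβ : σ β ≠ 0 := by simpa using hβ0
    rw [h2, mul_inv]
    field_simp
    linear_combination hβ

/-- `SU` is transitive on the isotropic points, in dimension at least two. -/
theorem exists_su_map_point (hV : 2 ≤ finrank F V) {a a' : V} (ha : a ≠ 0) (ha' : a' ≠ 0)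
    (haa : h a a = 0) (ha'a' : h a' a' = 0) : ∃ (g : suGroup h) (c : F), c ≠ 0 ∧ g.1 a = c • a' := by
  obtain ⟨g, hg, hgu⟩ := exists_isometry_map S hσ ha ha' (by rw [haa, ha'a'])
  obtain ⟨ε, hε, r, hr, hge⟩ := gu_decomp hσ _ V h S rfl g hg
  have hdet : ∃ β, LinearMap.det (g : V →ₗ[F] V) = β ∧ β * σ β = 1 ∧ β ≠ 0 := by
    rw [hge, dt_mul, dt_mem_eGroup S hε, one_mul]
    rcases hr with rfl | ⟨w, β, HQ⟩
    · refine ⟨1, dt_one, by simp, one_ne_zero⟩
    · refine ⟨β, HQ.det S, HQ.norm, ?_⟩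
      rintro rfl
      have := HQ.norm
      simp at this
  obtain ⟨β, hβ, hβn, hβ0⟩ := hdet
  obtain ⟨f', hf'f', hf'e'⟩ := S.exists_partner hσ ha' ha'a'
  have hβi : β⁻¹ * σ β⁻¹ = 1 := by
    rw [map_inv₀]
    have : σ β ≠ 0 := by simpa using hβ0
    field_simp
    linear_combination -hβn
  obtain ⟨α, hα0, hα⟩ := exists_hilbert S hσ hβi
  have H' : IsHP h a' f' := ⟨ha'a', hf'f', hf'e'⟩
  obtain ⟨d, hd⟩ := exists_dAt S hσ H' hα0
  have hmem : d * g ∈ suGroup h := by
    rw [mem_suGroup]
    refine ⟨mul_mem (hd.mem_uGroup S hσ) hg, ?_⟩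
    rw [dt_mul, hd.det S, hβ, ← hα]
    field_simp
  refine ⟨⟨d * g, hmem⟩, α, hα0, ?_⟩
  show d (g a) = _
  rw [hgu]
  exact hd.apply_left S

variable {e f : V} (H : IsHP h e f)

include H

/-- The element scaling an isotropic vector of the complement by a fourth power. -/
theorem exists_t4 {a b : V} (Hab : IsHP h a b) (ha : a ∈ perp2 S e f) (hb : b ∈ perp2 S e f)
    {t : F} (ht : t ≠ 0) :
    ∃ (y : suGroup h) (s : F), NP σ e f s y.1 ∧ s * σ s = 1 ∧ σ s • y.1 a = t ^ 4 • a := by
  have hst : σ t ≠ 0 := by simpa using ht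
  have hs0 : σ t / t ≠ 0 := div_ne_zero hst ht
  have hα0 : σ t * t ^ 3 ≠ 0 := mul_ne_zero hst (pow_ne_zero _ ht)
  obtain ⟨d₁, hd₁⟩ := exists_dAt S hσ H hs0
  obtain ⟨d₂, hd₂⟩ := exists_dAt S hσ Hab hα0
  have hae : h a e = 0 := ha.1
  have haf : h a f = 0 := ha.2
  have hbe : h b e = 0 := hb.1
  have hbf : h b f = 0 := hb.2
  have hmem : d₁ * d₂ ∈ suGroup h := by
    rw [mem_suGroup]
    refine ⟨mul_mem (hd₁.mem_uGroup S hσ) (hd₂.mem_uGroup S hσ), ?_⟩
    rw [dt_mul, hd₁.det S, hd₂.det S]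
    simp only [map_mul, map_div₀, map_pow, hσ.invol]
    field_simp
  refine ⟨⟨d₁ * d₂, hmem⟩, σ t / t, ⟨hs0, ?_, ?_⟩, ?_, ?_⟩
  · show d₁ (d₂ e) = _
    rw [hd₂.apply_orth (S.zero_symm hae) (S.zero_symm hbe), hd₁.apply_left S]
  · show d₁ (d₂ f) = _
    rw [hd₂.apply_orth (S.zero_symm haf) (S.zero_symm hbf), hd₁.apply_right S]
  · rw [map_div₀, hσ.invol]
    field_simp
  · show σ (σ t / t) • d₁ (d₂ a) = _
    rw [hd₂.apply_left S, map_smul, hd₁.apply_orth hae haf, smul_smul, map_div₀, hσ.invol]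
    congr 1
    field_simp

end trans

end Cfsg.Agent.Lib.MinSU
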