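/-
Regular actions of radicals: fixed points of elements normalising the radical.
-/
import Mathlib
import Cfsg.Agent.Lib.MinSU.Orbit

set_option autoImplicit false
set_option linter.unusedSimpArgs false
set_option linter.unusedSectionVars false
set_option linter.style.haveILetI false
set_option linter.unusedVariables false

namespace Cfsg.Agent.Lib.MinSU

open Module Cfsg.Agent.Lib.Classical.HermBasic Cfsg.Agent.Lib.Classical.HermElem
open Cfsg.Agent.Lib.Classical.HermGen Cfsg.Agent.Lib.Classical.HermSimple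

universe u v

section action

variable {G : Type*} [Group G] (K Q : Subgroup G)

theorem orbit_inj (hQ : ∀ g, cj g K ⊓ Q = ⊥) (x₀ : G ⧸ K) :
    Function.Injective fun u : Q => (u : G) • x₀ := by
  intro a b hab
  obtain ⟨g₀, rfl⟩ := QuotientGroup.mk_surjective x₀
  have h1 : (QuotientGroup.mk ((a : G) * g₀) : G ⧸ K) = QuotientGroup.mk ((b : G) * g₀) := hab
  have h2 := QuotientGroup.eq.1 h1
  have h5 : (a : G)⁻¹ * b ∈ cj g₀ K := by
    rw [mem_cj]
    have : g₀⁻¹ * ((a : G)⁻¹ * b) * g₀ = ((a : G) * g₀)⁻¹ * ((b : G) * g₀) := by group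
    rw [this]
    exact h2
  have h3 : (a : G)⁻¹ * b ∈ cj g₀ K ⊓ Q := ⟨h5, Q.mul_mem (Q.inv_mem a.2) b.2⟩
  rw [hQ, Subgroup.mem_bot] at h3
  apply Subtype.ext
  have h4 : (a : G) * ((a : G)⁻¹ * b) = a := by rw [h3, mul_one]
  rw [← h4]
  group

theorem orbit_bij [Finite G] (hQ : ∀ g, cj g K ⊓ Q = ⊥) (hidx : K.index < 2 * Nat.card Q)
    (x₀ : G ⧸ K) : Function.Bijective fun u : Q => (u : G) • x₀ := by
  refine ⟨orbit_inj K Q hQ x₀, ?_⟩
  by_contra hns
  unfold Function.Surjective at hns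
  push Not at hns
  obtain ⟨x₁, hx₁⟩ := hns
  have h1 : Nat.card (Bool × Q) ≤ Nat.card (G ⧸ K) := by
    refine Nat.card_le_card_of_injective (fun p : Bool × Q => (p.2 : G) • (if p.1 then x₀ else x₁)) ?_
    rintro ⟨a, u⟩ ⟨b, v⟩ hab
    have hab' : (u : G) • (if a then x₀ else x₁) = (v : G) • (if b then x₀ else x₁) := hab
    cases a <;> cases b
    · have := orbit_inj K Q hQ x₁ (a₁ := u) (a₂ := v) hab'
      rw [this]
    · exfalso
      simp only [Bool.false_eq_true, if_false, if_true] at hab'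
      apply hx₁ ((u⁻¹ * v : Q))
      show ((u⁻¹ * v : Q) : G) • x₀ = x₁
      have : (v : G) • x₀ = (u : G) • x₁ := hab'.symm
      rw [Subgroup.coe_mul, mul_smul, this]
      simp
    · exfalso
      simp only [Bool.false_eq_true, if_false, if_true] at hab'
      apply hx₁ ((v⁻¹ * u : Q))
      show ((v⁻¹ * u : Q) : G) • x₀ = x₁
      rw [Subgroup.coe_mul, mul_smul, hab']
      simp
    · have := orbit_inj K Q hQ x₀ (a₁ := u) (a₂ := v) hab'
      rw [this]
  rw [Nat.card_prod, Nat.card_eq_fintype_card (α := Bool), Fintype.card_bool, ← Subgroup.index_eq_card] at h1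
  omega

theorem index_eq_card_of_bij (x₀ : G ⧸ K) (hb : Function.Bijective fun u : Q => (u : G) • x₀) :
    K.index = Nat.card Q := by
  rw [Subgroup.index_eq_card]
  exact (Nat.card_eq_of_bijective _ hb).symm

/-- Fixed points of an element normalising a regular subgroup. -/
theorem fix_card (t : G) (ht : ∀ u ∈ Q, t * u * t⁻¹ ∈ Q) (x₀ : G ⧸ K) (htx : t • x₀ = x₀)
    (hb : Function.Bijective fun u : Q => (u : G) • x₀) :
    Nat.card {x : G ⧸ K // t • x = x} = Nat.card ↥(Subgroup.centralizer {t} ⊓ Q) := by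
  have key : ∀ u : Q, t • ((u : G) • x₀) = (u : G) • x₀ ↔ t * u * t⁻¹ = u := by
    intro u
    have h1 : t • ((u : G) • x₀) = (t * u * t⁻¹) • x₀ := by
      rw [mul_smul, mul_smul, inv_smul_eq_iff.2 htx.symm]
    rw [h1]
    constructor
    · intro h2
      have := hb.1 (a₁ := ⟨_, ht u u.2⟩) (a₂ := u) h2
      exact congrArg Subtype.val this
    · intro h2
      rw [h2]
  symm
  apply Nat.card_congr
  refine Equiv.ofBijective (fun u => ⟨(u.1 : G) • x₀, ?_⟩) ⟨?_, ?_⟩
  · have h1 := (key ⟨u.1, u.2.2⟩).2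
    show t • ((u.1 : G) • x₀) = (u.1 : G) • x₀
    apply h1
    have h2 : t * u.1 = u.1 * t := by
      have := Subgroup.mem_centralizer_iff.1 u.2.1 t rfl
      exact this
    rw [h2]
    group
  · intro a b hab
    have h1 : (a.1 : G) • x₀ = (b.1 : G) • x₀ := congrArg (fun x : {x : G ⧸ K // t • x = x} => x.1) hab
    have := hb.1 (a₁ := ⟨a.1, a.2.2⟩) (a₂ := ⟨b.1, b.2.2⟩) h1
    apply Subtype.ext
    exact congrArg (fun x : Q => (x : G)) this
  · rintro ⟨x, hx⟩
    obtain ⟨u, rfl⟩ := hb.2 x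
    have h1 := (key u).1 hx
    have h7 : u.1 ∈ Subgroup.centralizer {t} := by
      rw [Subgroup.mem_centralizer_iff]
      intro y hy
      rw [Set.mem_singleton_iff] at hy
      subst hy
      calc y * u.1 = (y * u.1 * y⁻¹) * y := by group
        _ = u.1 * y := by rw [h1]
    exact ⟨⟨u.1, h7, u.2⟩, rfl⟩

/-- An element of prime exponent not dividing the index has a fixed point. -/
theorem exists_fix [Finite G] (r : ℕ) [Fact r.Prime] (t : G) (htr : t ^ r = 1)
    (hr : ¬ r ∣ K.index) : ∃ x₀ : G ⧸ K, t • x₀ = x₀ := by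
  have hp : IsPGroup r (Subgroup.zpowers t) := by
    intro g
    obtain ⟨k, hk⟩ := g.2
    refine ⟨1, ?_⟩
    apply Subtype.ext
    simp only [pow_one, Subgroup.coe_pow, Subgroup.coe_one]
    rw [← hk, ← zpow_natCast, ← zpow_mul, mul_comm, zpow_mul, zpow_natCast, htr, one_zpow]
  rw [Subgroup.index_eq_card] at hr
  obtain ⟨x₀, hx₀⟩ := hp.nonempty_fixed_point_of_prime_not_dvd_card (G ⧸ K) hr
  exact ⟨x₀, hx₀ ⟨t, Subgroup.mem_zpowers t⟩⟩

end action

end Cfsg.Agent.Lib.MinSU
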