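/-
A subgroup all of whose conjugates meet every radical trivially cannot have small index:
fixed point counts of semisimple elements.
-/
import Mathlib
import Cfsg.Agent.Lib.MinSU.Regular

set_option autoImplicit false
set_option linter.unusedSimpArgs false
set_option linter.unusedSectionVars false
set_option linter.style.haveILetI false
set_option linter.unusedVariables false

namespace Cfsg.Agent.Lib.MinSU

open Module Cfsg.Agent.Lib.Classical.HermBasic Cfsg.Agent.Lib.Classical.HermElem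
open Cfsg.Agent.Lib.Classical.HermGen Cfsg.Agent.Lib.Classical.HermSimple

universe u v

variable {F : Type u} [Field F] {V : Type v} [AddCommGroup V] [Module F V]
variable {σ : F →+* F} {h : V → V → F}

section setup

variable [Finite F] [FiniteDimensional F V] (S : HForm σ h) (hσ : Invol σ)

include S hσ

/-- Two orthogonal hyperbolic pairs and a non-isotropic vector orthogonal to them. -/
theorem exists_two_pairs (hV : 5 ≤ finrank F V) :
    ∃ e₁ f₁ e₂ f₂ w₀ : V, IsHP h e₁ f₁ ∧ IsHP h e₂ f₂ ∧ h e₂ e₁ = 0 ∧ h e₂ f₁ = 0 ∧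
      h f₂ e₁ = 0 ∧ h f₂ f₁ = 0 ∧ h w₀ e₁ = 0 ∧ h w₀ f₁ = 0 ∧ h w₀ e₂ = 0 ∧ h w₀ f₂ = 0 ∧
      h w₀ w₀ ≠ 0 := by
  obtain ⟨e₁, f₁, H₁⟩ := exists_hp S hσ (by omega)
  have S₁ := restrict S H₁
  have hfr := finrank_perp2 S H₁
  obtain ⟨e', f', H'⟩ := exists_hp S₁ hσ (by omega)
  obtain ⟨u, hu, huu⟩ := exists_nonisotropic_perp2 S₁ hσ (by omega) H'
  exact ⟨e₁, f₁, e'.1, f'.1, u.1, H₁, ⟨H'.ee, H'.ff, H'.fe⟩, e'.2.1, e'.2.2, f'.2.1, f'.2.2,
    u.2.1, u.2.2, hu.1, hu.2, huu⟩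

variable {e f : V} (H : IsHP h e f) {t₀ : F} {t : suGroup h}

include H

theorem Bof_centralizer_sub (HN : NP σ e f t₀ t.1) {w : V}
    (hw : w ∈ Bof S hσ H (Subgroup.centralizer {t})) : σ t₀ • t.1 w = w := by
  obtain ⟨hwp, g, hg, a, E⟩ := hw
  have h1 := E.conj (mem_suGroup.1 t.2).1
  rw [HN.left] at h1
  have h2 := h1.smul_center S hσ HN.ne
  have h3 : t * g * t⁻¹ = g := by
    have h4 : t * g = g * t := Subgroup.mem_centralizer_iff.1 hg t rfl
    rw [h4]
    group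
  have h5 : t.1 * g.1 * t.1⁻¹ = g.1 := congrArg Subtype.val h3
  rw [h5] at h2
  have hmem : σ t₀ • t.1 w ∈ perp2 S e f :=
    (perp2 S e f).smul_mem _ (HN.perp S hσ H hwp)
  rw [← proj_eich S H h2 hmem, proj_eich S H E hwp]

theorem Bof_centralizer_sup (HN : NP σ e f t₀ t.1) (hn : t₀ * σ t₀ = 1) {w : V}
    (hwp : w ∈ perp2 S e f) (hw : σ t₀ • t.1 w = w) :
    w ∈ Bof S hσ H (Subgroup.centralizer {t}) := by
  obtain ⟨a, ha⟩ := hσ.exists_trace (- h w w) (by rw [map_neg, S.self_fix])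
  have hha : a + σ a + h w w = 0 := by rw [ha]; ring
  obtain ⟨g, E⟩ := exists_eichAt S H.ee hwp.1 hha
  have h1 := E.conj (mem_suGroup.1 t.2).1
  rw [HN.left] at h1
  have h2 := h1.smul_center S hσ HN.ne
  rw [hw, hn, mul_one] at h2
  have h3 : t.1 * g * t.1⁻¹ = g := eich_eq_of_params h2 E
  let g' : suGroup h := ⟨g, E.mem_suGroup S⟩
  have h4 : g' ∈ Subgroup.centralizer {t} := by
    rw [Subgroup.mem_centralizer_iff]
    intro y hy
    rw [Set.mem_singleton_iff] at hy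
    subst hy
    apply Subtype.ext
    show y.1 * g = g * y.1
    calc y.1 * g = (y.1 * g * y.1⁻¹) * y.1 := by group
      _ = g * y.1 := by rw [h3]
  exact ⟨hwp, g', h4, a, E⟩

theorem card_Aof_le_pure (L : Subgroup (suGroup h)) :
    Nat.card (Aof S hσ e H.ee L) ≤ Nat.card (pureF σ) :=
  Nat.card_le_card_of_injective
    (fun x : Aof S hσ e H.ee L => (⟨x.1, Aof_le_pure S hσ e H.ee L x.2⟩ : pureF σ))
    (fun a b hab => Subtype.ext (congrArg (fun x : pureF σ => x.1) hab))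

/-- The fixed point formula. -/
theorem fix_eq (K : Subgroup (suGroup h))
    (hQ : ∀ g, cj g K ⊓ radQ S hσ e H.ee = ⊥)
    (hidx : K.index < 2 * Nat.card (radQ S hσ e H.ee)) (HN : NP σ e f t₀ t.1)
    {x₀ : suGroup h ⧸ K} (htx : t • x₀ = x₀) :
    Nat.card {x : suGroup h ⧸ K // t • x = x} =
      Nat.card (Aof S hσ e H.ee (Subgroup.centralizer {t})) *
        Nat.card (Bof S hσ H (Subgroup.centralizer {t})) := by
  haveI : Finite (suGroup h) := finite_su
  have hb := orbit_bij K _ hQ hidx x₀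
  rw [fix_card K _ t (fun u hu => NP.conj_radQ S hσ H HN hu) x₀ htx hb]
  exact card_inf_radQ S hσ H _

end setup

section q3

variable [Finite F] [FiniteDimensional F V] (S : HForm σ h) (hσ : Invol σ)

theorem DAt_mul {e f : V} {a b : F} {g g' : V ≃ₗ[F] V} (S : HForm σ h) (hg : DAt σ h e f a g)
    (hg' : DAt σ h e f b g') : DAt σ h e f (a * b) (g * g') := by
  have H := hg.hp
  have hef := H.ef S
  refine ⟨H, mul_ne_zero hg.ne hg'.ne, fun x => ?_⟩
  show g (g' x) = _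
  rw [hg'.apply, hg.apply]
  simp only [S.add_left, S.smul_left, H.ee, H.ff, H.fe, hef, mul_zero, mul_one, add_zero, zero_add,
    map_mul, mul_inv]
  module

theorem DAt_pow {e f : V} {a : F} {g : V ≃ₗ[F] V} (S : HForm σ h) (hg : DAt σ h e f a g) (k : ℕ) :
    DAt σ h e f (a ^ k) (g ^ k) := by
  induction k with
  | zero =>
    refine ⟨hg.hp, by simp, fun x => ?_⟩
    simp
  | succ k ih =>
    rw [pow_succ, pow_succ]
    exact DAt_mul S ih hg

theorem DAt_one_eq {e f : V} {g : V ≃ₗ[F] V} (hg : DAt σ h e f 1 g) : g = 1 := by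
  ext x
  rw [hg.apply]
  simp

include S hσ

/-- The case `q ≥ 3`. -/
theorem no_semiregular_q3 (hV : 5 ≤ finrank F V) (q m : ℕ) (hq : Nat.card (pureF σ) = q)
    (hq3 : 3 ≤ q) (hm : finrank F V = m + 2) (K : Subgroup (suGroup h))
    (hsemi : ∀ (e : V) (hee : h e e = 0), e ≠ 0 → ∀ g, cj g K ⊓ radQ S hσ e hee = ⊥)
    (hidx : K.index < 2 * (q * q ^ (2 * m))) : False := by
  classical
  haveI : Finite V := Module.finite_of_finite F
  haveI : Finite (suGroup h) := finite_su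
  have hF : Nat.card F = q * q := by rw [card_F_eq hσ, hq]
  obtain ⟨e₁, f₁, e₂, f₂, w₀, H₁, H₂, h21, h22, h23, h24, hw1, hw2, hw3, hw4, hw0⟩ :=
    exists_two_pairs S hσ hV
  have hw₀0 : w₀ ≠ 0 := by
    rintro rfl
    exact hw0 (S.zero_left _)
  have hcardQ : ∀ {e f : V} (H : IsHP h e f), Nat.card (radQ S hσ e H.ee) = q * q ^ (2 * m) := by
    intro e f H
    have hfr := finrank_perp2 S H
    rw [card_radQ S hσ H, Aof_top, card_Bof_top S hσ H, hq,
      Module.natCard_eq_pow_finrank (K := F), hF, show finrank F (perp2 S e f) = m by omega, pow_mul,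
      sq]
  -- the element of prime order
  have hq1 : q - 1 ≠ 1 := by omega
  set r := Nat.minFac (q - 1) with hr
  have hrp : r.Prime := Nat.minFac_prime hq1
  haveI : Fact r.Prime := ⟨hrp⟩
  have hrd : r ∣ q - 1 := Nat.minFac_dvd _
  have hcardU : Nat.card (fqU σ) = q - 1 := by
    have := card_fqU_add_one hσ
    omega
  haveI : Finite (fqU σ) := inferInstance
  obtain ⟨x, hx⟩ : ∃ x : fqU σ, orderOf x = r := exists_prime_orderOf_dvd_card' r (by rw [hcardU]; exact hrd)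
  set a : F := ((x.1 : Fˣ) : F) with ha
  have hfix : σ a = a := x.2
  have ha0 : a ≠ 0 := Units.ne_zero _
  have ha1 : a ≠ 1 := by
    intro h1
    have : x = 1 := by
      apply Subtype.ext
      apply Units.ext
      exact h1
    rw [this, orderOf_one] at hx
    exact hrp.one_lt.ne hx
  have har : a ^ r = 1 := by
    have h1 : x ^ r = 1 := by rw [← hx]; exact pow_orderOf_eq_one x
    have h2 := congrArg (fun y : fqU σ => ((y.1 : Fˣ) : F)) h1
    simpa using h2
  obtain ⟨d, hd⟩ := exists_dAt S hσ H₁ ha0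
  have hdmem : d ∈ suGroup h := by
    rw [mem_suGroup]
    refine ⟨hd.mem_uGroup S hσ, ?_⟩
    rw [hd.det S, hfix]
    field_simp
  let t : suGroup h := ⟨d, hdmem⟩
  have htr : t ^ r = 1 := by
    apply Subtype.ext
    show d ^ r = 1
    have := DAt_pow S hd r
    rw [har] at this
    exact DAt_one_eq this
  have hidx' : K.index = q * q ^ (2 * m) := by
    have hb := orbit_bij K _ (hsemi e₁ H₁.ee (H₁.ne_left S)) (by rw [hcardQ H₁]; exact hidx)
      (QuotientGroup.mk 1)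
    rw [index_eq_card_of_bij K _ _ hb, hcardQ H₁]
  have hrK : ¬ r ∣ K.index := by
    rw [hidx', ← pow_succ']
    intro hdvd
    have h1 := hrp.dvd_of_dvd_pow hdvd
    have h2 : r ∣ 1 := by
      have h3 : q = (q - 1) + 1 := by omega
      rw [h3] at h1
      exact (Nat.dvd_add_right hrd).1 h1
    exact hrp.one_lt.ne' (Nat.dvd_one.1 h2)
  obtain ⟨x₀, hx₀⟩ := exists_fix K r t htr hrK
  -- the two computations
  have HN₁ : NP σ e₁ f₁ a t.1 := ⟨ha0, hd.apply_left S, hd.apply_right S⟩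
  have hd2 : ∀ y, h y e₁ = 0 → h y f₁ = 0 → d y = y := fun y h1 h2 => hd.apply_orth h1 h2
  have HN₂ : NP σ e₂ f₂ 1 t.1 := by
    refine ⟨one_ne_zero, ?_, ?_⟩
    · rw [one_smul]; exact hd2 _ h21 h22
    · rw [map_one, inv_one, one_smul]; exact hd2 _ h23 h24
  have E₁ := fix_eq S hσ H₁ K (hsemi e₁ H₁.ee (H₁.ne_left S)) (by rw [hcardQ H₁]; exact hidx) HN₁ hx₀
  have E₂ := fix_eq S hσ H₂ K (hsemi e₂ H₂.ee (H₂.ne_left S)) (by rw [hcardQ H₂]; exact hidx) HN₂ hx₀
  have hB₁ : Bof S hσ H₁ (Subgroup.centralizer {t}) = ⊥ := by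
    rw [eq_bot_iff]
    intro w hw
    have h1 := Bof_centralizer_sub S hσ H₁ HN₁ hw
    have h2 : t.1 w = w := hd2 w hw.1.1 hw.1.2
    rw [h2, hfix] at h1
    have h3 : (a - 1) • w = 0 := by
      rw [sub_smul, one_smul, h1, sub_self]
    rw [AddSubgroup.mem_bot]
    exact (smul_eq_zero.1 h3).resolve_left (sub_ne_zero.2 ha1)
  have hle₁ : Nat.card (Aof S hσ e₁ H₁.ee (Subgroup.centralizer {t})) *
      Nat.card (Bof S hσ H₁ (Subgroup.centralizer {t})) ≤ q := by
    rw [hB₁]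
    have : Nat.card (⊥ : AddSubgroup V) = 1 := by simp
    rw [this, mul_one, ← hq]
    exact card_Aof_le_pure S hσ H₁ _
  have hge₂ : q * q ≤ Nat.card (Aof S hσ e₂ H₂.ee (Subgroup.centralizer {t})) *
      Nat.card (Bof S hσ H₂ (Subgroup.centralizer {t})) := by
    have h1 : Nat.card F ≤ Nat.card (Bof S hσ H₂ (Subgroup.centralizer {t})) := by
      refine Nat.card_le_card_of_injective (fun c : F => (⟨c • w₀, ?_⟩ :
        Bof S hσ H₂ (Subgroup.centralizer {t}))) ?_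
      · refine Bof_centralizer_sup S hσ H₂ HN₂ (by simp) ⟨?_, ?_⟩ ?_
        · rw [S.smul_left, hw3, mul_zero]
        · rw [S.smul_left, hw4, mul_zero]
        · rw [map_one, one_smul]
          exact hd2 _ (by rw [S.smul_left, hw1, mul_zero]) (by rw [S.smul_left, hw2, mul_zero])
      · intro c c' hcc
        exact smul_left_injective F hw₀0 (congrArg (fun x : Bof S hσ H₂ (Subgroup.centralizer {t}) => x.1) hcc)
    rw [hF] at h1
    have h2 : 0 < Nat.card (Aof S hσ e₂ H₂.ee (Subgroup.centralizer {t})) := Nat.card_pos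
    nlinarith
  rw [← E₁] at hle₁
  rw [← E₂] at hge₂
  have : q * q ≤ q := hge₂.trans hle₁
  nlinarith

end q3

section q2

variable [Finite F] [FiniteDimensional F V] (S : HForm σ h) (hσ : Invol σ)

/-- The orthogonal complement of two hyperbolic pairs and a vector. -/
def perp5 (S : HForm σ h) (e₁ f₁ e₂ f₂ w₀ : V) : Submodule F V where
  carrier := {x | h x e₁ = 0 ∧ h x f₁ = 0 ∧ h x e₂ = 0 ∧ h x f₂ = 0 ∧ h x w₀ = 0}
  add_mem' := by
    rintro a b ⟨h1, h2, h3, h4, h5⟩ ⟨h1', h2', h3', h4', h5'⟩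
    simp only [Set.mem_setOf_eq, S.add_left, h1, h2, h3, h4, h5, h1', h2', h3', h4', h5', add_zero,
      and_self]
  zero_mem' := by
    simp only [Set.mem_setOf_eq, S.zero_left, and_self]
  smul_mem' := by
    rintro c x ⟨h1, h2, h3, h4, h5⟩
    simp only [Set.mem_setOf_eq, S.smul_left, h1, h2, h3, h4, h5, mul_zero, and_self]

omit [Finite F] in
theorem finrank_perp5 {e₁ f₁ e₂ f₂ w₀ : V} (H₁ : IsHP h e₁ f₁) (H₂ : IsHP h e₂ f₂)
    (h21 : h e₂ e₁ = 0) (h22 : h e₂ f₁ = 0) (h23 : h f₂ e₁ = 0) (h24 : h f₂ f₁ = 0)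
    (hw1 : h w₀ e₁ = 0) (hw2 : h w₀ f₁ = 0) (hw3 : h w₀ e₂ = 0) (hw4 : h w₀ f₂ = 0)
    (hw0 : h w₀ w₀ ≠ 0) : finrank F (perp5 S e₁ f₁ e₂ f₂ w₀) + 5 = finrank F V := by
  let φ : V →ₗ[F] (F × F × F × F × F) :=
    (S.hL e₁).prod ((S.hL f₁).prod ((S.hL e₂).prod ((S.hL f₂).prod (S.hL w₀))))
  have hker : LinearMap.ker φ = perp5 S e₁ f₁ e₂ f₂ w₀ := by
    ext x
    simp [φ, LinearMap.mem_ker, Prod.ext_iff, perp5]
  have hef₁ := H₁.ef S
  have hef₂ := H₂.ef S
  have h12 : h e₁ e₂ = 0 := S.zero_symm h21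
  have h12' : h f₁ e₂ = 0 := S.zero_symm h22
  have h13 : h e₁ f₂ = 0 := S.zero_symm h23
  have h13' : h f₁ f₂ = 0 := S.zero_symm h24
  have h1w : h e₁ w₀ = 0 := S.zero_symm hw1
  have h2w : h f₁ w₀ = 0 := S.zero_symm hw2
  have h3w : h e₂ w₀ = 0 := S.zero_symm hw3
  have h4w : h f₂ w₀ = 0 := S.zero_symm hw4
  have hsurj : Function.Surjective φ := by
    rintro ⟨a, b, c, d, k⟩
    refine ⟨a • f₁ + b • e₁ + c • f₂ + d • e₂ + (k / h w₀ w₀) • w₀, ?_⟩
    have hval : ∀ y, φ y = (h y e₁, h y f₁, h y e₂, h y f₂, h y w₀) := fun y => rfl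
    rw [hval]
    simp only [S.add_left, S.smul_left, H₁.ee, H₁.ff, H₁.fe, H₂.ee, H₂.ff, H₂.fe, hef₁, hef₂, h21,
      h22, h23, h24, hw1, hw2, hw3, hw4, h12, h12', h13, h13', h1w, h2w, h3w, h4w]
    simp only [mul_zero, mul_one, add_zero, zero_add, Prod.mk.injEq, true_and, and_true]
    exact div_mul_cancel₀ k hw0
  have h1 := LinearMap.finrank_range_add_finrank_ker φ
  rw [LinearMap.range_eq_top.mpr hsurj, finrank_top, hker] at h1
  have h2 : finrank F (F × F × F × F × F) = 5 := by simp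
  omega

theorem two_eq_zero_of_card {F : Type*} [Field F] [Finite F] (hF : Nat.card F = 4) : (2 : F) = 0 := by
  classical
  haveI : Fintype F := Fintype.ofFinite F
  obtain ⟨p, hp⟩ := CharP.exists F
  obtain ⟨n, hpp, hcard⟩ := FiniteField.card F p
  rw [Nat.card_eq_fintype_card] at hF
  rw [hF] at hcard
  have hp2 : p = 2 := by
    have h1 : p ∣ 2 ^ 2 := by
      rw [show 2 ^ 2 = 4 by norm_num, hcard]
      exact dvd_pow_self p n.ne_zero
    exact (Nat.prime_dvd_prime_iff_eq hpp Nat.prime_two).1 (hpp.dvd_of_dvd_pow h1)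
  subst hp2
  exact_mod_cast CharP.cast_eq_zero F 2

end q2

end Cfsg.Agent.Lib.MinSU
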