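/-
The weak bound in dimension four: a proper subgroup of `SU₄(q)` has index at least `q³(q+1)`.
-/
import Mathlib
import Cfsg.Agent.Lib.MinSU.Fam
import Cfsg.Agent.Lib.MinSU.NoReg

set_option autoImplicit false
set_option linter.unusedSimpArgs false
set_option linter.unusedSectionVars false
set_option linter.style.haveILetI false
set_option linter.unusedVariables false

namespace Cfsg.Agent.Lib.MinSU

open Module Cfsg.Agent.Lib.Classical.HermBasic Cfsg.Agent.Lib.Classical.HermElem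
open Cfsg.Agent.Lib.Classical.HermGen Cfsg.Agent.Lib.Classical.HermSimple
open Cfsg.Agent.Lib.HermCount.Field

universe u v

variable {F : Type u} [Field F] {V : Type v} [AddCommGroup V] [Module F V]
variable {σ : F →+* F} {h : V → V → F}

section arith

theorem arith_core (q d b s I T : ℕ) (hq : 2 ≤ q) (h1 : I * (q * q ^ 4) ≤ d * b) (h2 : T ≤ I * s)
    (h3 : s + 1 ≤ b) (h4 : b ≤ q ^ 2) (hT : (q ^ 2 - 1) * (q + 1) ≤ T) : q ^ 3 * (q + 1) ≤ d := by
  have hq2 : 1 ≤ q ^ 2 := Nat.one_le_pow _ _ (by omega)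
  have hs : s ≤ q ^ 2 - 1 := by omega
  have hpos : 0 < q ^ 2 * (q ^ 2 - 1) := by
    have : 4 ≤ q ^ 2 := by nlinarith
    apply Nat.mul_pos <;> omega
  apply Nat.le_of_mul_le_mul_left _ hpos
  calc q ^ 2 * (q ^ 2 - 1) * (q ^ 3 * (q + 1)) = ((q ^ 2 - 1) * (q + 1)) * (q * q ^ 4) := by ring
    _ ≤ T * (q * q ^ 4) := Nat.mul_le_mul_right _ hT
    _ ≤ (I * s) * (q * q ^ 4) := Nat.mul_le_mul_right _ h2
    _ = (I * (q * q ^ 4)) * s := by ring
    _ ≤ (d * b) * s := Nat.mul_le_mul_right _ h1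
    _ = d * (b * s) := by ring
    _ ≤ d * (q ^ 2 * (q ^ 2 - 1)) := Nat.mul_le_mul_left _ (Nat.mul_le_mul h4 hs)
    _ = q ^ 2 * (q ^ 2 - 1) * d := by ring

theorem arith_odd (q d b s I T : ℕ) (hq : 2 ≤ q) (h1 : I * (q * q ^ 4) ≤ d * b) (h2 : T ≤ I * s)
    (h3 : s + 1 ≤ b) (h4 : 3 * b ≤ q ^ 2) (hT : (q ^ 2 - 1) * (q + 1) ≤ 4 * T) :
    q ^ 3 * (q + 1) ≤ d := by
  have hq2 : 4 ≤ q ^ 2 := by nlinarith
  have hs : 3 * s ≤ q ^ 2 - 1 := by omega
  have hpos : 0 < q ^ 2 * (q ^ 2 - 1) := by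
    apply Nat.mul_pos <;> omega
  have h5 : 9 * (q ^ 3 * (q + 1)) ≤ 4 * d := by
    apply Nat.le_of_mul_le_mul_left _ hpos
    calc q ^ 2 * (q ^ 2 - 1) * (9 * (q ^ 3 * (q + 1)))
        = 9 * (((q ^ 2 - 1) * (q + 1)) * (q * q ^ 4)) := by ring
      _ ≤ 9 * ((4 * T) * (q * q ^ 4)) :=
          Nat.mul_le_mul_left _ (Nat.mul_le_mul_right _ hT)
      _ ≤ 9 * ((4 * (I * s)) * (q * q ^ 4)) :=
          Nat.mul_le_mul_left _ (Nat.mul_le_mul_right _ (Nat.mul_le_mul_left _ h2))
      _ = 4 * (3 * s) * 3 * (I * (q * q ^ 4)) := by ring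
      _ ≤ 4 * (3 * s) * 3 * (d * b) := Nat.mul_le_mul_left _ h1
      _ = (4 * d) * ((3 * b) * (3 * s)) := by ring
      _ ≤ (4 * d) * (q ^ 2 * (q ^ 2 - 1)) := Nat.mul_le_mul_left _ (Nat.mul_le_mul h4 hs)
      _ = q ^ 2 * (q ^ 2 - 1) * (4 * d) := by ring
  omega

theorem arith_ns (q d a b s I T : ℕ) (hq : 3 ≤ q) (h1 : I * (q * q ^ 4) ≤ d * (a * b))
    (h2 : T ≤ I * s) (h3 : s + 1 ≤ b) (h4 : b ≤ q ^ 2) (h5 : 2 * a ≤ q)
    (hT : q * (q - 1) * (q ^ 2 - 1) ≤ T) : q ^ 3 * (q + 1) ≤ d := by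
  have hq2 : 9 ≤ q ^ 2 := by nlinarith
  have hs : s ≤ q ^ 2 - 1 := by omega
  have hpos : 0 < q ^ 3 * (q ^ 2 - 1) := by
    apply Nat.mul_pos
    · positivity
    · omega
  have h6 : 2 * (q - 1) * q ^ 3 ≤ d := by
    apply Nat.le_of_mul_le_mul_left _ hpos
    calc q ^ 3 * (q ^ 2 - 1) * (2 * (q - 1) * q ^ 3)
        = 2 * ((q * (q - 1) * (q ^ 2 - 1)) * (q * q ^ 4)) := by ring
      _ ≤ 2 * (T * (q * q ^ 4)) := Nat.mul_le_mul_left _ (Nat.mul_le_mul_right _ hT)
      _ ≤ 2 * ((I * s) * (q * q ^ 4)) :=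
          Nat.mul_le_mul_left _ (Nat.mul_le_mul_right _ h2)
      _ = 2 * s * (I * (q * q ^ 4)) := by ring
      _ ≤ 2 * s * (d * (a * b)) := Nat.mul_le_mul_left _ h1
      _ = d * ((2 * a) * (b * s)) := by ring
      _ ≤ d * (q * (q ^ 2 * (q ^ 2 - 1))) :=
          Nat.mul_le_mul_left _ (Nat.mul_le_mul h5 (Nat.mul_le_mul h4 hs))
      _ = q ^ 3 * (q ^ 2 - 1) * d := by ring
  have h7 : q + 1 ≤ 2 * (q - 1) := by omega
  calc q ^ 3 * (q + 1) ≤ q ^ 3 * (2 * (q - 1)) := Nat.mul_le_mul_left _ h7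
    _ = 2 * (q - 1) * q ^ 3 := by ring
    _ ≤ d := h6

end arith

section cover

variable [Finite F] [FiniteDimensional F V] (S : HForm σ h) (hσ : Invol σ) {e f : V} (H : IsHP h e f)

include S hσ H

/-- Non-isotropic vectors of the complement are all related by `NP` elements. -/
theorem cover_nonsing (hV : 4 ≤ finrank F V) {u z : V} (hu : u ∈ perp2 S e f) (huu : h u u ≠ 0)
    (hz : z ∈ perp2 S e f) (hzz : h z z ≠ 0) :
    ∃ (y : suGroup h) (t : F), NP σ e f t y.1 ∧ hatY σ t y.1 u = z := by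
  have hfix : σ (h z z / h u u) = h z z / h u u := by
    rw [map_div₀, S.self_fix, S.self_fix]
  obtain ⟨t, ht⟩ := hσ.exists_norm _ (div_ne_zero hzz huu) hfix
  have ht0 : t ≠ 0 := by
    rintro rfl
    rw [zero_mul] at ht
    exact div_ne_zero hzz huu ht.symm
  have hst : σ t ≠ 0 := by simpa using ht0
  obtain ⟨y₁, hy₁⟩ := exists_NP_torus S hσ H (by omega) ht0
  have hz₁ : σ t • y₁.1 u ∈ perp2 S e f :=
    (perp2 S e f).smul_mem _ (hy₁.perp S hσ H hu)
  have hN : h (σ t • y₁.1 u) (σ t • y₁.1 u) = h z z := by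
    rw [S.smul_left, S.smul_right, hσ.invol, (mem_suGroup.1 y₁.2).1 u u]
    have h1 : t * σ t * h u u = h z z := by
      rw [ht]
      field_simp
    linear_combination h1
  have hfr := finrank_perp2 S H
  obtain ⟨g₀, hg₀⟩ := exists_su_map_norm (restrict S H) hσ (by omega)
    (u := ⟨_, hz₁⟩) (u' := ⟨z, hz⟩) (by
      show h (σ t • y₁.1 u) (σ t • y₁.1 u) ≠ 0
      rw [hN]
      exact hzz) hN
  obtain ⟨y₂, hy₂, hy₂x⟩ := exists_lift S hσ H g₀
  refine ⟨y₂ * y₁, 1 * t, hy₂.mul hy₁, ?_⟩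
  show σ (1 * t) • y₂.1 (y₁.1 u) = z
  rw [one_mul, ← map_smul, hy₂x ⟨_, hz₁⟩, hg₀]

/-- Isotropic vectors of the complement are related up to a scalar by lifted elements. -/
theorem cover_point (hV : 4 ≤ finrank F V) {a z : V} (ha : a ∈ perp2 S e f) (ha0 : a ≠ 0)
    (haa : h a a = 0) (hz : z ∈ perp2 S e f) (hz0 : z ≠ 0) (hzz : h z z = 0) :
    ∃ (y : suGroup h) (c : F), c ≠ 0 ∧ NP σ e f 1 y.1 ∧ y.1 a = c • z := by
  have hfr := finrank_perp2 S H
  obtain ⟨g₀, c, hc, hg₀⟩ := exists_su_map_point (restrict S H) hσ (by omega)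
    (a := ⟨a, ha⟩) (a' := ⟨z, hz⟩) (fun h0 => ha0 (congrArg Subtype.val h0))
    (fun h0 => hz0 (congrArg Subtype.val h0)) haa hzz
  obtain ⟨y, hy, hyx⟩ := exists_lift S hσ H g₀
  refine ⟨y, c, hc, hy, ?_⟩
  rw [hyx ⟨a, ha⟩, hg₀]
  rfl

/-- Fourth-power scalings. -/
theorem cover_scaled (hV : 4 ≤ finrank F V) {a z : V} (ha : a ∈ perp2 S e f) (ha0 : a ≠ 0)
    (haa : h a a = 0) (hz : z ∈ perp2 S e f) (hz0 : z ≠ 0) (hzz : h z z = 0) :
    ∃ c : F, c ≠ 0 ∧ ∀ t : F, t ≠ 0 → ∃ (y : suGroup h) (s : F),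
      NP σ e f s y.1 ∧ s * σ s = 1 ∧ hatY σ s y.1 a = (t ^ 4 * c) • z := by
  obtain ⟨y₀, c, hc, hy₀, hy₀a⟩ := cover_point S hσ H hV ha ha0 haa hz hz0 hzz
  refine ⟨c, hc, fun t ht => ?_⟩
  have hfr := finrank_perp2 S H
  have hzW : (⟨z, hz⟩ : perp2 S e f) ≠ 0 := fun h0 => hz0 (congrArg Subtype.val h0)
  obtain ⟨b, hbb, hbz⟩ := (restrict S H).exists_partner hσ hzW hzz
  have Hab : IsHP h (c • z) ((σ c)⁻¹ • b.1) := by
    have hsc : σ c ≠ 0 := by simpa using hc
    refine ⟨?_, ?_, ?_⟩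
    · rw [S.smul_left, S.smul_right, hzz]
      ring
    · rw [S.smul_left, S.smul_right, hbb]
      ring
    · rw [S.smul_left, S.smul_right]
      have h1 : h b.1 z = 1 := hbz
      rw [h1]
      field_simp
  obtain ⟨y₁, s, hy₁, hs, hy₁a⟩ := exists_t4 S hσ H Hab ((perp2 S e f).smul_mem _ hz)
    ((perp2 S e f).smul_mem _ b.2) ht
  refine ⟨y₁ * y₀, s * 1, hy₁.mul hy₀, by simpa using hs, ?_⟩
  show σ (s * 1) • y₁.1 (y₀.1 a) = _
  rw [mul_one, hy₀a, hy₁a, smul_smul]

/-- The orthogonal of an isotropic vector in a two dimensional complement. -/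
theorem eq_smul_of_orth (hW : finrank F (perp2 S e f) = 2) {a x : V} (ha : a ∈ perp2 S e f)
    (ha0 : a ≠ 0) (haa : h a a = 0) (hx : x ∈ perp2 S e f) (hxa : h x a = 0) :
    ∃ c : F, x = c • a := by
  have haW : (⟨a, ha⟩ : perp2 S e f) ≠ 0 := fun h0 => ha0 (congrArg Subtype.val h0)
  obtain ⟨b, hbb, hba⟩ := (restrict S H).exists_partner hσ haW haa
  have H' : IsHP (fun a b : perp2 S e f => h a b) ⟨a, ha⟩ b := ⟨haa, hbb, hba⟩
  have hfr := finrank_perp2 (restrict S H) H'
  have hbot : perp2 (restrict S H) ⟨a, ha⟩ b = ⊥ := by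
    apply Submodule.finrank_eq_zero.1
    omega
  have hab : h a b.1 = 1 := H'.ef (restrict S H)
  have hmem : (⟨x, hx⟩ - h x b.1 • (⟨a, ha⟩ : perp2 S e f)) ∈ perp2 (restrict S H) ⟨a, ha⟩ b := by
    constructor
    · show h (x - h x b.1 • a) a = 0
      rw [S.sub_left, S.smul_left, hxa, haa]
      ring
    · show h (x - h x b.1 • a) b.1 = 0
      rw [S.sub_left, S.smul_left, hab]
      ring
  rw [hbot, Submodule.mem_bot] at hmem
  refine ⟨h x b.1, ?_⟩
  have h1 := congrArg Subtype.val hmem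
  exact sub_eq_zero.1 h1

end cover

section fourth

variable [Finite F]

/-- In even characteristic fourth powers are surjective. -/
theorem exists_four_root (h2 : (2 : F) = 0) (c : F) : ∃ t : F, t ^ 4 = c := by
  have hinj : Function.Injective (fun t : F => t ^ 4) := by
    intro a b hab
    have hab' : a ^ 4 = b ^ 4 := hab
    have h3 : (a - b) ^ 4 = 0 := by
      linear_combination hab' + (-2 * a ^ 3 * b + 3 * a ^ 2 * b ^ 2 - 2 * a * b ^ 3 + b ^ 4) * h2
    exact sub_eq_zero.1 (pow_eq_zero_iff (by norm_num) |>.1 h3)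
  exact (Finite.injective_iff_surjective.1 hinj) c

/-- Every non-zero element, up to four scalars, is a fourth power. -/
theorem exists_four_rep : ∃ γ : F, γ ≠ 0 ∧ ∀ c : F, c ≠ 0 → ∃ (i : Fin 4) (t : F), t ≠ 0 ∧
    t ^ 4 * c = (γ ^ (i : ℕ))⁻¹ := by
  obtain ⟨γ, hγ⟩ := IsCyclic.exists_generator (α := Fˣ)
  refine ⟨(γ : F), Units.ne_zero _, fun c hc => ?_⟩
  obtain ⟨k, hk⟩ := Subgroup.mem_zpowers_iff.1 (hγ (Units.mk0 c hc)⁻¹)
  have hk' : (γ : F) ^ k = c⁻¹ := by
    have := congrArg (fun u : Fˣ => (u : F)) hk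
    simpa using this
  have hγ0 : (γ : F) ≠ 0 := Units.ne_zero _
  refine ⟨⟨(k % 4).toNat, ?_⟩, (γ : F) ^ (k / 4), zpow_ne_zero _ hγ0, ?_⟩
  · have h1 := Int.emod_nonneg k (show (4 : ℤ) ≠ 0 by norm_num)
    have h2 := Int.emod_lt_of_pos k (show (0 : ℤ) < 4 by norm_num)
    omega
  · have h1 := Int.emod_nonneg k (show (4 : ℤ) ≠ 0 by norm_num)
    show ((γ : F) ^ (k / 4)) ^ 4 * c = ((γ : F) ^ (k % 4).toNat)⁻¹
    have h3 : ((γ : F) ^ (k % 4).toNat) = (γ : F) ^ (k % 4) := by
      rw [← zpow_natCast, Int.toNat_of_nonneg h1]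
    have h4 : (γ : F) ^ k = ((γ : F) ^ (k / 4)) ^ 4 * (γ : F) ^ (k % 4) := by
      rw [← zpow_natCast, ← zpow_mul, ← zpow_add₀ hγ0]
      congr 1
      have := Int.emod_add_mul_ediv k 4
      push_cast
      omega
    rw [h3]
    have h5 : (γ : F) ^ (k % 4) ≠ 0 := zpow_ne_zero _ hγ0
    have h6 : ((γ : F) ^ (k / 4)) ^ 4 * (γ : F) ^ (k % 4) * c = 1 := by
      rw [← h4, hk']
      exact inv_mul_cancel₀ hc
    field_simp
    linear_combination h6


/-- Additive subgroups in odd characteristic. -/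
theorem three_mul_le (h2F : (2 : F) ≠ 0) {q b : ℕ} (hF : Nat.card F = q ^ 2) (hdvd : b ∣ q ^ 4)
    (hb : b ≤ q ^ 2) (hne : b ≠ q ^ 2) : 3 * b ≤ q ^ 2 := by
  classical
  haveI : Fintype F := Fintype.ofFinite F
  obtain ⟨p, hp⟩ := CharP.exists F
  obtain ⟨n, hpp, hcard⟩ := FiniteField.card F p
  rw [Nat.card_eq_fintype_card] at hF
  rw [hF] at hcard
  have hp2 : p ≠ 2 := by
    rintro rfl
    apply h2F
    exact_mod_cast CharP.cast_eq_zero F 2
  have hp3 : 3 ≤ p := by
    have := hpp.two_le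
    omega
  have h4 : q ^ 4 = p ^ (2 * (n : ℕ)) := by
    rw [pow_mul', ← hcard]
    ring
  rw [h4] at hdvd
  obtain ⟨j, -, rfl⟩ := (Nat.dvd_prime_pow hpp).1 hdvd
  rw [hcard] at hb hne ⊢
  have hj : j < n := by
    have h5 : j ≤ n := (Nat.pow_le_pow_iff_right hpp.one_lt).1 hb
    rcases h5.lt_or_eq with h6 | h6
    · exact h6
    · exact absurd (by rw [h6]) hne
  calc 3 * p ^ j ≤ p * p ^ j := Nat.mul_le_mul_right _ hp3
    _ = p ^ (j + 1) := by ring
    _ ≤ p ^ (n : ℕ) := Nat.pow_le_pow_right hpp.pos hj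

end fourth

section frob

variable [Fintype F] [FiniteDimensional F V] {q : ℕ} (hF : Fintype.card F = q ^ 2)
variable (S : HForm (frobHom hF) h)

include S

theorem card_pure_frob : Nat.card (pureF (frobHom hF)) = q := by
  have hσ := invol_frob' hF S
  haveI : Finite F := Finite.of_fintype F
  have h1 := card_F_eq hσ
  rw [Nat.card_eq_fintype_card (α := F), hF, sq] at h1
  exact (Nat.mul_self_inj.1 h1).symm

theorem two_le_q : 2 ≤ q := by
  have hσ := invol_frob' hF S
  haveI : Finite F := Finite.of_fintype F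
  obtain ⟨c, hc0, hc⟩ := hσ.exists_pure
  haveI : Nontrivial (pureF (frobHom hF)) :=
    ⟨⟨⟨c, hc⟩, 0, fun h0 => hc0 (congrArg (fun x : pureF (frobHom hF) => x.1) h0)⟩⟩
  have h1 : 1 < Nat.card (pureF (frobHom hF)) := Finite.one_lt_card
  rw [card_pure_frob hF S] at h1
  exact h1

theorem card_F_frob : Nat.card F = q ^ 2 := by
  rw [Nat.card_eq_fintype_card, hF]

variable {e f : V} (H : IsHP h e f)

include H

theorem card_perp_frob (m : ℕ) (hfr : finrank F (perp2 S e f) = m) :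
    Nat.card (perp2 S e f) = q ^ (2 * m) := by
  rw [Module.natCard_eq_pow_finrank (K := F), hfr, card_F_frob hF S, ← pow_mul]

theorem two_card_Aof_le (K : Subgroup (suGroup h))
    (hA : Aof S (invol_frob' hF S) e H.ee K ≠ pureF (frobHom hF)) :
    2 * Nat.card (Aof S (invol_frob' hF S) e H.ee K) ≤ q := by
  have hσ := invol_frob' hF S
  haveI : Finite F := Finite.of_fintype F
  have hq := two_le_q hF S
  have hle := Aof_le_pure S hσ e H.ee K
  obtain ⟨k, hk⟩ := AddSubgroup.card_dvd_of_le hle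
  rw [card_pure_frob hF S] at hk
  have hk0 : k ≠ 0 := by
    rintro rfl
    omega
  have hk1 : k ≠ 1 := by
    rintro rfl
    apply hA
    apply AddSubgroup.eq_of_le_of_card_ge hle
    rw [mul_one] at hk
    exact (card_pure_frob hF S).le.trans hk.le
  have h2k : 2 ≤ k := by omega
  calc 2 * Nat.card (Aof S hσ e H.ee K) = Nat.card (Aof S hσ e H.ee K) * 2 := by ring
    _ ≤ Nat.card (Aof S hσ e H.ee K) * k := Nat.mul_le_mul_left _ h2k
    _ = q := hk.symm

theorem card_Bof_le_sq (hfr : finrank F (perp2 S e f) = 2) (K : Subgroup (suGroup h))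
    (hA : Aof S (invol_frob' hF S) e H.ee K ≠ pureF (frobHom hF)) :
    Nat.card (Bof S (invol_frob' hF S) H K) ≤ q ^ 2 := by
  have hσ := invol_frob' hF S
  haveI : Finite F := Finite.of_fintype F
  have h1 := card_Bof_sq_le S hσ H K hA
  rw [card_perp_frob hF S H 2 hfr] at h1
  by_contra hc
  push Not at hc
  have h2 : q ^ 2 * q ^ 2 < Nat.card (Bof S hσ H K) * Nat.card (Bof S hσ H K) :=
    Nat.mul_lt_mul'' hc hc
  have h3 : q ^ 2 * q ^ 2 = q ^ (2 * 2) := by ring
  omega

theorem count_nonsing_W (hfr : finrank F (perp2 S e f) = 2) :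
    Nat.card {x : perp2 S e f // x ≠ 0 ∧ h x.1 x.1 ≠ 0} = q * (q - 1) * (q ^ 2 - 1) := by
  have hσ := invol_frob' hF S
  have hq := two_le_q hF S
  have h1 := card_nonsing_vectors hF (restrict S H) 1 (by rw [hfr])
  have h2 : ((q * (q - 1) * (q ^ 2 - 1) : ℕ) : ℤ) =
      (q : ℤ) ^ (2 * (1 + 1)) - 1 - ((q : ℤ) ^ (1 + 1) - (-1) ^ (1 + 1)) * ((q : ℤ) ^ 1 - (-1) ^ 1) := by
    have hq2 : 1 ≤ q ^ 2 := Nat.one_le_pow _ _ (by omega)
    have hq1 : 1 ≤ q := by omega
    push_cast [Nat.cast_sub hq2, Nat.cast_sub hq1]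
    ring
  exact_mod_cast h1.trans h2.symm

theorem count_sing_W (hfr : finrank F (perp2 S e f) = 2) :
    Nat.card {x : perp2 S e f // x ≠ 0 ∧ h x.1 x.1 = 0} = (q ^ 2 - 1) * (q + 1) := by
  have hσ := invol_frob' hF S
  have hq := two_le_q hF S
  have h1 := card_sing_vectors hF (restrict S H) 1 (by rw [hfr])
  have h2 : (((q ^ 2 - 1) * (q + 1) : ℕ) : ℤ) =
      ((q : ℤ) ^ (1 + 1) - (-1) ^ (1 + 1)) * ((q : ℤ) ^ 1 - (-1) ^ 1) := by
    have hq2 : 1 ≤ q ^ 2 := Nat.one_le_pow _ _ (by omega)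
    push_cast [Nat.cast_sub hq2]
    ring
  exact_mod_cast h1.trans h2.symm

/-- The bound when `Bof` contains a non-isotropic vector and `q ≥ 3`. -/
theorem bound_nonsing (hV : finrank F V = 4) (hq3 : 3 ≤ q) (K : Subgroup (suGroup h))
    (hA : Aof S (invol_frob' hF S) e H.ee K ≠ pureF (frobHom hF)) {u : V}
    (hu : u ∈ Bof S (invol_frob' hF S) H K) (huu : h u u ≠ 0) : q ^ 3 * (q + 1) ≤ K.index := by
  classical
  have hσ := invol_frob' hF S
  haveI : Finite F := Finite.of_fintype F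
  haveI : Finite V := Module.finite_of_finite F
  haveI : Finite (suGroup h) := finite_su
  have hfr : finrank F (perp2 S e f) = 2 := by
    have := finrank_perp2 S H
    omega
  set B := Bof S hσ H K with hB
  let R := {p : suGroup h × F // NP (frobHom hF) e f p.2 p.1.1}
  let t : R → F := fun r => r.1.2
  let y : R → suGroup h := fun r => r.1.1
  have hy : ∀ r : R, NP (frobHom hF) e f (t r) (y r).1 := fun r => r.2
  have h1 := fam_main S hσ H K t y hy
  rw [card_pure_frob hF S, card_perp_frob hF S H 2 hfr, ← hB] at h1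
  let P : V → Prop := fun z => z ≠ 0 ∧ h z z ≠ 0
  have hP : ∀ r x, P (hatY (frobHom hF) (t r) (y r).1 x) → P x := by
    rintro r x ⟨hx0, hxx⟩
    have hst : frobHom hF (t r) ≠ 0 := (map_ne_zero _).2 (hy r).ne
    constructor
    · rintro rfl
      simp at hx0
    · intro h0
      apply hxx
      rw [hatY_apply, S.smul_left, S.smul_right, (mem_suGroup.1 (y r).2).1 x x, h0]
      ring
  let T : Set V := {z | P z ∧ ∃ r, z ∈ B.map (hatY (frobHom hF) (t r) (y r).1)}
  have h2 := incidence hσ B t y (fun r => (hy r).ne) P hP (T := T) (fun z hz => hz)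
  have h3 := card_sub_nonzero_add_one_le B P (fun x hx => hx.1)
  have h4 := card_Bof_le_sq hF S H hfr K hA
  have h5 := two_card_Aof_le hF S H K hA
  have hT : q * (q - 1) * (q ^ 2 - 1) ≤ Nat.card T := by
    rw [← count_nonsing_W hF S H hfr]
    refine Nat.card_le_card_of_injective (fun x => ⟨x.1.1, ?_⟩) ?_
    · have hx0 : x.1.1 ≠ 0 := fun h0 => x.2.1 (Subtype.ext h0)
      refine ⟨⟨hx0, x.2.2⟩, ?_⟩
      obtain ⟨g, s, hg, hgu⟩ := cover_nonsing S hσ H (by omega) hu.1 huu x.1.2 x.2.2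
      exact ⟨⟨(g, s), hg⟩, u, hu, hgu⟩
    · intro x x' hxx
      have h6 : x.1.1 = x'.1.1 := congrArg (fun w : T => w.1) hxx
      exact Subtype.ext (Subtype.ext h6)
  exact arith_ns q K.index _ _ _ _ _ hq3 (by simpa [pow_mul] using h1) h2 h3 h4 h5 hT

/-- With `b = q²` and all of `B` isotropic, `B` lies on a single point (odd characteristic). -/
theorem line_of_full (hfr : finrank F (perp2 S e f) = 2) (h2F : (2 : F) ≠ 0)
    (K : Subgroup (suGroup h))
    (hA : Aof S (invol_frob' hF S) e H.ee K ≠ pureF (frobHom hF))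
    (hb : Nat.card (Bof S (invol_frob' hF S) H K) = q ^ 2)
    (hall : ∀ x ∈ Bof S (invol_frob' hF S) H K, h x x = 0) {a : V}
    (ha : a ∈ Bof S (invol_frob' hF S) H K) (ha0 : a ≠ 0) :
    ∀ x ∈ Bof S (invol_frob' hF S) H K, ∃ c : F, x = c • a := by
  classical
  have hσ := invol_frob' hF S
  haveI : Finite F := Finite.of_fintype F
  haveI : Finite V := Module.finite_of_finite F
  have hq := two_le_q hF S
  set B := Bof S hσ H K with hB
  have haa := hall a ha
  intro y' hy'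
  by_contra hc
  push Not at hc
  have hya : h y' a ≠ 0 := fun h0 => by
    obtain ⟨c, hc'⟩ := eq_smul_of_orth S hσ H hfr ha.1 ha0 haa hy'.1 h0
    exact hc c hc'
  have hay : h a y' ≠ 0 := by
    intro h0
    apply hya
    rw [S.conj a y', h0, map_zero]
  have hpure : ∀ x ∈ B, ∀ w ∈ B, h x w + frobHom hF (h x w) = 0 := by
    intro x hx w hw
    have h1 := hall _ (B.add_mem hx hw)
    rw [S.add_left, S.add_right, S.add_right, hall x hx, hall w hw, S.conj x w] at h1
    linear_combination h1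
  let φ : B →+ pureF (frobHom hF) :=
    { toFun := fun x => ⟨h x.1 a, hpure _ x.2 _ ha⟩
      map_zero' := by
        apply Subtype.ext
        exact S.zero_left a
      map_add' := by
        intro x x'
        apply Subtype.ext
        exact S.add_left _ _ _ }
  have hker : ∀ x : φ.ker, h x.1.1 a = 0 := by
    intro x
    have h1 : φ x.1 = 0 := x.2
    exact congrArg (fun w : pureF (frobHom hF) => w.1) h1
  have hkercard : Nat.card φ.ker ≤ q := by
    refine le_trans ?_ (card_pure_frob hF S).le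
    refine Nat.card_le_card_of_injective
      (fun x : φ.ker => (⟨h x.1.1 y', hpure _ x.1.2 _ hy'⟩ : pureF (frobHom hF))) ?_
    intro x x' hxx
    have h1 : h x.1.1 y' = h x'.1.1 y' := congrArg (fun w : pureF (frobHom hF) => w.1) hxx
    have h2 : h (x.1.1 - x'.1.1) a = 0 := by
      rw [S.sub_left, hker, hker, sub_zero]
    obtain ⟨c, hc'⟩ := eq_smul_of_orth S hσ H hfr ha.1 ha0 haa
      ((perp2 S e f).sub_mem x.1.2.1 x'.1.2.1) h2
    have h3 : h (x.1.1 - x'.1.1) y' = 0 := by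
      rw [S.sub_left, h1, sub_self]
    rw [hc', S.smul_left] at h3
    have hc0 : c = 0 := (mul_eq_zero.1 h3).resolve_right hay
    rw [hc0, zero_smul] at hc'
    exact Subtype.ext (Subtype.ext (sub_eq_zero.1 hc'))
  have hsurj : φ.range = ⊤ := by
    apply AddSubgroup.eq_top_of_card_eq
    apply le_antisymm (AddSubgroup.card_le_card_addGroup _)
    refine le_trans (card_pure_frob hF S).le ?_
    have h1 := φ.ker.card_mul_index
    rw [AddSubgroup.index_ker, hb] at h1
    have hq0 : 0 < q := by omega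
    refine Nat.le_of_mul_le_mul_left ?_ hq0
    calc q * q = Nat.card φ.ker * Nat.card φ.range := by rw [h1]; ring
      _ ≤ q * Nat.card φ.range := Nat.mul_le_mul_right _ hkercard
  apply hA
  apply le_antisymm (Aof_le_pure S hσ e H.ee K)
  intro c hc'
  have hc2 : c / 2 ∈ pureF (frobHom hF) := by
    show c / 2 + frobHom hF (c / 2) = 0
    have h20 : frobHom hF 2 = 2 := map_ofNat _ 2
    rw [map_div₀, h20]
    have h1 : c + frobHom hF c = 0 := hc'
    field_simp
    linear_combination h1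
  have hmem : (⟨c / 2, hc2⟩ : pureF (frobHom hF)) ∈ φ.range := by
    rw [hsurj]
    trivial
  obtain ⟨x, hx⟩ := hmem
  have hxa : h x.1 a = c / 2 := congrArg (fun w : pureF (frobHom hF) => w.1) hx
  have h1 := comm_mem_Aof S hσ H x.2 ha
  have h3 : h x.1 a - frobHom hF (h x.1 a) = c := by
    have h4 := hpure _ x.2 _ ha
    rw [hxa] at h4 ⊢
    have h5 : c / 2 + c / 2 = c := by
      field_simp
      ring
    linear_combination -h4 + h5
  rw [h3] at h1
  exact h1

/-- The bound when all of `Bof` is isotropic. -/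
theorem bound_sing (hV : finrank F V = 4) (K : Subgroup (suGroup h))
    (hA : Aof S (invol_frob' hF S) e H.ee K ≠ pureF (frobHom hF))
    (hall : ∀ x ∈ Bof S (invol_frob' hF S) H K, h x x = 0) {a : V}
    (ha : a ∈ Bof S (invol_frob' hF S) H K) (ha0 : a ≠ 0) : q ^ 3 * (q + 1) ≤ K.index := by
  classical
  have hσ := invol_frob' hF S
  haveI : Finite F := Finite.of_fintype F
  haveI : Finite V := Module.finite_of_finite F
  haveI : Finite (suGroup h) := finite_su
  have hq := two_le_q hF S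
  have hfr : finrank F (perp2 S e f) = 2 := by
    have := finrank_perp2 S H
    omega
  set B := Bof S hσ H K with hB
  have haa := hall a ha
  let R := {p : suGroup h × F // NP (frobHom hF) e f p.2 p.1.1 ∧ p.2 * frobHom hF p.2 = 1}
  let t : R → F := fun r => r.1.2
  let y : R → suGroup h := fun r => r.1.1
  have hy : ∀ r : R, NP (frobHom hF) e f (t r) (y r).1 := fun r => r.2.1
  have h1 := fam_main₀ S hσ H (by omega) K hA t y hy (fun r => r.2.2)
  rw [card_pure_frob hF S, card_perp_frob hF S H 2 hfr, ← hB] at h1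
  have h1' : Nat.card (famB (σ := frobHom hF) B t y) * (q * q ^ 4) ≤ K.index * Nat.card B := by
    simpa [pow_mul] using h1
  let P : V → Prop := fun z => z ≠ 0 ∧ h z z = 0
  have hP : ∀ r x, P (hatY (frobHom hF) (t r) (y r).1 x) → P x := by
    rintro r x ⟨hx0, hxx⟩
    have hst : frobHom hF (t r) ≠ 0 := (map_ne_zero _).2 (hy r).ne
    constructor
    · rintro rfl
      simp at hx0
    · rw [hatY_apply, S.smul_left, S.smul_right, (mem_suGroup.1 (y r).2).1 x x] at hxx
      have h2 : frobHom hF (frobHom hF (t r)) ≠ 0 := (map_ne_zero _).2 hst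
      exact (mul_eq_zero.1 ((mul_eq_zero.1 hxx).resolve_left hst)).resolve_left h2
  let T : Set V := {z | P z ∧ ∃ r, z ∈ B.map (hatY (frobHom hF) (t r) (y r).1)}
  have h2 := incidence hσ B t y (fun r => (hy r).ne) P hP (T := T) (fun z hz => hz)
  have h3 := card_sub_nonzero_add_one_le B P (fun x hx => hx.1)
  have h4 := card_Bof_le_sq hF S H hfr K hA
  have hPz : ∀ x : {x : perp2 S e f // x ≠ 0 ∧ h x.1 x.1 = 0}, P x.1.1 := fun x =>
    ⟨fun h0 => x.2.1 (Subtype.ext h0), x.2.2⟩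
  -- covering all isotropic vectors suffices
  have hcov : (∀ x : {x : perp2 S e f // x ≠ 0 ∧ h x.1 x.1 = 0}, x.1.1 ∈ T) →
      q ^ 3 * (q + 1) ≤ K.index := by
    intro hall'
    refine arith_core q K.index _ _ _ _ hq h1' h2 h3 h4 ?_
    rw [← count_sing_W hF S H hfr]
    refine Nat.card_le_card_of_injective (fun x => ⟨x.1.1, hall' x⟩) ?_
    intro x x' hxx
    have h6 : x.1.1 = x'.1.1 := congrArg (fun w : T => w.1) hxx
    exact Subtype.ext (Subtype.ext h6)
  by_cases h2F : (2 : F) = 0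
  · -- even characteristic
    apply hcov
    intro x
    have hx0 : x.1.1 ≠ 0 := fun h0 => x.2.1 (Subtype.ext h0)
    obtain ⟨c, hc, hc'⟩ := cover_scaled S hσ H (by omega) ha.1 ha0 haa x.1.2 hx0 x.2.2
    obtain ⟨t₀, ht₀⟩ := exists_four_root h2F c⁻¹
    have ht₀0 : t₀ ≠ 0 := by
      rintro rfl
      rw [zero_pow (by norm_num)] at ht₀
      exact inv_ne_zero hc ht₀.symm
    obtain ⟨g, s, hg, hs, hga⟩ := hc' t₀ ht₀0
    refine ⟨hPz x, ⟨(g, s), hg, hs⟩, a, ha, ?_⟩
    show hatY (frobHom hF) s g.1 a = _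
    rw [hga, ht₀, inv_mul_cancel₀ hc, one_smul]
  · by_cases hb : Nat.card B = q ^ 2
    · -- `B` is a line
      have hline := line_of_full hF S H hfr h2F K hA hb hall ha ha0
      apply hcov
      intro x
      have hx0 : x.1.1 ≠ 0 := fun h0 => x.2.1 (Subtype.ext h0)
      obtain ⟨g, c, hc, hg, hga⟩ := cover_point S hσ H (by omega) ha.1 ha0 haa x.1.2 hx0 x.2.2
      -- `c⁻¹ • a` lies in `B`, by counting
      have hsurjB : ∀ l : F, l • a ∈ B := by
        choose lam hlam using fun x : B => hline x.1 x.2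
        have hinj : Function.Injective lam := by
          intro u v huv
          apply Subtype.ext
          rw [hlam u, hlam v, huv]
        have hcardB : Nat.card B = Nat.card F := by
          rw [hb, card_F_frob hF S]
        have hbij := (Nat.bijective_iff_injective_and_card lam).2 ⟨hinj, hcardB⟩
        intro l
        obtain ⟨u, hu⟩ := hbij.2 l
        have h5 := hlam u
        rw [hu] at h5
        rw [← h5]
        exact u.2
      refine ⟨hPz x, ⟨(g, 1), hg, by simp⟩, c⁻¹ • a, hsurjB _, ?_⟩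
      show hatY (frobHom hF) 1 g.1 (c⁻¹ • a) = _
      rw [hatY_apply, map_one, one_smul, map_smul, hga, smul_smul, inv_mul_cancel₀ hc, one_smul]
    · -- the small case
      have h3b : 3 * Nat.card B ≤ q ^ 2 := by
        refine three_mul_le h2F (card_F_frob hF S) ?_ h4 hb
        rw [show q ^ 4 = q ^ (2 * 2) by norm_num, ← card_perp_frob hF S H 2 hfr]
        exact AddSubgroup.card_dvd_of_le (K := (perp2 S e f).toAddSubgroup) (fun x hx => hx.1)
      refine arith_odd q K.index _ _ _ _ hq h1' h2 h3 h3b ?_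
      rw [← count_sing_W hF S H hfr]
      obtain ⟨γ, hγ, hrep⟩ := exists_four_rep (F := F)
      have hx : ∀ x : {x : perp2 S e f // x ≠ 0 ∧ h x.1 x.1 = 0}, ∃ (i : Fin 4),
          (γ ^ (i : ℕ))⁻¹ • x.1.1 ∈ T := by
        intro x
        have hx0 : x.1.1 ≠ 0 := fun h0 => x.2.1 (Subtype.ext h0)
        obtain ⟨c, hc, hc'⟩ := cover_scaled S hσ H (by omega) ha.1 ha0 haa x.1.2 hx0 x.2.2
        obtain ⟨i, t₀, ht₀0, ht₀⟩ := hrep c hc
        obtain ⟨g, s, hg, hs, hga⟩ := hc' t₀ ht₀0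
        refine ⟨i, ⟨?_, ⟨(g, s), hg, hs⟩, a, ha, ?_⟩⟩
        · refine ⟨smul_ne_zero (inv_ne_zero (pow_ne_zero _ hγ)) hx0, ?_⟩
          rw [S.smul_left, S.smul_right, x.2.2]
          ring
        · show hatY (frobHom hF) s g.1 a = _
          rw [hga, ht₀]
      choose idx hidx using hx
      have hinj := Nat.card_le_card_of_injective
        (fun x : {x : perp2 S e f // x ≠ 0 ∧ h x.1 x.1 = 0} =>
          ((idx x, ⟨_, hidx x⟩) : Fin 4 × T)) (by
          intro x x' hxx
          have h6 : idx x = idx x' := congrArg Prod.fst hxx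
          have h7 : (γ ^ ((idx x : Fin 4) : ℕ))⁻¹ • x.1.1 = (γ ^ ((idx x' : Fin 4) : ℕ))⁻¹ • x'.1.1 :=
            congrArg (fun p : Fin 4 × T => p.2.1) hxx
          rw [← h6] at h7
          have h8 : x.1.1 = x'.1.1 := smul_right_injective V (inv_ne_zero (pow_ne_zero _ hγ)) h7
          exact Subtype.ext (Subtype.ext h8))
      rw [Nat.card_prod] at hinj
      simpa using hinj

/-- The bound when `Bof` contains a non-isotropic vector and `q = 2`. -/
theorem bound_q2 (hV : finrank F V = 4) (hq2 : q = 2) (K : Subgroup (suGroup h))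
    (hA : Aof S (invol_frob' hF S) e H.ee K ≠ pureF (frobHom hF)) {u : V}
    (hu : u ∈ Bof S (invol_frob' hF S) H K) (huu : h u u ≠ 0) : q ^ 3 * (q + 1) ≤ K.index := by
  classical
  subst hq2
  have hσ := invol_frob' hF S
  haveI : Finite F := Finite.of_fintype F
  haveI : Finite V := Module.finite_of_finite F
  haveI : Finite (suGroup h) := finite_su
  have hfr : finrank F (perp2 S e f) = 2 := by
    have := finrank_perp2 S H
    omega
  set B := Bof S hσ H K with hB
  have hcardF : Nat.card F = 4 := by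
    rw [card_F_frob hF S]
    norm_num
  have h2F : (2 : F) = 0 := two_eq_zero_of_card hcardF
  let R := {p : suGroup h × F // NP (frobHom hF) e f p.2 p.1.1}
  let t : R → F := fun r => r.1.2
  let y : R → suGroup h := fun r => r.1.1
  have hy : ∀ r : R, NP (frobHom hF) e f (t r) (y r).1 := fun r => r.2
  have h1 := fam_main S hσ H K t y hy
  rw [card_pure_frob hF S, card_perp_frob hF S H 2 hfr, ← hB] at h1
  have hA1 : Nat.card (Aof S hσ e H.ee K) = 1 := by
    have h5 := two_card_Aof_le hF S H K hA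
    have h6 : 0 < Nat.card (Aof S hσ e H.ee K) := Nat.card_pos
    omega
  rw [hA1, one_mul] at h1
  have h1' : Nat.card (famB (σ := frobHom hF) B t y) * 32 ≤ K.index * Nat.card B := by
    simpa using h1
  have h4 := card_Bof_le_sq hF S H hfr K hA
  have hbase : ∀ (P : V → Prop), (∀ z, P z → z ≠ 0) →
      (∀ r x, P (hatY (frobHom hF) (t r) (y r).1 x) → P x) →
      ∀ (T : Set V), (∀ z ∈ T, P z ∧ ∃ r, z ∈ B.map (hatY (frobHom hF) (t r) (y r).1)) →
      Nat.card T ≤ Nat.card (famB (σ := frobHom hF) B t y) * (Nat.card B - 1) := by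
    intro P hP0 hP T hT
    have h2 := incidence hσ B t y (fun r => (hy r).ne) P hP hT
    have h3 := card_sub_nonzero_add_one_le B P hP0
    refine h2.trans (Nat.mul_le_mul_left _ (by omega))
  have hnonzero : ∀ r x, hatY (frobHom hF) (t r) (y r).1 x ≠ 0 → x ≠ 0 := by
    rintro r x hx rfl
    simp at hx
  -- the non-isotropic vectors
  have hns : ∀ x : {x : perp2 S e f // x ≠ 0 ∧ h x.1 x.1 ≠ 0},
      ∃ r, x.1.1 ∈ B.map (hatY (frobHom hF) (t r) (y r).1) := by
    intro x
    obtain ⟨g, s, hg, hgu⟩ := cover_nonsing S hσ H (by omega) hu.1 huu x.1.2 x.2.2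
    exact ⟨⟨(g, s), hg⟩, u, hu, hgu⟩
  have hne : ∀ x : perp2 S e f, x ≠ 0 → x.1 ≠ 0 := fun x hx h0 => hx (Subtype.ext h0)
  by_cases hb3 : Nat.card B ≤ 3
  · have h2 := hbase (fun z => z ≠ 0) (fun z hz => hz) hnonzero
      {z | z ≠ 0 ∧ ∃ r, z ∈ B.map (hatY (frobHom hF) (t r) (y r).1)} (fun z hz => hz)
    have h5 : 2 * (2 - 1) * (2 ^ 2 - 1) ≤
        Nat.card {z : V | z ≠ 0 ∧ ∃ r, z ∈ B.map (hatY (frobHom hF) (t r) (y r).1)} := by
      rw [← count_nonsing_W hF S H hfr]
      refine Nat.card_le_card_of_injective (fun x => ⟨x.1.1, hne _ x.2.1, hns x⟩) ?_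
      intro x x' hxx
      have h6 : x.1.1 = x'.1.1 := congrArg (fun w : {z : V | z ≠ 0 ∧ ∃ r, z ∈ B.map (hatY (frobHom hF) (t r) (y r).1)} => w.1) hxx
      exact Subtype.ext (Subtype.ext h6)
    norm_num at h5
    set I := Nat.card (famB (σ := frobHom hF) B t y)
    set b := Nat.card B
    have h6 : 6 ≤ I * (b - 1) := h5.trans h2
    have h7 : b * (b - 1) ≤ 6 := by
      interval_cases b <;> norm_num
    have h8 : 6 * 32 ≤ K.index * 6 := by
      calc 6 * 32 ≤ (I * (b - 1)) * 32 := Nat.mul_le_mul_right _ h6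
        _ = (I * 32) * (b - 1) := by ring
        _ ≤ (K.index * b) * (b - 1) := Nat.mul_le_mul_right _ h1'
        _ = K.index * (b * (b - 1)) := by ring
        _ ≤ K.index * 6 := Nat.mul_le_mul_left _ h7
    norm_num
    omega
  · have hb4 : Nat.card B = 4 := by
      have h4' : Nat.card B ≤ 4 := by simpa using h4
      omega
    -- there is a non-zero isotropic vector
    have hex : ∃ v ∈ B, v ≠ 0 ∧ v ≠ u := by
      by_contra hc
      push Not at hc
      have hinj : Function.Injective (fun v : B => decide (v.1 = u)) := by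
        intro v v' hvv
        have h5 : (v.1 = u) ↔ (v'.1 = u) := by simpa using hvv
        apply Subtype.ext
        by_cases h6 : v.1 = u
        · rw [h6, h5.1 h6]
        · have h7 : v'.1 ≠ u := fun h8 => h6 (h5.2 h8)
          have h8 : v.1 = 0 := by
            by_contra h9
            exact h6 (hc v.1 v.2 h9)
          have h9 : v'.1 = 0 := by
            by_contra h10
            exact h7 (hc v'.1 v'.2 h10)
          rw [h8, h9]
      have h5 := Nat.card_le_card_of_injective _ hinj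
      rw [hb4] at h5
      simp at h5
    obtain ⟨v, hv, hv0, hvu⟩ := hex
    have hA0 : ∀ x ∈ Aof S hσ e H.ee K, x = 0 := by
      intro x hx
      have h5 := Nat.card_eq_one_iff_unique.1 hA1
      have h6 := h5.1.elim ⟨x, hx⟩ ⟨0, (Aof S hσ e H.ee K).zero_mem⟩
      exact congrArg Subtype.val h6
    have hreal : ∀ x : F, frobHom hF x = x → x ≠ 0 → x = 1 := by
      intro x hx hx0
      have h5 : x ^ 2 = x := by
        have h6 := hx
        rw [frobHom_apply] at h6
        exact h6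
      have h6 : x * (x - 1) = 0 := by linear_combination h5
      exact sub_eq_zero.1 ((mul_eq_zero.1 h6).resolve_left hx0)
    have hsing : ∃ a ∈ B, a ≠ 0 ∧ h a a = 0 := by
      by_cases hvv : h v v = 0
      · exact ⟨v, hv, hv0, hvv⟩
      · refine ⟨u + v, B.add_mem hu hv, ?_, ?_⟩
        · intro h0
          apply hvu
          have h5 : v = -u := by
            rw [eq_neg_iff_add_eq_zero, add_comm]
            exact h0
          rw [h5]
          have h6 : (2 : F) • u = 0 := by rw [h2F, zero_smul]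
          rw [two_smul] at h6
          exact neg_eq_of_add_eq_zero_left h6
        · have h5 := hA0 _ (comm_mem_Aof S hσ H hu hv)
          have h6 : h v u = h u v := by
            rw [S.conj u v]
            linear_combination -h5
          rw [S.add_left, S.add_right, S.add_right, h6, hreal _ (S.self_fix u) huu,
            hreal _ (S.self_fix v) hvv]
          linear_combination (1 + h u v) * h2F
    obtain ⟨a, ha, ha0, haa⟩ := hsing
    have hs : ∀ x : {x : perp2 S e f // x ≠ 0 ∧ h x.1 x.1 = 0},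
        ∃ r, x.1.1 ∈ B.map (hatY (frobHom hF) (t r) (y r).1) := by
      intro x
      have hx0 : x.1.1 ≠ 0 := fun h0 => x.2.1 (Subtype.ext h0)
      obtain ⟨c, hc, hc'⟩ := cover_scaled S hσ H (by omega) ha.1 ha0 haa x.1.2 hx0 x.2.2
      obtain ⟨t₀, ht₀⟩ := exists_four_root h2F c⁻¹
      have ht₀0 : t₀ ≠ 0 := by
        rintro rfl
        rw [zero_pow (by norm_num)] at ht₀
        exact inv_ne_zero hc ht₀.symm
      obtain ⟨g, s, hg, hs, hga⟩ := hc' t₀ ht₀0
      refine ⟨⟨(g, s), hg⟩, a, ha, ?_⟩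
      show hatY (frobHom hF) s g.1 a = _
      rw [hga, ht₀, inv_mul_cancel₀ hc, one_smul]
    have h2 := hbase (fun z => z ≠ 0) (fun z hz => hz) hnonzero
      {z | z ≠ 0 ∧ ∃ r, z ∈ B.map (hatY (frobHom hF) (t r) (y r).1)} (fun z hz => hz)
    have h5 : 2 * (2 - 1) * (2 ^ 2 - 1) + (2 ^ 2 - 1) * (2 + 1) ≤
        Nat.card {z : V | z ≠ 0 ∧ ∃ r, z ∈ B.map (hatY (frobHom hF) (t r) (y r).1)} := by
      rw [← count_nonsing_W hF S H hfr, ← count_sing_W hF S H hfr, ← Nat.card_sum]
      refine Nat.card_le_card_of_injective (fun x => match x with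
        | Sum.inl x => ⟨x.1.1, hne _ x.2.1, hns x⟩
        | Sum.inr x => ⟨x.1.1, hne _ x.2.1, hs x⟩) ?_
      rintro (x | x) (x' | x') hxx
      · have h6 : x.1.1 = x'.1.1 := congrArg (fun w : {z : V | z ≠ 0 ∧ ∃ r, z ∈ B.map (hatY (frobHom hF) (t r) (y r).1)} => w.1) hxx
        rw [Subtype.ext (Subtype.ext h6)]
      · have h6 : x.1.1 = x'.1.1 := congrArg (fun w : {z : V | z ≠ 0 ∧ ∃ r, z ∈ B.map (hatY (frobHom hF) (t r) (y r).1)} => w.1) hxx
        exact absurd (h6 ▸ x'.2.2) x.2.2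
      · have h6 : x.1.1 = x'.1.1 := congrArg (fun w : {z : V | z ≠ 0 ∧ ∃ r, z ∈ B.map (hatY (frobHom hF) (t r) (y r).1)} => w.1) hxx
        exact absurd (h6 ▸ x.2.2) x'.2.2
      · have h6 : x.1.1 = x'.1.1 := congrArg (fun w : {z : V | z ≠ 0 ∧ ∃ r, z ∈ B.map (hatY (frobHom hF) (t r) (y r).1)} => w.1) hxx
        rw [Subtype.ext (Subtype.ext h6)]
    norm_num at h5
    rw [hb4] at h1' h2
    norm_num at h2 h1' ⊢
    omega

end frob

section final

variable [Fintype F] [FiniteDimensional F V] {q : ℕ} (hF : Fintype.card F = q ^ 2)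
variable (S : HForm (frobHom hF) h)

include S

/-- The weak bound in dimension four. -/
theorem weak_four (hV : finrank F V = 4) (K : Subgroup (suGroup h)) (hK : K ≠ ⊤) :
    q ^ 3 * (q + 1) ≤ K.index := by
  classical
  have hσ := invol_frob' hF S
  haveI : Finite F := Finite.of_fintype F
  haveI : Finite V := Module.finite_of_finite F
  haveI : Finite (suGroup h) := finite_su
  have hq := two_le_q hF S
  -- a root group outside `K`
  have hex : ∃ (e : V) (he0 : e ≠ 0) (hee : h e e = 0), ¬ rootX S hσ e hee ≤ K := by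
    by_contra hc
    push Not at hc
    apply hK
    rw [eq_top_iff]
    have hcl := Cfsg.Agent.Lib.Classical.HermTransv.closure_transv_eq_top S hσ (Or.inl (by omega)) (by omega)
    rw [← hcl, Subgroup.closure_le]
    rintro g ⟨e, c, he0, E⟩
    exact hc e he0 E.ee ⟨c, E⟩
  obtain ⟨e, he0, hee, hne⟩ := hex
  obtain ⟨f, hff, hfe⟩ := S.exists_partner hσ he0 hee
  have H : IsHP h e f := ⟨hee, hff, hfe⟩
  have hA : Aof S hσ e H.ee K ≠ pureF (frobHom hF) := by
    intro hA
    exact hne ((rootX_le_iff S hσ hee K).2 hA)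
  have hfr : finrank F (perp2 S e f) = 2 := by
    have := finrank_perp2 S H
    omega
  by_cases hB : Bof S hσ H K = ⊥
  · have hfam := family_bound₁ S hσ H (by omega) K hA (J := Unit) (fun _ => 1) (fun _ => 1)
      (fun _ => ⟨one_ne_zero, by simp, by simp⟩) (fun _ => by simp)
      (fun a b _ => Subsingleton.elim a b)
    rw [card_pure_frob hF S, card_perp_frob hF S H 2 hfr, hB] at hfam
    simp only [Nat.card_unique, one_mul, mul_one] at hfam
    have h1 : q ^ 3 * (q + 1) ≤ q * q ^ (2 * 2) := by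
      have : q + 1 ≤ q * q := by nlinarith
      calc q ^ 3 * (q + 1) ≤ q ^ 3 * (q * q) := Nat.mul_le_mul_left _ this
        _ = q * q ^ (2 * 2) := by ring
    exact h1.trans hfam
  · obtain ⟨⟨a, ha⟩, ha0⟩ := (AddSubgroup.ne_bot_iff_exists_ne_zero.1 hB)
    by_cases hall : ∀ x ∈ Bof S hσ H K, h x x = 0
    · exact bound_sing hF S H hV K hA hall ha (fun h0 => ha0 (Subtype.ext h0))
    · push Not at hall
      obtain ⟨u, hu, huu⟩ := hall
      rcases (show q = 2 ∨ 3 ≤ q by omega) with hq2 | hq3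
      · exact bound_q2 hF S H hV hq2 K hA hu huu
      · exact bound_nonsing hF S H hV hq3 K hA hu huu

end final

end Cfsg.Agent.Lib.MinSU
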