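/-
The inductive step for the minimal index, and the transfer to `PSU`.
-/
import Mathlib
import Cfsg.Agent.Lib.MinSU.Weak4
import Cfsg.Agent.Lib.Classical.HermBridge

set_option autoImplicit false
set_option linter.unusedSimpArgs false
set_option linter.unusedSectionVars false
set_option linter.style.haveILetI false
set_option linter.unusedVariables false

namespace Cfsg.Agent.Lib.MinSU

open Module Cfsg.Agent.Lib.Classical.HermBasic Cfsg.Agent.Lib.Classical.HermElem
open Cfsg.Agent.Lib.Classical.HermGen Cfsg.Agent.Lib.Classical.HermSimple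
open Cfsg.Agent.Lib.HermCount.Field

universe u v

variable {F : Type u} [Field F] {V : Type v} [AddCommGroup V] [Module F V]
variable {σ : F →+* F} {h : V → V → F}

section conj

variable [Finite F] [FiniteDimensional F V] (S : HForm σ h) (hσ : Invol σ)

include S hσ

/-- A root group in a conjugate gives a root group in the subgroup. -/
theorem rootX_of_cj {K : Subgroup (suGroup h)} {g : suGroup h} {e : V} (he0 : e ≠ 0) (hee : h e e = 0)
    (hle : rootX S hσ e hee ≤ cj g K) : (g⁻¹).1 e ∈ rootSet S hσ K := by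
  have hu' := (mem_suGroup.1 (g⁻¹).2).1
  have hgg : h ((g⁻¹).1 e) ((g⁻¹).1 e) = 0 := by rw [hu', hee]
  refine ⟨by simpa using he0, hgg, ?_⟩
  rintro x ⟨a, E⟩
  have hu := (mem_suGroup.1 g.2).1
  have h1 := E.conj hu
  have h2 : g.1 ((g⁻¹).1 e) = e := g.1.apply_symm_apply e
  rw [h2, map_zero] at h1
  have h3 : g * x * g⁻¹ ∈ cj g K := hle ⟨a, h1⟩
  rw [mem_cj] at h3
  have h4 : g⁻¹ * (g * x * g⁻¹) * g = x := by group
  rwa [h4] at h3

end conj

section step

variable [Fintype F] [FiniteDimensional F V] {q : ℕ} (hF : Fintype.card F = q ^ 2)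
variable (S : HForm (frobHom hF) h)

include S

/-- The inductive step. -/
theorem step_bound (k m : ℕ) (hk : finrank F V = k + 1) (hk5 : 5 ≤ k + 1) (hm : finrank F V = m + 2)
    (μ Tg : ℕ)
    (hμ : ∀ (e f : V) (H : IsHP h e f) (K₀ : Subgroup (suGroup (fun a b : perp2 S e f => h a b))),
      K₀ ≠ ⊤ → μ ≤ K₀.index)
    (h1 : Tg ≤ μ * q ^ (m + 1)) (h2 : Tg ≤ (q + 1) * q ^ (2 * m))
    (h4 : ((q ^ 2 - 1 : ℕ) : ℤ) * (Tg : ℤ) ≤
      ((q : ℤ) ^ (k + 1) - (-1) ^ (k + 1)) * ((q : ℤ) ^ k - (-1) ^ k))
    (h5 : ((q ^ 2 - 1 : ℕ) : ℤ) * (Tg : ℤ) ≤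
      (q : ℤ) ^ (2 * (k + 1)) - 1 - ((q : ℤ) ^ (k + 1) - (-1) ^ (k + 1)) * ((q : ℤ) ^ k - (-1) ^ k))
    (hns : ∀ K : Subgroup (suGroup h),
      (∀ (e : V) (hee : h e e = 0), e ≠ 0 → ∀ g, cj g K ⊓ radQ S (invol_frob' hF S) e hee = ⊥) →
      K.index < Tg → False)
    (K : Subgroup (suGroup h)) (hK : K ≠ ⊤) : Tg ≤ K.index := by
  classical
  have hσ := invol_frob' hF S
  haveI : Finite F := Finite.of_fintype F
  haveI : Finite V := Module.finite_of_finite F
  haveI : Finite (suGroup h) := finite_su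
  have hq := two_le_q hF S
  have hqc := card_pure_frob hF S
  by_contra hc
  push Not at hc
  have hD : ∀ L : Subgroup (suGroup h), L.index < Tg → DichAt S hσ L := by
    intro L hL e he hee
    exact dichotomy S hσ (by omega) q μ m hqc hm hμ L (lt_of_lt_of_le hL h1)
      (lt_of_lt_of_le hL h2) he hee
  have hDK : ∀ K', K ≤ K' → DichAt S hσ K' := by
    intro K' hle
    apply hD
    refine lt_of_le_of_lt ?_ hc
    exact Nat.le_of_dvd (Nat.pos_of_ne_zero Subgroup.index_ne_zero_of_finite)
      (Subgroup.index_dvd_of_le hle)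
  have hq1 : (0 : ℤ) < ((q ^ 2 - 1 : ℕ) : ℤ) := by
    have : 4 ≤ q ^ 2 := by nlinarith
    have h3 : 0 < q ^ 2 - 1 := by omega
    exact_mod_cast h3
  have hlt : ((q ^ 2 - 1 : ℕ) : ℤ) * (K.index : ℤ) < ((q ^ 2 - 1 : ℕ) : ℤ) * (Tg : ℤ) :=
    mul_lt_mul_of_pos_left (by exact_mod_cast hc) hq1
  by_cases hne : (rootSet S hσ K).Nonempty
  · rcases subspace_step S hσ (by omega) hK hDK hne with ⟨y, hy, hyy, hKy⟩ | ⟨u, huu, hKu⟩
    · have := index_sing_bound hF S k hk (by omega) hy hyy hKy
      linarith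
    · have := index_nonsing_bound hF S k hk (by omega) huu hKu
      linarith
  · apply hns K _ hc
    intro e hee he0 g
    have hidx : (cj g K).index < Tg := by rw [index_cj]; exact hc
    rcases hD _ hidx e he0 hee with hle | hbot
    · exact absurd ⟨_, rootX_of_cj S hσ he0 hee hle⟩ hne
    · exact hbot

end step

section index

variable [Fintype F] [FiniteDimensional F V] {q : ℕ} (hF : Fintype.card F = q ^ 2)
variable (S : HForm (frobHom hF) h)

include S

theorem card_range_eq_index {y : V} (hy : y ≠ 0) :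
    Nat.card (Set.range fun g : suGroup h => Submodule.span F {g.1 y}) =
      (stabSub h (Submodule.span F {y})).index := by
  haveI : Finite F := Finite.of_fintype F
  haveI : Finite (suGroup h) := finite_su
  have h1 := Cfsg.Agent.Lib.MinSU.card_range_of_cosets (stabSub h (Submodule.span F {y}))
    (fun g : suGroup h => Submodule.span F {g.1 y}) (span_conj_eq_iff y hy)
  have h2 := Subgroup.index_mul_card (stabSub h (Submodule.span F {y}))
  apply Nat.eq_of_mul_eq_mul_right (Nat.card_pos (α := stabSub h (Submodule.span F {y})))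
  rw [h1, h2]

/-- The exact index of the stabilizer of an isotropic point. -/
theorem index_stab_sing (k : ℕ) (hn : finrank F V = k + 1) (hV : 3 ≤ finrank F V)
    {y : V} (hy : y ≠ 0) (hyy : h y y = 0) :
    ((q ^ 2 - 1 : ℕ) : ℤ) * ((stabSub h (Submodule.span F {y})).index : ℤ) =
      ((q : ℤ) ^ (k + 1) - (-1) ^ (k + 1)) * ((q : ℤ) ^ k - (-1) ^ k) := by
  classical
  have hσ := invol_frob' hF S
  haveI : Finite F := Finite.of_fintype F
  haveI : Finite (suGroup h) := finite_su
  have h1 := card_sing_vectors hF S k hn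
  have h2 := card_vectors_eq (F := F) (V := V) (fun x => h x x = 0) (fun c x hc hx => by
    simp only [S.smul_left, S.smul_right, hx, mul_zero])
  rw [card_units_F hF S] at h2
  have h3 := card_range_eq_index hF S hy
  have h4 : (Set.range fun x : {x : V // x ≠ 0 ∧ h x x = 0} => Submodule.span F {x.1}) =
      (Set.range fun g : suGroup h => Submodule.span F {g.1 y}) := by
    ext U
    constructor
    · rintro ⟨x, rfl⟩
      obtain ⟨g, hg⟩ := exists_su_map S hσ hV hy x.2.1 hyy x.2.2
      exact ⟨g, by simp only [hg]⟩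
    · rintro ⟨g, rfl⟩
      refine ⟨⟨g.1 y, by simpa using hy, ?_⟩, rfl⟩
      rw [(mem_suGroup.1 g.2).1, hyy]
  rw [← h1, h2, h4, h3]
  push_cast
  ring

/-- The exact index of the stabilizer of a non-isotropic point. -/
theorem index_stab_nonsing (k : ℕ) (hn : finrank F V = k + 1) (hV : 3 ≤ finrank F V)
    {u : V} (hu : h u u ≠ 0) :
    ((q ^ 2 - 1 : ℕ) : ℤ) * ((stabSub h (Submodule.span F {u})).index : ℤ) =
      (q : ℤ) ^ (2 * (k + 1)) - 1 - ((q : ℤ) ^ (k + 1) - (-1) ^ (k + 1)) * ((q : ℤ) ^ k - (-1) ^ k) := by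
  classical
  have hσ := invol_frob' hF S
  haveI : Finite F := Finite.of_fintype F
  haveI : Finite (suGroup h) := finite_su
  have hu0 : u ≠ 0 := by
    rintro rfl
    exact hu (S.zero_left _)
  have h1 := card_nonsing_vectors hF S k hn
  have h2 := card_vectors_eq (F := F) (V := V) (fun x => h x x ≠ 0) (fun c x hc hx => by
    simp only [S.smul_left, S.smul_right]
    have hsc : frobHom hF c ≠ 0 := (map_ne_zero _).2 hc
    exact mul_ne_zero hc (mul_ne_zero hsc hx))
  rw [card_units_F hF S] at h2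
  have h3 := card_range_eq_index hF S hu0
  have h4 : (Set.range fun x : {x : V // x ≠ 0 ∧ h x x ≠ 0} => Submodule.span F {x.1}) =
      (Set.range fun g : suGroup h => Submodule.span F {g.1 u}) := by
    ext U
    constructor
    · rintro ⟨x, rfl⟩
      obtain ⟨a, ha⟩ := S.exists_smul_norm hσ x.2.2 (h u u) (S.self_fix u)
      have ha0 : a ≠ 0 := by
        rintro rfl
        rw [zero_smul, S.zero_left] at ha
        exact hu ha.symm
      obtain ⟨g, hg⟩ := exists_su_map_norm S hσ (by omega) hu ha.symm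
      refine ⟨g, ?_⟩
      show Submodule.span F {g.1 u} = Submodule.span F {x.1}
      rw [hg]
      exact Submodule.span_singleton_smul_eq (IsUnit.mk0 a ha0) _
    · rintro ⟨g, rfl⟩
      refine ⟨⟨g.1 u, by simpa using hu0, ?_⟩, rfl⟩
      rw [(mem_suGroup.1 g.2).1]
      exact hu
  rw [← h1, h2, h4, h3]
  push_cast
  ring

/-- The centre lies in the stabilizer of any line. -/
theorem center_le_stab (hV : 2 ≤ finrank F V) {y : V} :
    Subgroup.center (suGroup h) ≤ stabSub h (Submodule.span F {y}) := by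
  have hσ := invol_frob' hF S
  haveI : Finite F := Finite.of_fintype F
  intro z hz
  obtain ⟨a, ha⟩ := scalar_of_mem_center S hσ hV hz
  apply mem_stabSub_of_forall
  intro x hx
  rw [ha]
  exact Submodule.smul_mem _ _ hx

end index

section transfer

variable [Fintype F] {q : ℕ} (n : ℕ)

/-- Transfer of lower bounds to the projective group. -/
theorem psu_lower (Tg : ℕ)
    (hbd : ∀ K : Subgroup (suGroup (Cfsg.hermForm n F q)), K ≠ ⊤ → Tg ≤ K.index)
    (H : Subgroup (Cfsg.PSU n F q)) (hH : H ≠ ⊤) : Tg ≤ H.index := by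
  let π := QuotientGroup.mk' (Subgroup.center (Cfsg.SU n F q))
  let φ := Cfsg.Agent.Lib.Classical.HermBridge.suEquiv (F := F) n q
  have hπ : Function.Surjective π := QuotientGroup.mk'_surjective _
  have hidx : (H.comap π).index = H.index := H.index_comap_of_surjective hπ
  have hidx2 : ((H.comap π).map φ.toMonoidHom).index = (H.comap π).index :=
    Subgroup.index_map_equiv _ φ
  rw [← hidx, ← hidx2]
  apply hbd
  intro htop
  apply hH
  rw [eq_top_iff]
  intro x _
  obtain ⟨g, rfl⟩ := hπ x
  have h1 : φ g ∈ (H.comap π).map φ.toMonoidHom := by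
    rw [htop]
    trivial
  obtain ⟨g', hg', hgg⟩ := h1
  have h2 : g' = g := φ.injective hgg
  rw [h2] at hg'
  exact hg'

/-- Transfer of subgroups containing the centre. -/
theorem psu_exists (K : Subgroup (suGroup (Cfsg.hermForm n F q)))
    (hZ : Subgroup.center (suGroup (Cfsg.hermForm n F q)) ≤ K) :
    ∃ H : Subgroup (Cfsg.PSU n F q), H.index = K.index := by
  let π := QuotientGroup.mk' (Subgroup.center (Cfsg.SU n F q))
  let φ := Cfsg.Agent.Lib.Classical.HermBridge.suEquiv (F := F) n q
  have hπ : Function.Surjective π := QuotientGroup.mk'_surjective _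
  let K' := K.comap φ.toMonoidHom
  have hK' : K'.index = K.index := Subgroup.index_comap_of_surjective K φ.surjective
  have hcen : Subgroup.center (Cfsg.SU n F q) ≤ K' := by
    intro z hz
    apply hZ
    rw [Subgroup.mem_center_iff] at hz ⊢
    intro g
    obtain ⟨g', rfl⟩ := φ.surjective g
    show φ g' * φ z = φ z * φ g'
    rw [← map_mul, ← map_mul, hz g']
  refine ⟨K'.map π, ?_⟩
  have hkerle : π.ker ≤ K' := by
    rw [QuotientGroup.ker_mk']
    exact hcen
  have h1 : (K'.map π).comap π = K' := Subgroup.comap_map_eq_self hkerle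
  rw [← hK', ← Subgroup.index_comap_of_surjective (K'.map π) hπ, h1]

end transfer

end Cfsg.Agent.Lib.MinSU
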