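/-
Chevalley–Warning: large additive subgroups contain isotropic vectors.
-/
import Mathlib
import Cfsg.Agent.Lib.MinSU.Step

set_option autoImplicit false
set_option linter.unusedSimpArgs false
set_option linter.unusedSectionVars false
set_option linter.style.haveILetI false
set_option linter.unusedVariables false

namespace Cfsg.Agent.Lib.MinSU

open Module Cfsg.Agent.Lib.Classical.HermBasic Cfsg.Agent.Lib.Classical.HermElem
open Cfsg.Agent.Lib.Classical.HermGen Cfsg.Agent.Lib.Classical.HermSimple
open Cfsg.Agent.Lib.HermCount.Field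

universe u v

variable {F : Type u} [Field F] {V : Type v} [AddCommGroup V] [Module F V]
variable {σ : F →+* F} {h : V → V → F}

section frob

variable [Fintype F] [FiniteDimensional F V] {q : ℕ} (hF : Fintype.card F = q ^ 2)
variable (S : HForm (frobHom hF) h)

include S

theorem exists_sing_of_large (B : AddSubgroup V) (hb : q ^ 2 < Nat.card B) :
    ∃ x ∈ B, x ≠ 0 ∧ h x x = 0 := by
  classical
  have hσ := invol_frob' hF S
  haveI : Finite F := Finite.of_fintype F
  haveI : Finite V := Module.finite_of_finite F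
  obtain ⟨p, hp⟩ := CharP.exists F
  obtain ⟨n, hpp, hcard⟩ := FiniteField.card F p
  haveI : Fact p.Prime := ⟨hpp⟩
  obtain ⟨instA⟩ : Nonempty (Algebra (ZMod p) F) := ⟨ZMod.algebra F p⟩
  let ι : ZMod p →+* F := algebraMap (ZMod p) F
  have hpV : ∀ x : V, p • x = 0 := fun x => by
    rw [← Nat.cast_smul_eq_nsmul F, CharP.cast_eq_zero F p, zero_smul]
  obtain ⟨instV⟩ : Nonempty (Module (ZMod p) V) := ⟨AddCommGroup.zmodModule hpV⟩
  have hιV : ∀ (a : ZMod p) (x : V), a • x = ι a • x := by
    intro a x
    rcases ZMod.intCast_surjective a with ⟨k, rfl⟩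
    rw [Int.cast_smul_eq_zsmul (ZMod p) k x, map_intCast, Int.cast_smul_eq_zsmul F k x]
  have hισ : ∀ a : ZMod p, frobHom hF (ι a) = ι a := by
    intro a
    rcases ZMod.intCast_surjective a with ⟨k, rfl⟩
    rw [map_intCast, map_intCast]
  let B' : Submodule (ZMod p) V := AddSubgroup.toZModSubmodule p B
  haveI : Finite ↥B' := inferInstance
  haveI : Module.Finite (ZMod p) ↥B' := Module.Finite.of_finite
  let e := Module.finBasis (ZMod p) ↥B'
  set β := finrank (ZMod p) ↥B' with hβ
  have hcardB : Nat.card B = p ^ β := by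
    have h1 : Nat.card B' = p ^ β := by
      rw [Module.natCard_eq_pow_finrank (K := ZMod p), Nat.card_zmod]
    exact h1
  let D' : Submodule (ZMod p) F := AddSubgroup.toZModSubmodule p (fixF (frobHom hF))
  haveI : Finite ↥D' := inferInstance
  haveI : Module.Finite (ZMod p) ↥D' := Module.Finite.of_finite
  set k := finrank (ZMod p) ↥D' with hk
  have hcardD : q = p ^ k := by
    have h1 : Nat.card D' = p ^ k := by
      rw [Module.natCard_eq_pow_finrank (K := ZMod p), Nat.card_zmod]
    have h2 : Nat.card (fixF (frobHom hF)) = q := by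
      rw [card_fix_eq_pure hσ, card_pure_frob hF S]
    rw [← h2]
    exact h1
  obtain ⟨π, hπ⟩ := LinearMap.exists_leftInverse_of_injective D'.subtype (Submodule.ker_subtype _)
  let eD := Module.finBasis (ZMod p) ↥D'
  let ℓ : Fin k → F →ₗ[ZMod p] ZMod p := fun j => (eD.coord j) ∘ₗ π
  have hβk : 2 * k < β := by
    rw [hcardB, hcardD, ← pow_mul, mul_comm k 2] at hb
    exact (Nat.pow_lt_pow_iff_right hpp.one_lt).1 hb
  -- the polynomials
  let f : Fin k → MvPolynomial (Fin β) (ZMod p) := fun j =>
    ∑ i, ∑ i', MvPolynomial.C (ℓ j (h (e i).1 (e i').1)) * MvPolynomial.X i * MvPolynomial.X i'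
  have hdeg : ∀ j, (f j).totalDegree ≤ 2 := by
    intro j
    refine (MvPolynomial.totalDegree_finsetSum _ _).trans (Finset.sup_le fun i _ => ?_)
    refine (MvPolynomial.totalDegree_finsetSum _ _).trans (Finset.sup_le fun i' _ => ?_)
    refine (MvPolynomial.totalDegree_mul _ _).trans ?_
    have h1 := MvPolynomial.totalDegree_mul (MvPolynomial.C (ℓ j (h (e i).1 (e i').1))) (MvPolynomial.X i)
    rw [MvPolynomial.totalDegree_C, MvPolynomial.totalDegree_X] at h1
    rw [MvPolynomial.totalDegree_X]
    omega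
  have hsum : ∑ j, (f j).totalDegree < Fintype.card (Fin β) := by
    rw [Fintype.card_fin]
    calc ∑ j, (f j).totalDegree ≤ ∑ _j : Fin k, 2 := Finset.sum_le_sum fun j _ => hdeg j
      _ = 2 * k := by simp [mul_comm]
      _ < β := hβk
  have hcw := char_dvd_card_solutions_of_fintype_sum_lt p hsum
  -- a non-zero solution
  have hzero : ∀ j, MvPolynomial.eval (0 : Fin β → ZMod p) (f j) = 0 := by
    intro j
    simp [f]
  have hex : ∃ a : Fin β → ZMod p, a ≠ 0 ∧ ∀ j, MvPolynomial.eval a (f j) = 0 := by
    by_contra hc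
    push Not at hc
    have key : ∀ inst : Fintype {x : Fin β → ZMod p // ∀ j, MvPolynomial.eval x (f j) = 0},
        @Fintype.card _ inst = 1 := by
      intro inst
      refine Fintype.card_eq_one_of_forall_eq (i := ⟨0, hzero⟩) ?_
      rintro ⟨a, ha⟩
      apply Subtype.ext
      by_contra hne
      obtain ⟨j, hj⟩ := hc a hne
      exact hj (ha j)
    rw [key _] at hcw
    exact hpp.one_lt.ne' (Nat.dvd_one.1 hcw)
  obtain ⟨a, ha0, ha⟩ := hex
  -- the vector
  set x : V := ∑ i, a i • (e i).1 with hx
  have hxB' : x ∈ B' := B'.sum_mem fun i _ => B'.smul_mem _ (e i).2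
  have hx0 : x ≠ 0 := by
    intro h0
    apply ha0
    have h1 : e.equivFun.symm a = 0 := by
      apply Subtype.ext
      rw [Module.Basis.equivFun_symm_apply, Submodule.coe_sum]
      simpa [Submodule.coe_smul] using h0
    exact (LinearEquiv.map_eq_zero_iff e.equivFun.symm).1 h1
  have hexp : h x x = ∑ i, ∑ i', ι (a i) * ι (a i') * h (e i).1 (e i').1 := by
    rw [hx]
    have h1 : ∀ y, h (∑ i, a i • (e i).1) y = ∑ i, ι (a i) * h (e i).1 y := by
      intro y
      have h2 : h (∑ i, a i • (e i).1) y = S.hL y (∑ i, a i • (e i).1) := rfl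
      rw [h2, map_sum]
      refine Finset.sum_congr rfl fun i _ => ?_
      rw [hιV, map_smul]
      rfl
    have h3 : ∀ y, h y (∑ i, a i • (e i).1) = ∑ i, ι (a i) * h y (e i).1 := by
      intro y
      rw [S.conj (∑ i, a i • (e i).1) y, h1, map_sum]
      refine Finset.sum_congr rfl fun i _ => ?_
      rw [map_mul, hισ, ← S.conj]
    rw [h1]
    refine Finset.sum_congr rfl fun i _ => ?_
    rw [h3, Finset.mul_sum]
    refine Finset.sum_congr rfl fun i' _ => ?_
    ring
  have hev : ∀ j, MvPolynomial.eval a (f j) = ℓ j (h x x) := by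
    intro j
    rw [hexp, map_sum]
    simp only [f, map_sum, map_mul, MvPolynomial.eval_C, MvPolynomial.eval_X]
    refine Finset.sum_congr rfl fun i _ => ?_
    refine Finset.sum_congr rfl fun i' _ => ?_
    have h1 : ι (a i) * ι (a i') * h (e i).1 (e i').1 = (a i * a i') • h (e i).1 (e i').1 := by
      rw [Algebra.smul_def, map_mul]
    rw [h1, map_smul, smul_eq_mul]
    ring
  refine ⟨x, hxB', hx0, ?_⟩
  -- the norm is real and all its coordinates vanish
  have hreal : h x x ∈ D' := S.self_fix x
  have hall : ∀ j, eD.coord j ⟨h x x, hreal⟩ = 0 := by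
    intro j
    have h1 := ha j
    rw [hev] at h1
    have h2 : π (h x x) = ⟨h x x, hreal⟩ := by
      have := congrArg (fun g => g ⟨h x x, hreal⟩) hπ
      simpa using this
    have h3 : ℓ j (h x x) = eD.coord j (π (h x x)) := rfl
    rw [h3, h2] at h1
    exact h1
  have h4 : (⟨h x x, hreal⟩ : D') = 0 := eD.ext_elem (fun j => by
    rw [map_zero]
    exact hall j)
  exact congrArg Subtype.val h4

end frob

end Cfsg.Agent.Lib.MinSU
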