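/-
The minimal index in even dimension, `q ≥ 3`.
-/
import Mathlib
import Cfsg.Agent.Lib.MinSU.Step

set_option autoImplicit false
set_option linter.unusedSimpArgs false
set_option linter.unusedSectionVars false
set_option linter.style.haveILetI false
set_option linter.unusedVariables false

namespace Cfsg.Agent.Lib.MinSU

open Module Cfsg.Agent.Lib.Classical.HermBasic Cfsg.Agent.Lib.Classical.HermElem
open Cfsg.Agent.Lib.Classical.HermGen Cfsg.Agent.Lib.Classical.HermSimple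
open Cfsg.Agent.Lib.HermCount.Field

universe u v

/-- The number of isotropic points in even dimension. -/
def Dv (q n : ℕ) : ℕ := (q ^ n - 1) * (q ^ (n - 1) + 1) / (q ^ 2 - 1)

theorem Dv_spec (q k : ℕ) (hq : 2 ≤ q) :
    ((q : ℤ) ^ 2 - 1) * (Dv q (2 * k + 6) : ℤ) = ((q : ℤ) ^ (2 * k + 6) - 1) * ((q : ℤ) ^ (2 * k + 5) + 1) := by
  have hdvd : q ^ 2 - 1 ∣ q ^ (2 * k + 6) - 1 := by
    have h1 := Nat.sub_dvd_pow_sub_pow (q ^ 2) 1 (k + 3)
    rw [one_pow, ← pow_mul, show 2 * (k + 3) = 2 * k + 6 by ring] at h1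
    exact h1
  have h4 : 4 ≤ q ^ 2 := by nlinarith
  have h5 : 1 ≤ q ^ (2 * k + 6) := Nat.one_le_pow _ _ (by omega)
  have h6 : (q ^ 2 - 1) * Dv q (2 * k + 6) = (q ^ (2 * k + 6) - 1) * (q ^ (2 * k + 5) + 1) := by
    unfold Dv
    rw [show 2 * k + 6 - 1 = 2 * k + 5 by omega]
    exact Nat.mul_div_cancel' (Dvd.dvd.mul_right hdvd _)
  have h7 := congrArg (fun x : ℕ => (x : ℤ)) h6
  push_cast [Nat.cast_sub (show 1 ≤ q ^ 2 by omega), Nat.cast_sub h5] at h7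
  exact h7

theorem num_chain (Q Y : ℤ) (hQ : 2 ≤ Q) (hY : Q ^ 2 ≤ Y) :
    (Q ^ 3 * Y - 1) * (Q ^ 2 * Y + 1) ≤ (Q * Y - 1) * (Y + 1) * (Q ^ 2 * Y) := by
  have hQ0 : 0 ≤ Q := by omega
  have hQ1 : Q ≤ Y := by nlinarith
  have hY0 : 0 ≤ Y := by linarith
  have h1 : 0 ≤ Q ^ 3 * Y ^ 2 * (Y - Q ^ 2) := by
    apply mul_nonneg (by positivity) (by linarith)
  have h2 : 0 ≤ Q ^ 2 * Y * (Y * (Q - 1) - Q) := by
    apply mul_nonneg (by positivity)
    nlinarith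
  nlinarith

theorem num_h2 (Q Y : ℤ) (hQ : 2 ≤ Q) (hY : 2 ≤ Y) :
    (Q ^ 2 * Y - 1) * (Q * Y + 1) ≤ (Q ^ 2 - 1) * ((Q + 1) * Y ^ 2) := by
  have h1 : 2 ≤ Q ^ 2 - Q := by nlinarith
  have h2 : 0 ≤ Y * (Y * (Q ^ 2 - Q - 1) - (Q ^ 2 - Q)) := by
    apply mul_nonneg (by omega)
    nlinarith
  nlinarith

section chain

variable {F : Type u} [Field F] [Fintype F] {q : ℕ} (hF : Fintype.card F = q ^ 2)

theorem q_sq_sub_one_pos (hq : 2 ≤ q) : (0 : ℤ) < (q : ℤ) ^ 2 - 1 := by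
  have : (2 : ℤ) ≤ q := by exact_mod_cast hq
  nlinarith

/-- The even chain for `q ≥ 3`. -/
theorem chain_q3 (hq3 : 3 ≤ q) : ∀ (k : ℕ) (V : Type v) [AddCommGroup V] [Module F V]
    [FiniteDimensional F V] (h : V → V → F) (S : HForm (frobHom hF) h)
    (_ : finrank F V = 2 * k + 6) (K : Subgroup (suGroup h)) (_ : K ≠ ⊤),
    Dv q (2 * k + 6) ≤ K.index := by
  have hq2 : 2 ≤ q := by omega
  have hQ : (2 : ℤ) ≤ q := by exact_mod_cast hq2
  have hq1pos := q_sq_sub_one_pos (q := q) hq2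
  have hcast : ((q ^ 2 - 1 : ℕ) : ℤ) = (q : ℤ) ^ 2 - 1 := by
    have : 1 ≤ q ^ 2 := Nat.one_le_pow _ _ (by omega)
    push_cast [Nat.cast_sub this]
    ring
  -- the numerical hypotheses common to all steps
  have hnum : ∀ k : ℕ, Dv q (2 * k + 6) ≤ (q + 1) * q ^ (2 * (2 * k + 4)) ∧
      (((q ^ 2 - 1 : ℕ) : ℤ) * (Dv q (2 * k + 6) : ℤ) ≤
        ((q : ℤ) ^ (2 * k + 5 + 1) - (-1) ^ (2 * k + 5 + 1)) *
          ((q : ℤ) ^ (2 * k + 5) - (-1) ^ (2 * k + 5))) ∧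
      (((q ^ 2 - 1 : ℕ) : ℤ) * (Dv q (2 * k + 6) : ℤ) ≤
        (q : ℤ) ^ (2 * (2 * k + 5 + 1)) - 1 - ((q : ℤ) ^ (2 * k + 5 + 1) - (-1) ^ (2 * k + 5 + 1)) *
          ((q : ℤ) ^ (2 * k + 5) - (-1) ^ (2 * k + 5))) := by
    intro k
    have hspec := Dv_spec q k hq2
    have e1 : (-1 : ℤ) ^ (2 * k + 5 + 1) = 1 := Even.neg_one_pow ⟨k + 3, by ring⟩
    have e2 : (-1 : ℤ) ^ (2 * k + 5) = -1 := Odd.neg_one_pow ⟨k + 2, by ring⟩
    rw [hcast, e1, e2]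
    have hY : (2 : ℤ) ≤ (q : ℤ) ^ (2 * k + 4) := by
      have : (q : ℤ) ^ 1 ≤ (q : ℤ) ^ (2 * k + 4) :=
        pow_le_pow_right₀ (by omega) (by omega)
      linarith [pow_one (q : ℤ)]
    set Y := (q : ℤ) ^ (2 * k + 4) with hYdef
    have ea : (q : ℤ) ^ (2 * k + 5) = (q : ℤ) * Y := by rw [hYdef]; ring
    have eb : (q : ℤ) ^ (2 * k + 6) = (q : ℤ) ^ 2 * Y := by rw [hYdef]; ring
    have ec : (q : ℤ) ^ (2 * (2 * k + 4)) = Y ^ 2 := by rw [hYdef]; ring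
    have ed : (q : ℤ) ^ (2 * (2 * k + 5 + 1)) = ((q : ℤ) ^ 2 * Y) ^ 2 := by rw [hYdef]; ring
    have ee : (q : ℤ) ^ (2 * k + 5 + 1) = (q : ℤ) ^ 2 * Y := by rw [hYdef]; ring
    rw [eb, ea] at hspec
    refine ⟨?_, ?_, ?_⟩
    · have h1 := num_h2 (q : ℤ) Y hQ hY
      rw [← hspec] at h1
      have h2 := le_of_mul_le_mul_left h1 hq1pos
      rw [← ec] at h2
      exact_mod_cast h2
    · rw [ee, ea, hspec]
      apply le_of_eq
      ring
    · rw [ed, ee, ea, hspec]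
      have hq3' : (3 : ℤ) ≤ q := by exact_mod_cast hq3
      have h3 : 0 ≤ ((q : ℤ) ^ 2 * Y - 1) := by nlinarith
      have h4 : 0 ≤ ((q : ℤ) - 2) * ((q : ℤ) * Y) - 1 := by nlinarith
      have h5 : 0 ≤ ((q : ℤ) ^ 2 * Y - 1) * (((q : ℤ) - 2) * ((q : ℤ) * Y) - 1) := mul_nonneg h3 h4
      nlinarith
  intro k
  induction k with
  | zero =>
    intro V _ _ _ h S hn K hK
    obtain ⟨h2, h4, h5⟩ := hnum 0
    refine step_bound hF S (2 * 0 + 5) (2 * 0 + 4) (by omega) (by omega) (by omega)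
      (q ^ 3 * (q + 1)) _ ?_ ?_ h2 h4 h5 ?_ K hK
    · intro e f H K₀ hK₀
      have hfr := finrank_perp2 S H
      exact weak_four hF (restrict S H) (by omega) K₀ hK₀
    · refine h2.trans (le_of_eq ?_)
      ring
    · intro K hsemi hidx
      have hfrk := hn
      refine no_semiregular_q3 S (invol_frob' hF S) (by omega) q (2 * 0 + 4) (card_pure_frob hF S)
        hq3 (by omega) K hsemi (lt_of_lt_of_le hidx (h2.trans ?_))
      have : q + 1 ≤ 2 * q := by omega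
      calc (q + 1) * q ^ (2 * (2 * 0 + 4)) ≤ (2 * q) * q ^ (2 * (2 * 0 + 4)) :=
            Nat.mul_le_mul_right _ this
        _ = 2 * (q * q ^ (2 * (2 * 0 + 4))) := by ring
  | succ k ih =>
    intro V _ _ _ h S hn K hK
    obtain ⟨h2, h4, h5⟩ := hnum (k + 1)
    refine step_bound hF S (2 * (k + 1) + 5) (2 * (k + 1) + 4) (by omega) (by omega) (by omega)
      (Dv q (2 * k + 6)) _ ?_ ?_ h2 h4 h5 ?_ K hK
    · intro e f H K₀ hK₀
      have hfr := finrank_perp2 S H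
      exact ih _ _ (restrict S H) (by omega) K₀ hK₀
    · -- the numerics
      have hs1 := Dv_spec q k hq2
      have hs2 := Dv_spec q (k + 1) hq2
      have hY : (q : ℤ) ^ 2 ≤ (q : ℤ) ^ (2 * k + 5) := by
        exact pow_le_pow_right₀ (by omega) (by omega)
      have hmain := num_chain (q : ℤ) ((q : ℤ) ^ (2 * k + 5)) hQ hY
      have e1 : (q : ℤ) ^ (2 * (k + 1) + 6) = (q : ℤ) ^ 3 * (q : ℤ) ^ (2 * k + 5) := by ring
      have e2 : (q : ℤ) ^ (2 * (k + 1) + 5) = (q : ℤ) ^ 2 * (q : ℤ) ^ (2 * k + 5) := by ring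
      have e3 : (q : ℤ) ^ (2 * k + 6) = (q : ℤ) * (q : ℤ) ^ (2 * k + 5) := by ring
      rw [e1, e2] at hs2
      rw [e3] at hs1
      rw [← hs2] at hmain
      have h7 : ((q : ℤ) ^ 2 - 1) * (Dv q (2 * (k + 1) + 6) : ℤ) ≤
          ((q : ℤ) ^ 2 - 1) * ((Dv q (2 * k + 6) : ℤ) * (q : ℤ) ^ (2 * (k + 1) + 4 + 1)) := by
        refine hmain.trans (le_of_eq ?_)
        have e4 : (q : ℤ) ^ (2 * (k + 1) + 4 + 1) = (q : ℤ) ^ 2 * (q : ℤ) ^ (2 * k + 5) := by ring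
        rw [e4]
        have e5 := hs1
        linear_combination -(q : ℤ) ^ 2 * (q : ℤ) ^ (2 * k + 5) * e5
      have h8 := le_of_mul_le_mul_left h7 hq1pos
      exact_mod_cast h8
    · intro K hsemi hidx
      refine no_semiregular_q3 S (invol_frob' hF S) (by omega) q (2 * (k + 1) + 4) (card_pure_frob hF S)
        hq3 (by omega) K hsemi (lt_of_lt_of_le hidx (h2.trans ?_))
      have : q + 1 ≤ 2 * q := by omega
      calc (q + 1) * q ^ (2 * (2 * (k + 1) + 4)) ≤ (2 * q) * q ^ (2 * (2 * (k + 1) + 4)) :=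
            Nat.mul_le_mul_right _ this
        _ = 2 * (q * q ^ (2 * (2 * (k + 1) + 4))) := by ring

end chain

end Cfsg.Agent.Lib.MinSU
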