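/-
A subgroup all of whose conjugates meet every radical trivially cannot have small index:
fixed point counts of semisimple elements.
-/
import Mathlib
import Cfsg.Agent.Lib.MinSU.NoReg

set_option autoImplicit false
set_option linter.unusedSimpArgs false
set_option linter.unusedSectionVars false
set_option linter.style.haveILetI false
set_option linter.unusedVariables false

namespace Cfsg.Agent.Lib.MinSU

open Module Cfsg.Agent.Lib.Classical.HermBasic Cfsg.Agent.Lib.Classical.HermElem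
open Cfsg.Agent.Lib.Classical.HermGen Cfsg.Agent.Lib.Classical.HermSimple

universe u v

variable {F : Type u} [Field F] {V : Type v} [AddCommGroup V] [Module F V]
variable {σ : F →+* F} {h : V → V → F}

section q2

variable [Finite F] [FiniteDimensional F V] (S : HForm σ h) (hσ : Invol σ)

include S hσ

/-- The case `q = 2`. -/
theorem no_semiregular_q2 (hV : 5 ≤ finrank F V) (m : ℕ) (hq : Nat.card (pureF σ) = 2)
    (hm : finrank F V = m + 2) (K : Subgroup (suGroup h))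
    (hsemi : ∀ (e : V) (hee : h e e = 0), e ≠ 0 → ∀ g, cj g K ⊓ radQ S hσ e hee = ⊥)
    (hidx : K.index < 2 * (2 * 2 ^ (2 * m))) : False := by
  classical
  haveI : Finite V := Module.finite_of_finite F
  haveI : Finite (suGroup h) := finite_su
  have hF : Nat.card F = 4 := by rw [card_F_eq hσ, hq]
  have h2F : (2 : F) = 0 := two_eq_zero_of_card hF
  obtain ⟨e₁, f₁, e₂, f₂, w₀, H₁, H₂, h21, h22, h23, h24, hw1, hw2, hw3, hw4, hw0⟩ :=
    exists_two_pairs S hσ hV
  have hef₁ := H₁.ef S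
  have hef₂ := H₂.ef S
  have hw₀0 : w₀ ≠ 0 := by
    rintro rfl
    exact hw0 (S.zero_left _)
  have hcardQ : ∀ {e f : V} (H : IsHP h e f), Nat.card (radQ S hσ e H.ee) = 2 * 2 ^ (2 * m) := by
    intro e f H
    have hfr := finrank_perp2 S H
    rw [card_radQ S hσ H, Aof_top, card_Bof_top S hσ H, hq,
      Module.natCard_eq_pow_finrank (K := F), hF, show finrank F (perp2 S e f) = m by omega,
      show (4 : ℕ) = 2 ^ 2 by norm_num, ← pow_mul]
  -- the element of order three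
  obtain ⟨β, hβn, hβ1⟩ := hσ.exists_norm_one_ne
  have hβ0 : β ≠ 0 := by
    rintro rfl
    simp at hβn
  have hsβ0 : σ β ≠ 0 := by
    intro h0
    rw [h0, mul_zero] at hβn
    exact zero_ne_one hβn
  have hβ3 : β ^ 3 = 1 := by
    haveI : Fintype F := Fintype.ofFinite F
    have h1 : Nat.card Fˣ = 3 := by
      rw [Nat.card_eq_fintype_card, Fintype.card_units, ← Nat.card_eq_fintype_card, hF]
    have h2 : (Units.mk0 β hβ0) ^ 3 = 1 := by
      rw [← h1]
      exact pow_card_eq_one'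
    have h3 := congrArg (fun u : Fˣ => (u : F)) h2
    simpa using h3
  have hsβi : (σ β)⁻¹ = β := by
    field_simp
    linear_combination -hβn
  have hsβ1 : σ β ≠ 1 := by
    intro h0
    rw [h0, mul_one] at hβn
    exact hβ1 hβn
  obtain ⟨d, hd⟩ := exists_dAt S hσ H₂ hβ0
  obtain ⟨r, hr⟩ := exists_qrAt S hw0 hβn
  have htmem : d * r ∈ suGroup h := by
    rw [mem_suGroup]
    refine ⟨mul_mem (hd.mem_uGroup S hσ) (hr.mem_uGroup S), ?_⟩
    rw [dt_mul, hd.det S, hr.det S, hsβi]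
    linear_combination hβ3
  let t : suGroup h := ⟨d * r, htmem⟩
  have htv : ∀ x, t.1 x = x + ((β - 1) * (h x w₀ / h w₀ w₀)) • w₀ + ((β - 1) * h x f₂) • e₂ +
      ((β - 1) * h x e₂) • f₂ := by
    intro x
    show d (r x) = _
    rw [hr.apply, hd.apply, hsβi]
    simp only [S.add_left, S.smul_left, hw3, hw4, mul_zero, add_zero]
    congr 2
    congr 1
    ring
  -- the projection
  let P : V → V := fun x => (h x w₀ / h w₀ w₀) • w₀ + (h x f₂) • e₂ + (h x e₂) • f₂
  have htP : ∀ x, t.1 x = x + (β - 1) • P x := by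
    intro x
    rw [htv]
    simp only [P, smul_add, smul_smul]
    abel
  have hPt : ∀ x, P (t.1 x) = β • P x := by
    intro x
    have h1 : h (t.1 x) w₀ = β * h x w₀ := by
      rw [htv]
      simp only [S.add_left, S.smul_left, S.zero_symm hw3, S.zero_symm hw4]
      field_simp
      ring
    have h2 : h (t.1 x) f₂ = β * h x f₂ := by
      rw [htv]
      simp only [S.add_left, S.smul_left, hw4, H₂.ff, hef₂]
      ring
    have h3 : h (t.1 x) e₂ = β * h x e₂ := by
      rw [htv]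
      simp only [S.add_left, S.smul_left, hw3, H₂.ee, H₂.fe]
      ring
    simp only [P, h1, h2, h3, smul_add, smul_smul]
    congr 3
    ring
  have ht3 : t ^ 3 = 1 := by
    apply Subtype.ext
    ext x
    show t.1 (t.1 (t.1 x)) = x
    rw [htP (t.1 (t.1 x)), hPt, hPt, htP (t.1 x), hPt, htP x]
    have h1 : (β - 1) + (β - 1) * β + (β - 1) * (β * β) = 0 := by linear_combination hβ3
    have h2 : x + (β - 1) • P x + (β - 1) • β • P x + (β - 1) • β • β • P x =
        x + ((β - 1) + (β - 1) * β + (β - 1) * (β * β)) • P x := by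
      module
    rw [h2, h1, zero_smul, add_zero]
  have hidx' : K.index = 2 * 2 ^ (2 * m) := by
    have hb := orbit_bij K _ (hsemi e₁ H₁.ee (H₁.ne_left S)) (by rw [hcardQ H₁]; exact hidx)
      (QuotientGroup.mk 1)
    rw [index_eq_card_of_bij K _ _ hb, hcardQ H₁]
  haveI : Fact (Nat.Prime 3) := ⟨Nat.prime_three⟩
  have h3K : ¬ 3 ∣ K.index := by
    rw [hidx', ← pow_succ']
    intro hdvd
    have h1 := Nat.prime_three.dvd_of_dvd_pow hdvd
    omega
  obtain ⟨x₀, hx₀⟩ := exists_fix K 3 t ht3 h3K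
  have HN₂ : NP σ e₂ f₂ β t.1 := by
    refine ⟨hβ0, ?_, ?_⟩
    · show d (r e₂) = _
      rw [hr.apply_orth (S.zero_symm hw3), hd.apply_left S]
    · show d (r f₂) = _
      rw [hr.apply_orth (S.zero_symm hw4), hd.apply_right S]
  have hfix₁ : ∀ y, h y e₂ = 0 → h y f₂ = 0 → h y w₀ = 0 → t.1 y = y := by
    intro y h1 h2 h3
    rw [htv, h1, h2, h3]
    simp
  have HN₁ : NP σ e₁ f₁ 1 t.1 := by
    refine ⟨one_ne_zero, ?_, ?_⟩
    · rw [one_smul]
      exact hfix₁ _ (S.zero_symm h21) (S.zero_symm h23) (S.zero_symm hw1)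
    · rw [map_one, inv_one, one_smul]
      exact hfix₁ _ (S.zero_symm h22) (S.zero_symm h24) (S.zero_symm hw2)
  have hQ₁ := hsemi e₁ H₁.ee (H₁.ne_left S)
  have hQ₂ := hsemi e₂ H₂.ee (H₂.ne_left S)
  have E₁ := fix_eq S hσ H₁ K hQ₁ (by rw [hcardQ H₁]; exact hidx) HN₁ hx₀
  have E₂ := fix_eq S hσ H₂ K hQ₂ (by rw [hcardQ H₂]; exact hidx) HN₂ hx₀
  set C := Subgroup.centralizer {t} with hC
  have htw₀ : t.1 w₀ = β • w₀ := by
    rw [htv, hw3, hw4]
    have h1 : (β - 1) * (h w₀ w₀ / h w₀ w₀) = β - 1 := by field_simp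
    rw [h1]
    simp only [mul_zero, zero_smul, add_zero]
    module
  -- `B₂` is the line through `w₀`
  have hB₂ : Nat.card (Bof S hσ H₂ C) = 4 := by
    rw [← hF]
    symm
    apply Nat.card_congr
    refine Equiv.ofBijective (fun c : F => (⟨c • w₀, ?_⟩ : Bof S hσ H₂ C)) ⟨?_, ?_⟩
    · refine Bof_centralizer_sup S hσ H₂ HN₂ hβn ⟨?_, ?_⟩ ?_
      · rw [S.smul_left, hw3, mul_zero]
      · rw [S.smul_left, hw4, mul_zero]
      · have h1 : σ β * β = 1 := by rw [mul_comm]; exact hβn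
        rw [map_smul, htw₀]
        calc σ β • c • β • w₀ = c • (σ β * β) • w₀ := by module
          _ = c • w₀ := by rw [h1, one_smul]
    · intro c c' hcc
      exact smul_left_injective F hw₀0 (congrArg (fun x : Bof S hσ H₂ C => x.1) hcc)
    · rintro ⟨w, hw⟩
      have h1 := Bof_centralizer_sub S hσ H₂ HN₂ hw
      refine ⟨h w w₀ / h w₀ w₀, ?_⟩
      apply Subtype.ext
      show (h w w₀ / h w₀ w₀) • w₀ = w
      rw [htv, hw.1.1, hw.1.2] at h1
      simp only [mul_zero, zero_smul, add_zero, smul_add, smul_smul] at h1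
      have h2 : (σ β - 1) • (w - (h w w₀ / h w₀ w₀) • w₀) = 0 := by
        have h3 : σ β * ((β - 1) * (h w w₀ / h w₀ w₀)) = (1 - σ β) * (h w w₀ / h w₀ w₀) := by
          have hβn' : σ β * β = 1 := by rw [mul_comm]; exact hβn
          linear_combination (h w w₀ / h w₀ w₀) * hβn'
        rw [h3] at h1
        have h4 : (σ β - 1) • (w - (h w w₀ / h w₀ w₀) • w₀) =
            σ β • w + ((1 - σ β) * (h w w₀ / h w₀ w₀)) • w₀ - w := by
          module
        rw [h4, h1, sub_self]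
      have h3 := (smul_eq_zero.1 h2).resolve_left (sub_ne_zero.2 hsβ1)
      exact (sub_eq_zero.1 h3).symm
  -- `B₁` is `perp5`
  have hB₁set : ∀ w, w ∈ Bof S hσ H₁ C ↔ w ∈ perp5 S e₁ f₁ e₂ f₂ w₀ := by
    intro w
    constructor
    · intro hw
      have h1 := Bof_centralizer_sub S hσ H₁ HN₁ hw
      rw [map_one, one_smul, htP] at h1
      have h2 : (β - 1) • P w = 0 := by
        have h3 : w + (β - 1) • P w = w + 0 := by rw [h1, add_zero]
        exact add_left_cancel h3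
      have h3 : P w = 0 := (smul_eq_zero.1 h2).resolve_left (sub_ne_zero.2 hβ1)
      have h4 : h (P w) f₂ = h w f₂ := by
        simp only [P, S.add_left, S.smul_left, hw4, H₂.ff, hef₂]
        ring
      have h5 : h (P w) e₂ = h w e₂ := by
        simp only [P, S.add_left, S.smul_left, hw3, H₂.ee, H₂.fe]
        ring
      have h6 : h (P w) w₀ = h w w₀ := by
        have h3w : h e₂ w₀ = 0 := S.zero_symm hw3
        have h4w : h f₂ w₀ = 0 := S.zero_symm hw4
        simp only [P, S.add_left, S.smul_left, h3w, h4w]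
        field_simp
        ring
      rw [h3, S.zero_left] at h4 h5 h6
      exact ⟨hw.1.1, hw.1.2, h5.symm, h4.symm, h6.symm⟩
    · rintro ⟨h1, h2, h3, h4, h5⟩
      refine Bof_centralizer_sup S hσ H₁ HN₁ (by simp) ⟨h1, h2⟩ ?_
      rw [map_one, one_smul]
      exact hfix₁ w h3 h4 h5
  have hfr5 := finrank_perp5 S H₁ H₂ h21 h22 h23 h24 hw1 hw2 hw3 hw4 hw0
  have hB₁card : Nat.card (Bof S hσ H₁ C) = 4 ^ (m - 3) := by
    have h1 : Nat.card (Bof S hσ H₁ C) = Nat.card (perp5 S e₁ f₁ e₂ f₂ w₀) :=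
      Nat.card_congr (Equiv.subtypeEquivRight hB₁set)
    rw [h1, Module.natCard_eq_pow_finrank (K := F), hF]
    congr 1
    omega
  have hEE := E₁.symm.trans E₂
  rw [hB₂, hB₁card] at hEE
  have hA₁ := card_Aof_le_pure S hσ H₁ C
  have hA₂ := card_Aof_le_pure S hσ H₂ C
  rw [hq] at hA₁ hA₂
  have hA₁0 : 0 < Nat.card (Aof S hσ e₁ H₁.ee C) := Nat.card_pos
  have hA₂0 : 0 < Nat.card (Aof S hσ e₂ H₂.ee C) := Nat.card_pos
  have hm3 : 3 ≤ m := by omega
  rcases (show m = 3 ∨ m = 4 ∨ 5 ≤ m by omega) with rfl | rfl | hm5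
  · norm_num at hEE
    omega
  swap
  · have h1 : 16 ≤ 4 ^ (m - 3) := by
      calc 16 = 4 ^ 2 := by norm_num
        _ ≤ 4 ^ (m - 3) := Nat.pow_le_pow_right (by norm_num) (by omega)
    have h2 : 16 ≤ Nat.card (Aof S hσ e₁ H₁.ee C) * 4 ^ (m - 3) := by
      calc 16 ≤ 4 ^ (m - 3) := h1
        _ ≤ _ := Nat.le_mul_of_pos_left _ hA₁0
    omega
  -- the special case
  clear hEE hA₁ hA₂ hA₁0 hA₂0 hB₁card hB₂ E₁ E₂ hm3
  obtain ⟨ρ, hρ0, hρ⟩ := hσ.exists_pure
  have hsρ : σ ρ = ρ := by linear_combination hρ - ρ * h2F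
  obtain ⟨τ, Eτ, hτ⟩ := exists_tau S hσ H₂.ee hρ
  have hτmem : τ ∈ radQ S hσ e₂ H₂.ee := ⟨0, ρ, Eτ⟩
  have htτ : t * τ = τ * t := by
    apply Subtype.ext
    ext x
    show t.1 (τ.1 x) = τ.1 (t.1 x)
    have h3 : h (t.1 x) e₂ = β * h x e₂ := by
      rw [htv]
      simp only [S.add_left, S.smul_left, hw3, H₂.ee, H₂.fe]
      ring
    have h4 : t.1 e₂ = β • e₂ := HN₂.left
    rw [hτ, hτ, map_add, map_smul, h4, h3, smul_smul]
    congr 2
    ring
  have hτ2 : τ * τ = 1 := by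
    apply Subtype.ext
    ext x
    show τ.1 (τ.1 x) = x
    have h3 : ∀ x, h (τ.1 x) e₂ = h x e₂ := by
      intro x
      rw [hτ, S.add_left, S.smul_left, H₂.ee]
      ring
    rw [hτ (τ.1 x), h3, hτ x, add_assoc, ← add_smul]
    have h4 : ρ * h x e₂ + ρ * h x e₂ = 2 * (ρ * h x e₂) := by ring
    rw [h4, h2F, zero_mul, zero_smul, add_zero]
  have hbij₁ := orbit_bij K _ hQ₁ (by rw [hcardQ H₁]; exact hidx) x₀
  have hinj₁ := hbij₁.1
  obtain ⟨a, ha⟩ := hbij₁.2 (τ • x₀)
  have ha' : (a : suGroup h) • x₀ = τ • x₀ := ha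
  have hinvx : t⁻¹ • x₀ = x₀ := by
    rw [inv_smul_eq_iff]
    exact hx₀.symm
  have hconj : t * (a : suGroup h) * t⁻¹ = a := by
    have h1 : t * (a : suGroup h) * t⁻¹ ∈ radQ S hσ e₁ H₁.ee := NP.conj_radQ S hσ H₁ HN₁ a.2
    have h2 : (⟨_, h1⟩ : radQ S hσ e₁ H₁.ee) = a := by
      apply hinj₁
      show (t * (a : suGroup h) * t⁻¹) • x₀ = (a : suGroup h) • x₀
      rw [mul_smul, mul_smul, hinvx, ha', ← mul_smul, htτ, mul_smul, hx₀]
    exact congrArg Subtype.val h2
  have haC : (a : suGroup h) ∈ C := by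
    rw [hC, Subgroup.mem_centralizer_iff]
    intro y hy
    rw [Set.mem_singleton_iff] at hy
    rw [hy]
    calc t * (a : suGroup h) = (t * a * t⁻¹) * t := by group
      _ = a * t := by rw [hconj]
  have Ea := exists_normal_params S hσ H₁ a.2
  set w := proj e₁ f₁ ((a : suGroup h).1 f₁) h with hw
  set b := h ((a : suGroup h).1 f₁) f₁ with hb
  have hwp : w ∈ perp2 S e₁ f₁ := proj_mem S H₁ _
  have hwB : w ∈ Bof S hσ H₁ C := ⟨hwp, a, haC, b, Ea⟩
  have hw5 := (hB₁set w).1 hwB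
  -- `a` and `τ` commute
  have haτ : (a : suGroup h) * τ = τ * a := by
    have h1 := Eτ.conj (mem_suGroup.1 (a : suGroup h).2).1
    have he₂ : (a : suGroup h).1 e₂ = e₂ := by
      rw [Ea.apply, h21, S.zero_symm hw5.2.2.1]
      simp
    rw [he₂, map_zero] at h1
    have h2 := eich_eq_of_params h1 Eτ
    apply Subtype.ext
    show (a : suGroup h).1 * τ.1 = τ.1 * (a : suGroup h).1
    calc (a : suGroup h).1 * τ.1 = ((a : suGroup h).1 * τ.1 * (a : suGroup h).1⁻¹) * (a : suGroup h).1 := by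
          group
      _ = τ.1 * (a : suGroup h).1 := by rw [h2]
  have hsq : a * a = 1 := by
    apply hinj₁
    show (((a * a : radQ S hσ e₁ H₁.ee) : suGroup h)) • x₀ = ((1 : radQ S hσ e₁ H₁.ee) : suGroup h) • x₀
    rw [Subgroup.coe_mul, mul_smul, ha', ← mul_smul, haτ, mul_smul, ha', ← mul_smul, hτ2]
    rfl
  -- the vector `w` is isotropic
  have hww : h w w = 0 := by
    have h1 := Ea.mul S Ea
    have h2 : ((a : suGroup h).1 * (a : suGroup h).1) = 1 := by
      have := congrArg (fun u : radQ S hσ e₁ H₁.ee => ((u : suGroup h)).1) hsq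
      exact this
    rw [h2] at h1
    have h3 : w + w = 0 := by
      have h4 : (2 : F) • w = 0 := by rw [h2F, zero_smul]
      rwa [two_smul] at h4
    rw [h3] at h1
    have h5 := param_eich S H₁ h1 (perp2 S e₁ f₁).zero_mem
    have h6 : (1 : V ≃ₗ[F] V) f₁ = f₁ := rfl
    rw [h6, H₁.ff] at h5
    linear_combination h5 + b * h2F
  have hw0' : w = 0 := by
    apply S.nd
    intro x
    apply S.zero_symm
    -- the projection of `x` to `perp5`
    set y := x - (h x f₁) • e₁ - (h x e₁) • f₁ - (h x f₂) • e₂ - (h x e₂) • f₂ -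
      (h x w₀ / h w₀ w₀) • w₀ with hy
    have h12 : h e₁ e₂ = 0 := S.zero_symm h21
    have h12' : h f₁ e₂ = 0 := S.zero_symm h22
    have h13 : h e₁ f₂ = 0 := S.zero_symm h23
    have h13' : h f₁ f₂ = 0 := S.zero_symm h24
    have h1w : h e₁ w₀ = 0 := S.zero_symm hw1
    have h2w : h f₁ w₀ = 0 := S.zero_symm hw2
    have h3w : h e₂ w₀ = 0 := S.zero_symm hw3
    have h4w : h f₂ w₀ = 0 := S.zero_symm hw4
    have hyp : y ∈ perp5 S e₁ f₁ e₂ f₂ w₀ := by
      refine ⟨?_, ?_, ?_, ?_, ?_⟩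
      · simp only [hy, S.sub_left, S.smul_left, H₁.ee, H₁.fe, h21, h23, hw1]
        ring
      · simp only [hy, S.sub_left, S.smul_left, H₁.ff, hef₁, h22, h24, hw2]
        ring
      · simp only [hy, S.sub_left, S.smul_left, h12, h12', H₂.ee, H₂.fe, hw3]
        ring
      · simp only [hy, S.sub_left, S.smul_left, h13, h13', H₂.ff, hef₂, hw4]
        ring
      · simp only [hy, S.sub_left, S.smul_left, h1w, h2w, h3w, h4w]
        field_simp
        ring
    have hyw : h y w = 0 := by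
      by_cases hw0 : w = 0
      · rw [hw0, S.zero_right]
      have hfin : finrank F (perp5 S e₁ f₁ e₂ f₂ w₀) = 1 := by omega
      have hw' : (⟨w, hw5⟩ : perp5 S e₁ f₁ e₂ f₂ w₀) ≠ 0 := fun h0 => hw0 (congrArg Subtype.val h0)
      obtain ⟨c, hc⟩ := (finrank_eq_one_iff_of_nonzero' _ hw').1 hfin ⟨y, hyp⟩
      have hc' : c • w = y := congrArg Subtype.val hc
      rw [← hc', S.smul_left, hww, mul_zero]
    have h6 : h x w = h y w := by
      have h1 : h e₁ w = 0 := S.zero_symm hw5.1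
      have h2 : h f₁ w = 0 := S.zero_symm hw5.2.1
      have h3 : h e₂ w = 0 := S.zero_symm hw5.2.2.1
      have h4 : h f₂ w = 0 := S.zero_symm hw5.2.2.2.1
      have h5 : h w₀ w = 0 := S.zero_symm hw5.2.2.2.2
      simp only [hy, S.sub_left, S.smul_left, h1, h2, h3, h4, h5]
      ring
    rw [h6, hyw]
  rw [hw0'] at Ea
  -- the element `a` is non-trivial, so its parameter is `ρ`
  have hbpure : b + σ b = 0 := by
    have h1 := Ea.ha
    rw [S.zero_left, add_zero] at h1
    exact h1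
  have hf₂e₂ : ρ • e₂ ≠ 0 := smul_ne_zero hρ0 (H₂.ne_left S)
  have hb0 : b ≠ 0 := by
    intro h0
    rw [h0] at Ea
    have h1 : (a : suGroup h).1 = 1 := eich_eq_of_params Ea (eich_one S e₁ H₁.ee)
    have h2 : (a : suGroup h) = 1 := Subtype.ext h1
    rw [h2, one_smul] at ha'
    have h3 := orbit_inj K _ hQ₂ x₀ (a₁ := ⟨τ, hτmem⟩) (a₂ := 1) (by
      show τ • x₀ = (1 : suGroup h) • x₀
      rw [one_smul]
      exact ha'.symm)
    have h4 : τ = 1 := congrArg Subtype.val h3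
    have h5 : τ.1 f₂ = f₂ := by rw [h4]; rfl
    rw [hτ, H₂.fe, mul_one] at h5
    have h6 : ρ • e₂ = 0 := by
      have : f₂ + ρ • e₂ = f₂ + 0 := by rw [h5, add_zero]
      exact add_left_cancel this
    exact hf₂e₂ h6
  have hbρ : b = ρ := by
    obtain ⟨z, hz⟩ := Nat.card_eq_two_iff'  (0 : pureF σ) |>.1 hq
    have h1 := hz.2 (⟨b, hbpure⟩ : pureF σ) (fun h0 => hb0 (congrArg Subtype.val h0))
    have h2 := hz.2 (⟨ρ, hρ⟩ : pureF σ) (fun h0 => hρ0 (congrArg Subtype.val h0))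
    exact congrArg Subtype.val (h1.trans h2.symm)
  rw [hbρ] at Ea
  -- the element at the sum
  have hsum : h e₂ e₁ = 0 := h21
  obtain ⟨x₁, x₂, E₁', E₂', E₃, hform⟩ := exists_sum_radical S hσ H₂.ee H₁.ee h21 hρ
  have hx₂ : x₂ = (a : suGroup h) := Subtype.ext (eich_eq_of_params E₂' Ea)
  have hx₁ : x₁ = τ := by
    apply Subtype.ext
    have hnρ : -ρ = ρ := by linear_combination -ρ * h2F
    rw [hnρ] at E₁'
    exact eich_eq_of_params E₁' Eτ
  have hee : h (e₂ + e₁) (e₂ + e₁) = 0 := E₃.ee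
  have he0 : e₂ + e₁ ≠ 0 := by
    intro h0
    have h1 : h (e₂ + e₁) f₂ = 1 := by
      rw [S.add_left, hef₂, S.zero_symm h23, add_zero]
    rw [h0, S.zero_left] at h1
    exact zero_ne_one h1
  have hQ₃ := hsemi (e₂ + e₁) hee he0
  have hmem₃ : x₁ * x₂ ∈ radQ S hσ (e₂ + e₁) hee := ⟨_, _, E₃⟩
  have h3 := orbit_inj K _ hQ₃ x₀ (a₁ := ⟨_, hmem₃⟩) (a₂ := 1) (by
    show (x₁ * x₂) • x₀ = (1 : suGroup h) • x₀
    rw [hx₁, hx₂, mul_smul, ha', ← mul_smul, hτ2])
  have h4 : x₁ * x₂ = 1 := congrArg Subtype.val h3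
  have h5 : (x₁ * x₂).1 f₂ = f₂ := by rw [h4]; rfl
  rw [hform, H₂.fe, S.zero_symm (S.zero_symm h23)] at h5
  simp only [mul_zero, zero_smul, add_zero, mul_one] at h5
  have h6 : (-ρ) • e₂ = 0 := by
    have : f₂ + (-ρ) • e₂ = f₂ + 0 := by rw [h5, add_zero]
    exact add_left_cancel this
  rw [neg_smul, neg_eq_zero] at h6
  exact hf₂e₂ h6

end q2

end Cfsg.Agent.Lib.MinSU
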