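/-
The minimal index in even dimension, `q = 2`.
-/
import Mathlib
import Cfsg.Agent.Lib.MinSU.Even
import Cfsg.Agent.Lib.MinSU.NoRegQ2

set_option autoImplicit false
set_option linter.unusedSimpArgs false
set_option linter.unusedSectionVars false
set_option linter.style.haveILetI false
set_option linter.unusedVariables false

namespace Cfsg.Agent.Lib.MinSU

open Module Cfsg.Agent.Lib.Classical.HermBasic Cfsg.Agent.Lib.Classical.HermElem
open Cfsg.Agent.Lib.Classical.HermGen Cfsg.Agent.Lib.Classical.HermSimple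
open Cfsg.Agent.Lib.HermCount.Field

universe u v

/-- The number of non-isotropic points in even dimension for `q = 2`. -/
def NSv (n : ℕ) : ℕ := 2 ^ (n - 1) * (2 ^ n - 1) / 3

theorem NSv_spec (k : ℕ) :
    3 * (NSv (2 * k + 6) : ℤ) = (2 : ℤ) ^ (2 * k + 5) * ((2 : ℤ) ^ (2 * k + 6) - 1) := by
  have hdvd : 3 ∣ 2 ^ (2 * k + 6) - 1 := by
    have h1 := Nat.sub_dvd_pow_sub_pow (2 ^ 2) 1 (k + 3)
    rw [one_pow, ← pow_mul, show 2 * (k + 3) = 2 * k + 6 by ring] at h1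
    exact h1
  have h5 : 1 ≤ 2 ^ (2 * k + 6) := Nat.one_le_pow _ _ (by omega)
  have h6 : 3 * NSv (2 * k + 6) = 2 ^ (2 * k + 5) * (2 ^ (2 * k + 6) - 1) := by
    unfold NSv
    rw [show 2 * k + 6 - 1 = 2 * k + 5 by omega]
    exact Nat.mul_div_cancel' (Dvd.dvd.mul_left hdvd _)
  have h7 := congrArg (fun x : ℕ => (x : ℤ)) h6
  push_cast [Nat.cast_sub h5] at h7
  exact h7

section chain

variable {F : Type u} [Field F] [Fintype F] (hF : Fintype.card F = 2 ^ 2)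

/-- The even chain for `q = 2`. -/
theorem chain_q2 : ∀ (k : ℕ) (V : Type v) [AddCommGroup V] [Module F V]
    [FiniteDimensional F V] (h : V → V → F) (S : HForm (frobHom hF) h)
    (_ : finrank F V = 2 * k + 6) (K : Subgroup (suGroup h)) (_ : K ≠ ⊤),
    NSv (2 * k + 6) ≤ K.index := by
  have hcast : ((2 ^ 2 - 1 : ℕ) : ℤ) = 3 := by norm_num
  have hnum : ∀ k : ℕ, NSv (2 * k + 6) ≤ (2 + 1) * 2 ^ (2 * (2 * k + 4)) ∧
      (((2 ^ 2 - 1 : ℕ) : ℤ) * (NSv (2 * k + 6) : ℤ) ≤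
        (((2 : ℕ) : ℤ) ^ (2 * k + 5 + 1) - (-1) ^ (2 * k + 5 + 1)) *
          (((2 : ℕ) : ℤ) ^ (2 * k + 5) - (-1) ^ (2 * k + 5))) ∧
      (((2 ^ 2 - 1 : ℕ) : ℤ) * (NSv (2 * k + 6) : ℤ) ≤
        ((2 : ℕ) : ℤ) ^ (2 * (2 * k + 5 + 1)) - 1 -
          (((2 : ℕ) : ℤ) ^ (2 * k + 5 + 1) - (-1) ^ (2 * k + 5 + 1)) *
          (((2 : ℕ) : ℤ) ^ (2 * k + 5) - (-1) ^ (2 * k + 5))) := by
    intro k
    have hspec := NSv_spec k
    have e1 : (-1 : ℤ) ^ (2 * k + 5 + 1) = 1 := Even.neg_one_pow ⟨k + 3, by ring⟩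
    have e2 : (-1 : ℤ) ^ (2 * k + 5) = -1 := Odd.neg_one_pow ⟨k + 2, by ring⟩
    rw [hcast, e1, e2]
    have hY : (16 : ℤ) ≤ (2 : ℤ) ^ (2 * k + 4) := by
      calc (16 : ℤ) = 2 ^ 4 := by norm_num
        _ ≤ (2 : ℤ) ^ (2 * k + 4) := pow_le_pow_right₀ (by norm_num) (by omega)
    push_cast
    set Y := (2 : ℤ) ^ (2 * k + 4) with hYdef
    have ea : (2 : ℤ) ^ (2 * k + 5) = 2 * Y := by rw [hYdef]; ring
    have eb : (2 : ℤ) ^ (2 * k + 6) = 4 * Y := by rw [hYdef]; ring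
    have ec : (2 : ℤ) ^ (2 * (2 * k + 4)) = Y ^ 2 := by rw [hYdef]; ring
    have ed : (2 : ℤ) ^ (2 * (2 * k + 5 + 1)) = (4 * Y) ^ 2 := by rw [hYdef]; ring
    have ee : (2 : ℤ) ^ (2 * k + 5 + 1) = 4 * Y := by rw [hYdef]; ring
    rw [eb, ea] at hspec
    refine ⟨?_, ?_, ?_⟩
    · have h1 : 3 * (NSv (2 * k + 6) : ℤ) ≤ 3 * (3 * Y ^ 2) := by
        rw [hspec]
        nlinarith
      have h2 : (NSv (2 * k + 6) : ℤ) ≤ 3 * Y ^ 2 := by linarith
      rw [← ec] at h2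
      have h3 : (NSv (2 * k + 6) : ℤ) ≤ (((2 + 1) * 2 ^ (2 * (2 * k + 4)) : ℕ) : ℤ) := by
        push_cast
        exact h2
      exact_mod_cast h3
    · rw [ee, ea, hspec]
      nlinarith
    · rw [ed, ee, ea, hspec]
      apply le_of_eq
      ring
  have hsemi2 : ∀ (k : ℕ) (V : Type v) [AddCommGroup V] [Module F V]
    [FiniteDimensional F V] (h : V → V → F) (S : HForm (frobHom hF) h)
    (_ : finrank F V = 2 * k + 6) (K : Subgroup (suGroup h)),
    (∀ (e : V) (hee : h e e = 0), e ≠ 0 → ∀ g, cj g K ⊓ radQ S (invol_frob' hF S) e hee = ⊥) →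
      K.index < NSv (2 * k + 6) → False := by
    intro k V _ _ _ h S hn K hsemi hidx
    obtain ⟨h2, -, -⟩ := hnum k
    refine no_semiregular_q2 S (invol_frob' hF S) (by omega) (2 * k + 4) (card_pure_frob hF S)
      (by omega) K hsemi (lt_of_lt_of_le hidx (h2.trans ?_))
    calc (2 + 1) * 2 ^ (2 * (2 * k + 4)) ≤ (2 * 2) * 2 ^ (2 * (2 * k + 4)) :=
          Nat.mul_le_mul_right _ (by norm_num)
      _ = 2 * (2 * 2 ^ (2 * (2 * k + 4))) := by ring
  intro k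
  induction k with
  | zero =>
    intro V _ _ _ h S hn K hK
    obtain ⟨h2, h4, h5⟩ := hnum 0
    refine step_bound hF S (2 * 0 + 5) (2 * 0 + 4) (by omega) (by omega) (by omega)
      (2 ^ 3 * (2 + 1)) _ ?_ ?_ h2 h4 h5 (hsemi2 0 V h S hn) K hK
    · intro e f H K₀ hK₀
      have hfr := finrank_perp2 S H
      exact weak_four hF (restrict S H) (by omega) K₀ hK₀
    · refine h2.trans (le_of_eq ?_)
      ring
  | succ k ih =>
    intro V _ _ _ h S hn K hK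
    obtain ⟨h2, h4, h5⟩ := hnum (k + 1)
    refine step_bound hF S (2 * (k + 1) + 5) (2 * (k + 1) + 4) (by omega) (by omega) (by omega)
      (NSv (2 * k + 6)) _ ?_ ?_ h2 h4 h5 (hsemi2 (k + 1) V h S hn) K hK
    · intro e f H K₀ hK₀
      have hfr := finrank_perp2 S H
      exact ih _ _ (restrict S H) (by omega) K₀ hK₀
    · -- the numerics
      have hs1 := NSv_spec k
      have hs2 := NSv_spec (k + 1)
      have hY : (32 : ℤ) ≤ (2 : ℤ) ^ (2 * k + 5) := by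
        calc (32 : ℤ) = 2 ^ 5 := by norm_num
          _ ≤ (2 : ℤ) ^ (2 * k + 5) := pow_le_pow_right₀ (by norm_num) (by omega)
      set Y := (2 : ℤ) ^ (2 * k + 5) with hYdef
      have e1 : (2 : ℤ) ^ (2 * (k + 1) + 6) = 8 * Y := by rw [hYdef]; ring
      have e2 : (2 : ℤ) ^ (2 * (k + 1) + 5) = 4 * Y := by rw [hYdef]; ring
      have e3 : (2 : ℤ) ^ (2 * k + 6) = 2 * Y := by rw [hYdef]; ring
      have e4 : (2 : ℤ) ^ (2 * (k + 1) + 4 + 1) = 4 * Y := by rw [hYdef]; ring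
      rw [e1, e2] at hs2
      rw [e3] at hs1
      have h7 : 3 * (NSv (2 * (k + 1) + 6) : ℤ) ≤
          3 * ((NSv (2 * k + 6) : ℤ) * (2 : ℤ) ^ (2 * (k + 1) + 4 + 1)) := by
        rw [e4, hs2]
        have h8 : 3 * ((NSv (2 * k + 6) : ℤ) * (4 * Y)) = (Y * (2 * Y - 1)) * (4 * Y) := by
          rw [← hs1]
          ring
        rw [h8]
        have hY0 : 0 ≤ 4 * Y := by linarith
        have h9 : 8 * Y - 1 ≤ Y * (2 * Y - 1) := by nlinarith
        nlinarith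
      have h8 : (NSv (2 * (k + 1) + 6) : ℤ) ≤
          (NSv (2 * k + 6) : ℤ) * (2 : ℤ) ^ (2 * (k + 1) + 4 + 1) := by linarith
      exact_mod_cast h8

end chain

end Cfsg.Agent.Lib.MinSU
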