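/-
Dimension three complement: setwise stabilizers of additive subgroups in `SU₃(q)`.
-/
import Mathlib
import Cfsg.Agent.Lib.MinSU.Cw

set_option autoImplicit false
set_option linter.unusedSimpArgs false
set_option linter.unusedSectionVars false
set_option linter.style.haveILetI false
set_option linter.unusedVariables false

namespace Cfsg.Agent.Lib.MinSU

open Module Cfsg.Agent.Lib.Classical.HermBasic Cfsg.Agent.Lib.Classical.HermElem
open Cfsg.Agent.Lib.Classical.HermGen Cfsg.Agent.Lib.Classical.HermSimple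
open Cfsg.Agent.Lib.HermCount.Field

universe u v

variable {F : Type u} [Field F] {V : Type v} [AddCommGroup V] [Module F V]
variable {σ : F →+* F} {h : V → V → F}

/-- The setwise stabilizer of an additive subgroup. -/
def setStab (h : V → V → F) (B : AddSubgroup V) : Subgroup (suGroup h) where
  carrier := {g | ∀ x, x ∈ B ↔ g.1 x ∈ B}
  mul_mem' := by
    intro a b ha hb x
    show x ∈ B ↔ a.1 (b.1 x) ∈ B
    rw [← ha, ← hb]
  one_mem' := fun x => Iff.rfl
  inv_mem' := by
    intro a ha x
    have h1 := ha ((a⁻¹).1 x)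
    have h2 : a.1 ((a⁻¹).1 x) = x := a.1.apply_symm_apply x
    rw [h2] at h1
    exact h1.symm

theorem mem_setStab {B : AddSubgroup V} {g : suGroup h} : g ∈ setStab h B ↔ ∀ x, x ∈ B ↔ g.1 x ∈ B :=
  Iff.rfl

/-- A finite set stable under a map into itself. -/
theorem mem_setStab_of_forall [Finite V] {B : AddSubgroup V} {g : suGroup h}
    (hg : ∀ x ∈ B, g.1 x ∈ B) : g ∈ setStab h B := by
  intro x
  refine ⟨hg x, fun hx => ?_⟩
  let φ : B → B := fun y => ⟨g.1 y.1, hg y.1 y.2⟩
  have hinj : Function.Injective φ := by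
    intro a b hab
    apply Subtype.ext
    exact g.1.injective (congrArg Subtype.val hab)
  obtain ⟨y, hy⟩ := (Finite.injective_iff_surjective.1 hinj) ⟨g.1 x, hx⟩
  have h1 : g.1 y.1 = g.1 x := congrArg Subtype.val hy
  rw [← g.1.injective h1]
  exact y.2

section imgsec

variable [FiniteDimensional F V]

/-- The images of `B` under `SU`. -/
def imgB (σ : F →+* F) (B : AddSubgroup V) (g : suGroup h) : AddSubgroup V :=
  B.map (hatY σ 1 g.1)

theorem mem_imgB {B : AddSubgroup V} {g : suGroup h} {z : V} :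
    z ∈ imgB σ B g ↔ (g⁻¹).1 z ∈ B := by
  unfold imgB
  constructor
  · rintro ⟨x, hx, rfl⟩
    rw [hatY_apply, map_one, one_smul]
    have : (g⁻¹).1 (g.1 x) = x := g.1.symm_apply_apply x
    rw [this]
    exact hx
  · intro hz
    refine ⟨_, hz, ?_⟩
    rw [hatY_apply, map_one, one_smul]
    exact g.1.apply_symm_apply z

theorem imgB_eq_iff {B : AddSubgroup V} (a b : suGroup h) :
    imgB σ B a = imgB σ B b ↔ a⁻¹ * b ∈ setStab h B := by
  constructor
  · intro hab x
    have h1 : ∀ z, (a⁻¹).1 z ∈ B ↔ (b⁻¹).1 z ∈ B := by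
      intro z
      rw [← mem_imgB, ← mem_imgB, hab]
    have h2 := h1 (b.1 x)
    have h3 : (b⁻¹).1 (b.1 x) = x := b.1.symm_apply_apply x
    rw [h3] at h2
    exact h2.symm
  · intro hmem
    ext z
    rw [mem_imgB, mem_imgB]
    have h1 := hmem ((b⁻¹).1 z)
    have h2 : (a⁻¹ * b).1 ((b⁻¹).1 z) = (a⁻¹).1 z := by
      show (a⁻¹).1 (b.1 ((b⁻¹).1 z)) = _
      rw [show b.1 ((b⁻¹).1 z) = z from b.1.apply_symm_apply z]
    rw [h2] at h1
    exact h1.symm

/-- The number of images of `B` is the index of the stabilizer. -/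
theorem card_range_imgB [Finite (suGroup h)] (B : AddSubgroup V) :
    Nat.card (Set.range (imgB σ B : suGroup h → AddSubgroup V)) = (setStab h B).index := by
  have h1 := card_range_of_cosets (setStab h B) (imgB σ B : suGroup h → AddSubgroup V) imgB_eq_iff
  have h2 := Subgroup.index_mul_card (setStab h B)
  apply Nat.eq_of_mul_eq_mul_right (Nat.card_pos (α := setStab h B))
  rw [h1, h2]

end imgsec

/-- A double counting lemma. -/
theorem double_count {α β : Type*} [Finite α] [Finite β] (rel : α → β → Prop) (r s : ℕ)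
    (h1 : ∀ a, r ≤ Nat.card {b // rel a b}) (h2 : ∀ b, Nat.card {a // rel a b} ≤ s) :
    Nat.card α * r ≤ Nat.card β * s := by
  classical
  haveI := Fintype.ofFinite α
  haveI := Fintype.ofFinite β
  have key := Finset.sum_card_bipartiteAbove_eq_sum_card_bipartiteBelow (s := (Finset.univ : Finset α))
    (t := (Finset.univ : Finset β)) rel
  have h3 : ∀ a : α, r ≤ (Finset.bipartiteAbove rel Finset.univ a).card := by
    intro a
    refine (h1 a).trans (le_of_eq ?_)
    rw [Nat.card_eq_fintype_card, Fintype.card_subtype]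
    rfl
  have h4 : ∀ b : β, (Finset.bipartiteBelow rel Finset.univ b).card ≤ s := by
    intro b
    refine le_trans (le_of_eq ?_) (h2 b)
    rw [Nat.card_eq_fintype_card, Fintype.card_subtype]
    rfl
  rw [Nat.card_eq_fintype_card, Nat.card_eq_fintype_card, ← Finset.card_univ, ← Finset.card_univ]
  calc Finset.univ.card * r = ∑ a ∈ (Finset.univ : Finset α), r := by simp
    _ ≤ ∑ a ∈ (Finset.univ : Finset α), (Finset.bipartiteAbove rel Finset.univ a).card :=
        Finset.sum_le_sum fun a _ => h3 a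
    _ = ∑ b ∈ (Finset.univ : Finset β), (Finset.bipartiteBelow rel Finset.univ b).card := key
    _ ≤ ∑ b ∈ (Finset.univ : Finset β), s := Finset.sum_le_sum fun b _ => h4 b
    _ = Finset.univ.card * s := by simp

/-- The numerical inequalities. -/
theorem num_five_a (q : ℕ) (hq : 2 ≤ q) : (q ^ 5 + 1) * (q ^ 2 + 1) ≤ 2 * ((q ^ 3 + 1) * q ^ 4) := by
  have h1 : q ^ 5 * 4 ≤ q ^ 7 := by
    have : q ^ 7 = q ^ 5 * (q * q) := by ring
    rw [this]
    exact Nat.mul_le_mul_left _ (by nlinarith)
  have h2 : q ^ 2 * 4 ≤ q ^ 4 := by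
    have : q ^ 4 = q ^ 2 * (q * q) := by ring
    rw [this]
    exact Nat.mul_le_mul_left _ (by nlinarith)
  have h3 : 4 ≤ q ^ 2 := by nlinarith
  nlinarith

theorem num_five_b (q : ℕ) (hq : 2 ≤ q) :
    (q ^ 5 + 1) * (q ^ 2 + 1) * (q ^ 3 - 1) ≤ 2 * q ^ 5 * ((q ^ 3 + 1) * (q ^ 2 - 1)) := by
  have hq1 : 1 ≤ q ^ 3 := Nat.one_le_pow _ _ (by omega)
  have hq2 : 1 ≤ q ^ 2 := Nat.one_le_pow _ _ (by omega)
  zify [hq1, hq2]
  have hQ : (2 : ℤ) ≤ q := by exact_mod_cast hq
  generalize (q : ℤ) = Q at hQ ⊢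
  have h1 : 0 ≤ Q ^ 8 * (Q ^ 2 - 4) := mul_nonneg (by positivity) (by nlinarith)
  have h2 : 0 ≤ Q ^ 5 * (Q ^ 3 - 2) := mul_nonneg (by positivity) (by nlinarith [pow_pos (show (0:ℤ) < Q by omega) 2])
  have h3 : 0 ≤ Q ^ 2 * (Q ^ 5 - Q) := mul_nonneg (by positivity) (by nlinarith [pow_pos (show (0:ℤ) < Q by omega) 3, pow_pos (show (0:ℤ) < Q by omega) 4])
  nlinarith [pow_pos (show (0:ℤ) < Q by omega) 8, pow_pos (show (0:ℤ) < Q by omega) 7, pow_pos (show (0:ℤ) < Q by omega) 2]

theorem num_five_c (q : ℕ) (hq : 2 ≤ q) :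
    (q + 1) * ((q ^ 5 + 1) * (q ^ 2 + 1)) * q ^ 3 ≤ (q ^ 3 + 1) * q ^ 9 := by
  zify
  have hQ : (2 : ℤ) ≤ q := by exact_mod_cast hq
  generalize (q : ℤ) = Q at hQ ⊢
  have h0 : 0 ≤ (Q + 1) * Q ^ 3 * (Q ^ 7 * (Q - 2)) := by
    apply mul_nonneg (mul_nonneg (by omega) (by positivity))
    exact mul_nonneg (by positivity) (by omega)
  have h1 : 0 ≤ Q ^ 3 * ((Q + 1) * (Q ^ 6 - Q ^ 5 - Q ^ 2 - 1)) := by
    apply mul_nonneg (by positivity)
    apply mul_nonneg (by omega)
    have h2 : Q ^ 5 * 2 ≤ Q ^ 6 := by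
      have : Q ^ 6 = Q ^ 5 * Q := by ring
      rw [this]
      exact mul_le_mul_of_nonneg_left hQ (by positivity)
    have h3 : Q ^ 2 * 8 ≤ Q ^ 5 := by
      have h4 : 8 ≤ Q ^ 3 := by nlinarith [sq_nonneg Q]
      have : Q ^ 5 = Q ^ 2 * Q ^ 3 := by ring
      rw [this]
      exact mul_le_mul_of_nonneg_left h4 (by positivity)
    nlinarith
  have e : (Q ^ 3 + 1) * Q ^ 9 - (Q + 1) * ((Q ^ 5 + 1) * (Q ^ 2 + 1)) * Q ^ 3 =
      (Q + 1) * Q ^ 3 * (Q ^ 7 * (Q - 2)) + Q ^ 3 * ((Q + 1) * (Q ^ 6 - Q ^ 5 - Q ^ 2 - 1)) := by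
    ring
  linarith

theorem num_five_d (q : ℕ) (hq : 2 ≤ q) :
    (q ^ 5 + 1) * (q ^ 2 + 1) * (q ^ 2 * (q ^ 2 - 1)) ≤ (q ^ 3 + 1) * q ^ 2 * q ^ 7 := by
  have hq2 : 1 ≤ q ^ 2 := Nat.one_le_pow _ _ (by omega)
  zify [hq2]
  have hQ : (2 : ℤ) ≤ q := by exact_mod_cast hq
  generalize (q : ℤ) = Q at hQ ⊢
  have h1 : 0 ≤ Q ^ 2 * (Q ^ 10 + Q ^ 7 - (Q ^ 9 + Q ^ 4 - Q ^ 5 - 1)) := by
    apply mul_nonneg (by positivity)
    have h2 : 0 ≤ Q ^ 9 * (Q - 1) := mul_nonneg (by positivity) (by omega)
    have h3 : 0 ≤ Q ^ 4 * (Q - 1) := mul_nonneg (by positivity) (by omega)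
    nlinarith [pow_pos (show (0:ℤ) < Q by omega) 7]
  nlinarith


/-- Index at least twice that of a strictly larger subgroup. -/
theorem two_mul_index_le {G : Type*} [Group G] [Finite G] {N M : Subgroup G} (hle : N ≤ M)
    (hne : N ≠ M) : 2 * M.index ≤ N.index := by
  have h1 := Subgroup.relIndex_mul_index hle
  have h2 : N.relIndex M ≠ 1 := by
    intro h3
    rw [Subgroup.relIndex_eq_one] at h3
    exact hne (le_antisymm hle h3)
  have h3 : N.relIndex M ≠ 0 := by
    intro h4
    rw [h4, zero_mul] at h1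
    exact Subgroup.index_ne_zero_of_finite h1.symm
  rw [← h1]
  exact Nat.mul_le_mul_right _ (by omega)

section three

variable [Finite F] [FiniteDimensional F V] (S : HForm σ h) (hσ : Invol σ)

include S hσ

/-- In dimension three there are no totally isotropic lines. -/
theorem no_ti (hfr : finrank F V = 3) {a b : V} (ha0 : a ≠ 0) (haa : h a a = 0) (hbb : h b b = 0)
    (hba : h b a = 0) : ∃ r : F, b = r • a := by
  obtain ⟨f, hff, hfa⟩ := S.exists_partner hσ ha0 haa
  have H : IsHP h a f := ⟨haa, hff, hfa⟩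
  have hfr1 := finrank_perp2 S H
  have haf := H.ef S
  set w := b - h b f • a with hw
  have hwp : w ∈ perp2 S a f := by
    constructor
    · rw [hw, S.sub_left, S.smul_left, hba, haa]
      ring
    · rw [hw, S.sub_left, S.smul_left, haf]
      ring
  have hww : h w w = 0 := by
    have haw : h a w = 0 := S.zero_symm hwp.1
    rw [hw, S.sub_left, S.sub_right, S.sub_right, S.smul_left, S.smul_left, S.smul_right,
      S.smul_right, hbb, hba, S.zero_symm hba, haa]
    ring
  refine ⟨h b f, ?_⟩
  by_cases hw0 : w = 0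
  · exact sub_eq_zero.1 hw0
  · exfalso
    have hwW : (⟨w, hwp⟩ : perp2 S a f) ≠ 0 := fun h0 => hw0 (congrArg Subtype.val h0)
    obtain ⟨c, hcc, hcw⟩ := (restrict S H).exists_partner hσ hwW hww
    have H' : IsHP (fun u v : perp2 S a f => h u v) ⟨w, hwp⟩ c := ⟨hww, hcc, hcw⟩
    have := finrank_perp2 (restrict S H) H'
    omega

/-- In dimension three the set of root points is closed under lines. -/
theorem rootSet_lineClosed3 (hfr : finrank F V = 3) (K : Subgroup (suGroup h)) :
    LineClosed h (rootSet S hσ K) := by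
  intro a ha b hb α β hne hN
  by_cases hα : α = 0
  · rw [hα, zero_smul, zero_add] at hne hN ⊢
    have hβ : β ≠ 0 := by
      rintro rfl
      exact hne (zero_smul _ _)
    exact rootSet_smul S hσ hb hβ
  by_cases hβ : β = 0
  · rw [hβ, zero_smul, add_zero] at hne hN ⊢
    exact rootSet_smul S hσ ha hα
  have ha' := rootSet_smul S hσ ha hα
  have hb' := rootSet_smul S hσ hb hβ
  set a' := α • a with ha'def
  set b' := β • b with hb'def
  obtain ⟨ha0, haa, hale⟩ := id ha'
  obtain ⟨hb0, hbb, hble⟩ := id hb'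
  by_cases hab : h a' b' = 0
  · obtain ⟨r, hr⟩ := no_ti S hσ hfr ha0 haa hbb (S.zero_symm hab)
    have h1 : a' + b' = (1 + r) • a' := by rw [hr, add_smul, one_smul]
    rw [h1] at hne ⊢
    exact rootSet_smul S hσ ha' (fun h0 => hne (by rw [h0, zero_smul]))
  · have hσab : σ (h a' b') = h b' a' := S.conj' a' b'
    have htr : h a' b' + h b' a' = 0 := by
      have : h (a' + b') (a' + b') = 0 := hN
      simp only [S.add_left, S.add_right, haa, hbb] at this
      linear_combination this
    set η := h a' b' with hη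
    have hη0 : σ η ≠ 0 := by simpa using hab
    have hs : η⁻¹ + σ η⁻¹ = 0 := by
      rw [map_inv₀, hσab]
      have h1 : h b' a' = -η := by linear_combination htr
      rw [h1]
      field_simp
      ring
    obtain ⟨τ, Eτ, hτ⟩ := exists_tau S hσ hbb hs
    have hτK : τ ∈ K := hble ⟨_, Eτ⟩
    have h1 := rootSet_conj S hσ ha' hτK
    rw [hτ, ← hη, inv_mul_cancel₀ hab, one_smul] at h1
    exact h1

end three

section frob

variable [Fintype F] [FiniteDimensional F V] {q : ℕ} (hF : Fintype.card F = q ^ 2)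
variable (S : HForm (frobHom hF) h)

include S

/-- The incidence bound with the number of images. -/
theorem incidence_su (B : AddSubgroup V) (P : V → Prop) (hP0 : ∀ z, P z → z ≠ 0)
    (hPg : ∀ (g : suGroup h) z, P (g.1 z) → P z) {T : Set V}
    (hT : ∀ z ∈ T, P z ∧ ∃ g : suGroup h, z ∈ imgB (frobHom hF) B g) :
    Nat.card T + Nat.card T * 0 ≤ (setStab h B).index * (Nat.card B - 1) := by
  have hσ := invol_frob' hF S
  haveI : Finite F := Finite.of_fintype F
  haveI : Finite V := Module.finite_of_finite F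
  haveI : Finite (suGroup h) := finite_su
  have h1 := incidence hσ B (fun _ : suGroup h => (1 : F)) id (fun _ => one_ne_zero) P
    (fun g x hx => hPg g x (by simpa using hx)) (T := T) hT
  have h2 : famB (σ := frobHom hF) B (fun _ : suGroup h => (1 : F)) id =
      Set.range (imgB (frobHom hF) B : suGroup h → AddSubgroup V) := rfl
  rw [h2, card_range_imgB] at h1
  have h3 := card_sub_nonzero_add_one_le B P hP0
  rw [mul_zero, add_zero]
  exact h1.trans (Nat.mul_le_mul_left _ (by omega))

/-- The case where all isotropic vectors are root points. -/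
theorem full_case (hfr : finrank F V = 3) (B : AddSubgroup V) {x : V} (hxB : x ∈ B) (hx0 : x ≠ 0)
    (hxx : h x x = 0)
    (hall : ∀ z, z ≠ 0 → h z z = 0 → z ∈ rootSet S (invol_frob' hF S) (setStab h B)) :
    q ^ 3 * (q - 1) + 1 ≤ Nat.card B := by
  classical
  have hσ := invol_frob' hF S
  haveI : Finite F := Finite.of_fintype F
  haveI : Finite V := Module.finite_of_finite F
  haveI : Finite (suGroup h) := finite_su
  have hq := two_le_q hF S
  obtain ⟨f, hff, hfx⟩ := S.exists_partner hσ hx0 hxx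
  have H : IsHP h x f := ⟨hxx, hff, hfx⟩
  have hxf := H.ef S
  have hfr1 : finrank F (perp2 S x f) = 1 := by
    have := finrank_perp2 S H
    omega
  have hQ : Nat.card (radQ S hσ x H.ee) = q ^ 3 := by
    rw [card_radQ S hσ H, Aof_top, card_Bof_top S hσ H, card_pure_frob hF S,
      card_perp_frob hF S H 1 hfr1]
    ring
  have hU : Nat.card (fqU (frobHom hF)) = q - 1 := by
    have := card_fqU_add_one hσ
    rw [card_pure_frob hF S] at this
    omega
  obtain ⟨c₀, hc₀0, hc₀⟩ := hσ.exists_pure
  -- the map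
  have hfix : ∀ g : radQ S hσ x H.ee, (g : suGroup h).1 x = x := by
    rintro ⟨g, w, a, E⟩
    exact E.apply_center S
  have hmem : ∀ (g : radQ S hσ x H.ee) (u : fqU (frobHom hF)),
      (c₀ * ((u.1 : Fˣ) : F)) • (g : suGroup h).1 f ∈ B ∧
        (c₀ * ((u.1 : Fˣ) : F)) • (g : suGroup h).1 f ≠ 0 := by
    intro g u
    have hu0 : ((u.1 : Fˣ) : F) ≠ 0 := Units.ne_zero _
    have hne : c₀ * ((u.1 : Fˣ) : F) ≠ 0 := mul_ne_zero hc₀0 hu0
    have hgf0 : (g : suGroup h).1 f ≠ 0 := by
      simpa using H.ne_right S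
    refine ⟨?_, smul_ne_zero hne hgf0⟩
    have hgu := (mem_suGroup.1 (g : suGroup h).2).1
    have hzz : h ((g : suGroup h).1 f) ((g : suGroup h).1 f) = 0 := by rw [hgu, hff]
    have hs : c₀ * ((u.1 : Fˣ) : F) + frobHom hF (c₀ * ((u.1 : Fˣ) : F)) = 0 := by
      have hu' : frobHom hF ((u.1 : Fˣ) : F) = ((u.1 : Fˣ) : F) := u.2
      rw [map_mul, hu']
      linear_combination ((u.1 : Fˣ) : F) * hc₀
    obtain ⟨τ, Eτ, hτ⟩ := exists_tau S hσ hzz hs
    obtain ⟨-, hvv, hle⟩ := hall _ hgf0 hzz
    have hτN : τ ∈ setStab h B := hle ⟨_, Eτ⟩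
    have h1 := (hτN x).1 hxB
    rw [hτ] at h1
    have h2 : h x ((g : suGroup h).1 f) = 1 := by
      have h3 := hgu x f
      rw [hfix g, hxf] at h3
      exact h3
    rw [h2, mul_one] at h1
    have h4 := B.sub_mem h1 hxB
    rwa [add_sub_cancel_left] at h4
  let φ : radQ S hσ x H.ee × fqU (frobHom hF) → {y // y ∈ B ∧ y ≠ 0} := fun p =>
    ⟨_, hmem p.1 p.2⟩
  have hφ : Function.Injective φ := by
    rintro ⟨g, u⟩ ⟨g', u'⟩ hp
    have h1 : (c₀ * ((u.1 : Fˣ) : F)) • (g : suGroup h).1 f =
        (c₀ * ((u'.1 : Fˣ) : F)) • (g' : suGroup h).1 f := congrArg Subtype.val hp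
    have hval : ∀ g : radQ S hσ x H.ee, h ((g : suGroup h).1 f) x = 1 := by
      intro g
      have h3 := (mem_suGroup.1 (g : suGroup h).2).1 f x
      rw [hfix g, hfx] at h3
      exact h3
    have h2 := congrArg (fun y => h y x) h1
    simp only [S.smul_left, hval, mul_one] at h2
    have hc : ((u.1 : Fˣ) : F) = ((u'.1 : Fˣ) : F) := mul_left_cancel₀ hc₀0 h2
    have huu : u = u' := Subtype.ext (Units.ext hc)
    subst huu
    have hne : c₀ * ((u.1 : Fˣ) : F) ≠ 0 := mul_ne_zero hc₀0 (Units.ne_zero _)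
    have h3 : (g : suGroup h).1 f = (g' : suGroup h).1 f := smul_right_injective V hne h1
    have E := exists_normal_params S hσ H g.2
    have E' := exists_normal_params S hσ H g'.2
    rw [← h3] at E'
    have h4 := eich_eq_of_params E E'
    have h5 : g = g' := Subtype.ext (Subtype.ext h4)
    rw [h5]
  have h1 := Nat.card_le_card_of_injective φ hφ
  rw [Nat.card_prod, hQ, hU] at h1
  have h2 := card_sub_nonzero_add_one_le B (fun y => y ≠ 0) (fun _ hy => hy)
  omega

theorem count_sing_3 (hfr : finrank F V = 3) :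
    Nat.card {x : V // x ≠ 0 ∧ h x x = 0} = (q ^ 3 + 1) * (q ^ 2 - 1) := by
  have hq := two_le_q hF S
  have h1 := card_sing_vectors hF S 2 (by rw [hfr])
  have h2 : (((q ^ 3 + 1) * (q ^ 2 - 1) : ℕ) : ℤ) =
      ((q : ℤ) ^ (2 + 1) - (-1) ^ (2 + 1)) * ((q : ℤ) ^ 2 - (-1) ^ 2) := by
    have hq2 : 1 ≤ q ^ 2 := Nat.one_le_pow _ _ (by omega)
    push_cast [Nat.cast_sub hq2]
    ring
  exact_mod_cast h1.trans h2.symm

/-- The counting when a root group at an isotropic vector of `B` is not in the stabilizer. -/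
theorem rlemma (hfr : finrank F V = 3) (B : AddSubgroup V) {x : V} (hxB : x ∈ B) (hx0 : x ≠ 0)
    (hxx : h x x = 0) (hX : ¬ rootX S (invol_frob' hF S) x hxx ≤ setStab h B) :
    (q ^ 3 + 1) * (q ^ 2 - 1) * (2 * q) ≤ (setStab h B).index * (Nat.card B - 1) := by
  classical
  have hσ := invol_frob' hF S
  haveI : Finite F := Finite.of_fintype F
  haveI : Finite V := Module.finite_of_finite F
  haveI : Finite (suGroup h) := finite_su
  haveI : Finite (AddSubgroup V) :=
    Finite.of_injective (fun H : AddSubgroup V => (H : Set V)) SetLike.coe_injective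
  have hq := two_le_q hF S
  have hdc := double_count
    (α := {z : V // z ≠ 0 ∧ h z z = 0})
    (β := Set.range (imgB (frobHom hF) B : suGroup h → AddSubgroup V))
    (fun u B' => u.1 ∈ B'.1) (2 * q) (Nat.card B - 1) ?_ ?_
  · rw [count_sing_3 hF S hfr, card_range_imgB] at hdc
    exact hdc
  · -- each vector lies in many images
    rintro ⟨u, hu0, huu⟩
    obtain ⟨g, hg⟩ := exists_su_map S hσ (by omega) hx0 hu0 hxx huu
    obtain ⟨f, hff, hfu⟩ := S.exists_partner hσ hu0 huu
    have H : IsHP h u f := ⟨huu, hff, hfu⟩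
    have hfr1 : finrank F (perp2 S u f) = 1 := by
      have := finrank_perp2 S H
      omega
    set L := cj g (setStab h B) with hL
    have hA : Aof S hσ u H.ee L ≠ pureF (frobHom hF) := by
      intro hA
      have h1 := (rootX_le_iff S hσ H.ee L).2 hA
      have h2 := rootX_of_cj S hσ hu0 H.ee h1
      have h3 : (g⁻¹).1 u = x := by
        rw [← hg]
        exact g.1.symm_apply_apply x
      rw [h3] at h2
      obtain ⟨-, hvv, hle⟩ := h2
      exact hX hle
    have h5 := index_formula S hσ H L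
    rw [Aof_top, card_Bof_top S hσ H, card_pure_frob hF S, card_perp_frob hF S H 1 hfr1] at h5
    have h6 := two_card_Aof_le hF S H L hA
    have h7 : Nat.card (Bof S hσ H L) ≤ q := by
      have h8 := card_Bof_sq_le S hσ H L hA
      rw [card_perp_frob hF S H 1 hfr1] at h8
      by_contra hc
      push Not at hc
      have h9 : q * q < Nat.card (Bof S hσ H L) * Nat.card (Bof S hσ H L) := Nat.mul_lt_mul'' hc hc
      have h10 : q * q = q ^ (2 * 1) := by ring
      omega
    set idx := (L.subgroupOf (radQ S hσ u H.ee)).index with hidx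
    have hidx2 : 2 * q ≤ idx := by
      have hq2 : 0 < q * q := by positivity
      apply Nat.le_of_mul_le_mul_right _ hq2
      calc 2 * q * (q * q) = 2 * (q * q ^ (2 * 1)) := by ring
        _ = 2 * (idx * (Nat.card (Aof S hσ u H.ee L) * Nat.card (Bof S hσ H L))) := by rw [h5]
        _ = idx * ((2 * Nat.card (Aof S hσ u H.ee L)) * Nat.card (Bof S hσ H L)) := by ring
        _ ≤ idx * (q * q) := Nat.mul_le_mul_left _ (Nat.mul_le_mul h6 h7)
    refine hidx2.trans ?_
    rw [hidx, Subgroup.index_eq_card]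
    refine Nat.card_le_card_of_injective
      (fun ξ => ⟨⟨imgB (frobHom hF) B ((Quotient.out ξ : radQ S hσ u H.ee).1 * g), _, rfl⟩, ?_⟩) ?_
    · show u ∈ imgB (frobHom hF) B ((Quotient.out ξ : radQ S hσ u H.ee).1 * g)
      rw [mem_imgB]
      set r := (Quotient.out ξ : radQ S hσ u H.ee) with hr
      have hfix : (r.1⁻¹).1 u = u := by
        obtain ⟨w, a, E⟩ := r.1⁻¹.2 |> fun _ => (radQ S hσ u H.ee).inv_mem r.2
        exact E.apply_center S
      have h1 : ((r.1 * g)⁻¹).1 u = (g⁻¹).1 ((r.1⁻¹).1 u) := rfl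
      rw [h1, hfix]
      have h3 : (g⁻¹).1 u = x := by
        rw [← hg]
        exact g.1.symm_apply_apply x
      rw [h3]
      exact hxB
    · intro ξ ξ' hξ
      have h1 : imgB (frobHom hF) B ((Quotient.out ξ : radQ S hσ u H.ee).1 * g) =
          imgB (frobHom hF) B ((Quotient.out ξ' : radQ S hσ u H.ee).1 * g) :=
        congrArg (fun w : {b : Set.range (imgB (frobHom hF) B : suGroup h → AddSubgroup V) // u ∈ b.1} => w.1.1) hξ
      rw [imgB_eq_iff] at h1
      set r := (Quotient.out ξ : radQ S hσ u H.ee) with hr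
      set r' := (Quotient.out ξ' : radQ S hσ u H.ee) with hr'
      have hmem : r⁻¹ * r' ∈ L.subgroupOf (radQ S hσ u H.ee) := by
        rw [Subgroup.mem_subgroupOf, hL, mem_cj]
        have h2 : g⁻¹ * ((r⁻¹ * r' : radQ S hσ u H.ee) : suGroup h) * g = (r.1 * g)⁻¹ * (r'.1 * g) := by
          push_cast
          group
        rw [h2]
        exact h1
      have h3 : (QuotientGroup.mk r : radQ S hσ u H.ee ⧸ L.subgroupOf (radQ S hσ u H.ee)) = QuotientGroup.mk r' :=
        QuotientGroup.eq.2 hmem
      rwa [hr, hr', QuotientGroup.out_eq', QuotientGroup.out_eq'] at h3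
  · -- each image contains few vectors
    rintro ⟨B', g, rfl⟩
    have h1 := card_sub_nonzero_add_one_le B (fun y => y ≠ 0) (fun _ hy => hy)
    have h2 : Nat.card {a : {z : V // z ≠ 0 ∧ h z z = 0} // a.1 ∈ imgB (frobHom hF) B g} ≤
        Nat.card {y // y ∈ B ∧ y ≠ 0} := by
      refine Nat.card_le_card_of_injective
        (fun a => ⟨(g⁻¹).1 a.1.1, mem_imgB.1 a.2, by simpa using a.1.2.1⟩) ?_
      intro a a' haa
      have h3 : (g⁻¹).1 a.1.1 = (g⁻¹).1 a'.1.1 := congrArg Subtype.val haa
      exact Subtype.ext (Subtype.ext ((g⁻¹).1.injective h3))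
    exact h2.trans (by omega)

/-- The stabilizer of `B` cannot be the full point stabilizer when `|B| = q³`. -/
theorem not_stab_eq (hfr : finrank F V = 3) (B : AddSubgroup V) {x : V} (hxB : x ∈ B) (hx0 : x ≠ 0)
    (hxx : h x x = 0) (hb : Nat.card B = q ^ 3)
    (hN : setStab h B = stabSub h (Submodule.span F {x})) : False := by
  classical
  have hσ := invol_frob' hF S
  haveI : Finite F := Finite.of_fintype F
  haveI : Finite V := Module.finite_of_finite F
  haveI : Finite (suGroup h) := finite_su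
  have hq := two_le_q hF S
  obtain ⟨f, hff, hfx⟩ := S.exists_partner hσ hx0 hxx
  have H : IsHP h x f := ⟨hxx, hff, hfx⟩
  have hxf := H.ef S
  have hfr1 : finrank F (perp2 S x f) = 1 := by
    have := finrank_perp2 S H
    omega
  have hQ : Nat.card (radQ S hσ x H.ee) = q ^ 3 := by
    rw [card_radQ S hσ H, Aof_top, card_Bof_top S hσ H, card_pure_frob hF S,
      card_perp_frob hF S H 1 hfr1]
    ring
  -- elements of the radical stabilize `B`
  have hQN : ∀ g : suGroup h, g.1 x = x → g ∈ setStab h B := by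
    intro g hg
    rw [hN]
    apply mem_stabSub_of_forall
    intro y hy
    obtain ⟨c, rfl⟩ := Submodule.mem_span_singleton.1 hy
    rw [map_smul, hg]
    exact hy
  by_cases hz : ∃ z ∈ B, h z x ≠ 0
  · obtain ⟨z, hzB, hzx⟩ := hz
    have hfix : ∀ g : radQ S hσ x H.ee, (g : suGroup h).1 x = x := by
      rintro ⟨g, w, a, E⟩
      exact E.apply_center S
    have hval : ∀ g : radQ S hσ x H.ee, h ((g : suGroup h).1 z) x = h z x := by
      intro g
      have h3 := (mem_suGroup.1 (g : suGroup h).2).1 z x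
      rw [hfix g] at h3
      exact h3
    let φ : radQ S hσ x H.ee → {y // y ∈ B ∧ h y x = h z x} := fun g =>
      ⟨(g : suGroup h).1 z, (hQN _ (hfix g) z).1 hzB, hval g⟩
    have hφ : Function.Injective φ := by
      intro g g' hgg
      have h1 : (g : suGroup h).1 z = (g' : suGroup h).1 z := congrArg Subtype.val hgg
      have E := exists_normal_params S hσ H g.2
      have E' := exists_normal_params S hσ H g'.2
      set w := proj x f ((g : suGroup h).1 f) h with hw
      set a := h ((g : suGroup h).1 f) f with ha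
      set w' := proj x f ((g' : suGroup h).1 f) h with hw'
      set a' := h ((g' : suGroup h).1 f) f with ha'
      have hwp : w ∈ perp2 S x f := proj_mem S H _
      have hwp' : w' ∈ perp2 S x f := proj_mem S H _
      rw [E.apply, E'.apply] at h1
      have hww : w = w' := by
        have h2 : w - w' = 0 := by
          apply perp2_nd S H _ ((perp2 S x f).sub_mem hwp hwp')
          intro v hv
          have h3 := congrArg (fun y => h y v) h1
          have hxv : h x v = 0 := S.zero_symm hv.1
          simp only [S.add_left, S.sub_left, S.smul_left, hxv, mul_zero, sub_zero, add_zero] at h3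
          have h4 : h z x * h w v = h z x * h w' v := by linear_combination h3
          have h5 := mul_left_cancel₀ hzx h4
          rw [S.sub_left, h5, sub_self]
        exact sub_eq_zero.1 h2
      have haa : a = a' := by
        rw [← hww] at h1
        have h2 : (a * h z x) • x = (a' * h z x) • x := by
          have h3 := add_left_cancel h1
          exact h3
        have h3 := smul_left_injective F hx0 h2
        exact mul_right_cancel₀ hzx h3
      rw [← hww, ← haa] at E'
      have h6 := eich_eq_of_params E E'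
      exact Subtype.ext (Subtype.ext h6)
    have h1 := Nat.card_le_card_of_injective φ hφ
    have h2 := card_sub_nonzero_add_one_le B (fun y => h y x = h z x) (by
      rintro y hy rfl
      rw [S.zero_left] at hy
      exact hzx hy.symm)
    rw [hQ] at h1
    omega
  · push Not at hz
    -- `B` does not lie on the point
    have hex : ∃ z₁ ∈ B, ∀ c : F, z₁ ≠ c • x := by
      by_contra hc
      push Not at hc
      choose lam hlam using fun y : B => hc y.1 y.2
      have hinj : Function.Injective lam := by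
        intro u v huv
        apply Subtype.ext
        rw [hlam u, hlam v, huv]
      have h1 := Nat.card_le_card_of_injective lam hinj
      rw [hb, card_F_frob hF S] at h1
      have h2 : q ^ 2 < q ^ 3 := Nat.pow_lt_pow_right (by omega) (by norm_num)
      omega
    obtain ⟨z₁, hz₁B, hz₁⟩ := hex
    set c₁ := h z₁ f with hc₁
    set w₁ := z₁ - c₁ • x with hw₁
    have hz₁x : h z₁ x = 0 := hz z₁ hz₁B
    have hw₁p : w₁ ∈ perp2 S x f := by
      constructor
      · rw [hw₁, S.sub_left, S.smul_left, hz₁x, hxx]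
        ring
      · rw [hw₁, S.sub_left, S.smul_left, hxf, ← hc₁]
        ring
    have hw₁0 : w₁ ≠ 0 := fun h0 => hz₁ c₁ (sub_eq_zero.1 h0)
    have hw₁w₁ : h w₁ w₁ ≠ 0 := by
      intro h0
      obtain ⟨r, hr⟩ := no_ti S hσ hfr hx0 hxx h0 hw₁p.1
      have h2 := hw₁p.2
      rw [hr, S.smul_left, hxf, mul_one] at h2
      rw [h2, zero_smul] at hr
      exact hw₁0 hr
    have hxw₁ : h x w₁ = 0 := S.zero_symm hw₁p.1
    have hz₁dec : z₁ = w₁ + c₁ • x := by
      rw [hw₁]
      abel
    have hz₁w₁ : h z₁ w₁ = h w₁ w₁ := by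
      calc h z₁ w₁ = h (w₁ + c₁ • x) w₁ := by rw [← hz₁dec]
        _ = h w₁ w₁ := by rw [S.add_left, S.smul_left, hxw₁, mul_zero, add_zero]
    -- the point lies in `B`
    have hline : ∀ c : F, c • x ∈ B := by
      intro c
      set γ := frobHom hF (-c / h w₁ w₁) with hγ
      have hw' : γ • w₁ ∈ perp2 S x f := (perp2 S x f).smul_mem _ hw₁p
      obtain ⟨a, ha⟩ := hσ.exists_trace (- h (γ • w₁) (γ • w₁)) (by rw [map_neg, S.self_fix])
      have hha : a + frobHom hF a + h (γ • w₁) (γ • w₁) = 0 := by rw [ha]; ring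
      obtain ⟨g, E⟩ := exists_eichAt S hxx hw'.1 hha
      have hgx : g x = x := E.apply_center S
      have h1 : g z₁ ∈ B := (hQN ⟨g, E.mem_suGroup S⟩ hgx z₁).1 hz₁B
      have h2 : h z₁ (γ • w₁) = -c := by
        rw [S.smul_right, hz₁w₁, hγ, hσ.invol]
        field_simp
      have h3 : g z₁ = z₁ + c • x := by
        rw [E.apply, hz₁x, h2]
        simp only [zero_smul, add_zero, mul_zero, neg_smul, sub_neg_eq_add]
      have h4 := B.sub_mem h1 hz₁B
      rwa [h3, add_sub_cancel_left] at h4
    -- the torus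
    have htorus : ∀ ζ : F, ζ ^ (q + 1) = 1 → ζ • w₁ ∈ B := by
      intro ζ hζ
      have hnζ : ζ * frobHom hF ζ = 1 := by
        rw [frobHom_apply, ← pow_succ']
        exact hζ
      have hζ0 : ζ ≠ 0 := by
        rintro rfl
        simp at hnζ
      have hsζ : frobHom hF ζ ≠ 0 := (map_ne_zero _).2 hζ0
      have hζi : ζ⁻¹ * frobHom hF ζ⁻¹ = 1 := by
        rw [map_inv₀]
        field_simp
        linear_combination -hnζ
      obtain ⟨α, hα0, hα⟩ := exists_hilbert S hσ hζi
      obtain ⟨r, hr⟩ := exists_qrAt S hw₁w₁ hnζ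
      obtain ⟨d, hd⟩ := exists_dAt S hσ H hα0
      have hmem : d * r ∈ suGroup h := by
        rw [mem_suGroup]
        refine ⟨mul_mem (hd.mem_uGroup S hσ) (hr.mem_uGroup S), ?_⟩
        rw [dt_mul, hd.det S, hr.det S, ← hα]
        field_simp
      have hgx : (d * r) x = α • x := by
        show d (r x) = _
        rw [hr.apply_orth hxw₁, hd.apply_left S]
      have hgN : (⟨d * r, hmem⟩ : suGroup h) ∈ setStab h B := by
        rw [hN]
        apply mem_stabSub_of_forall
        intro y hy
        obtain ⟨c, rfl⟩ := Submodule.mem_span_singleton.1 hy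
        show (d * r) (c • x) ∈ _
        rw [map_smul, hgx, smul_smul]
        exact Submodule.smul_mem _ _ (Submodule.mem_span_singleton_self x)
      have h1 : (d * r) z₁ ∈ B := (hgN z₁).1 hz₁B
      have h2 : (d * r) z₁ = ζ • w₁ + (c₁ * α) • x := by
        show d (r z₁) = _
        have h3 : r z₁ = ζ • w₁ + c₁ • x := by
          rw [hr.apply, hz₁w₁, mul_div_assoc, div_self hw₁w₁, mul_one]
          nth_rewrite 1 [hz₁dec]
          module
        rw [h3, map_add, map_smul, map_smul, hd.apply_orth hw₁p.1 hw₁p.2, hd.apply_left S, smul_smul]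
      rw [h2] at h1
      have h3 := B.sub_mem h1 (hline (c₁ * α))
      rwa [add_sub_cancel_right] at h3
    -- the count
    let φ : {ζ : F // ζ ^ (q + 1) = 1} × F → B := fun p =>
      ⟨p.1.1 • w₁ + p.2 • x, B.add_mem (htorus _ p.1.2) (hline _)⟩
    have hφ : Function.Injective φ := by
      rintro ⟨ζ, c⟩ ⟨ζ', c'⟩ hp
      have h1 : ζ.1 • w₁ + c • x = ζ'.1 • w₁ + c' • x := congrArg Subtype.val hp
      have h2 := congrArg (fun y => h y w₁) h1
      simp only [S.add_left, S.smul_left, hxw₁, mul_zero, add_zero] at h2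
      have h3 : ζ.1 = ζ'.1 := mul_right_cancel₀ hw₁w₁ h2
      have h4 : ζ = ζ' := Subtype.ext h3
      subst h4
      have h5 := add_left_cancel h1
      have h6 : c = c' := smul_left_injective F hx0 h5
      rw [h6]
    have h1 := Nat.card_le_card_of_injective φ hφ
    have hone : (1 : F) ^ q = 1 := one_pow q
    rw [Nat.card_prod, card_norm_fiber hF 1 hone one_ne_zero, card_F_frob hF S, hb] at h1
    have hq0 : 0 < q ^ 2 := by positivity
    have h2 : (q + 1) * q ^ 2 = q ^ 3 + q ^ 2 := by ring
    omega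

/-- Vectors of a given non-zero norm. -/
theorem count_norm_class (hfr : finrank F V = 3) {ν : F} (hν : ν ≠ 0) (hνf : frobHom hF ν = ν) :
    (q ^ 3 + 1) * q ^ 2 ≤ Nat.card {z : V // z ≠ 0 ∧ h z z = ν} := by
  classical
  have hσ := invol_frob' hF S
  haveI : Finite F := Finite.of_fintype F
  haveI : Finite V := Module.finite_of_finite F
  have hq := two_le_q hF S
  have h1 := card_nonsing_vectors hF S 2 (by rw [hfr])
  have h2 : (((q ^ 3 + 1) * q ^ 2 * (q - 1) : ℕ) : ℤ) =
      (q : ℤ) ^ (2 * (2 + 1)) - 1 - ((q : ℤ) ^ (2 + 1) - (-1) ^ (2 + 1)) * ((q : ℤ) ^ 2 - (-1) ^ 2) := by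
    have hq1 : 1 ≤ q := by omega
    push_cast [Nat.cast_sub hq1]
    ring
  have h3 : Nat.card {x : V // x ≠ 0 ∧ h x x ≠ 0} = (q ^ 3 + 1) * q ^ 2 * (q - 1) := by
    exact_mod_cast h1.trans h2.symm
  have hU : Nat.card (fqU (frobHom hF)) = q - 1 := by
    have := card_fqU_add_one hσ
    rw [card_pure_frob hF S] at this
    omega
  -- scalars of a given norm
  have hl : ∀ u : fqU (frobHom hF), ∃ l : F, l * frobHom hF l = ((u.1 : Fˣ) : F) := fun u =>
    hσ.exists_norm _ (Units.ne_zero _) u.2
  choose l hl using hl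
  have hl0 : ∀ u, l u ≠ 0 := by
    intro u h0
    have := hl u
    rw [h0, zero_mul] at this
    exact Units.ne_zero _ this.symm
  have hsurj : Function.Surjective
      (fun p : {z : V // z ≠ 0 ∧ h z z = ν} × fqU (frobHom hF) =>
        (⟨l p.2 • p.1.1, smul_ne_zero (hl0 _) p.1.2.1, by
          rw [S.smul_left, S.smul_right, p.1.2.2]
          have := hl p.2
          have hsl : frobHom hF (l p.2) ≠ 0 := (map_ne_zero _).2 (hl0 _)
          exact mul_ne_zero (hl0 _) (mul_ne_zero hsl hν)⟩ : {x : V // x ≠ 0 ∧ h x x ≠ 0})) := by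
    rintro ⟨y, hy0, hyy⟩
    have hfix : frobHom hF (h y y / ν) = h y y / ν := by
      rw [map_div₀, S.self_fix, hνf]
    let u : fqU (frobHom hF) := ⟨Units.mk0 (h y y / ν) (div_ne_zero hyy hν), hfix⟩
    have hlu : l u * frobHom hF (l u) = h y y / ν := hl u
    have hl0u := hl0 u
    have hsl : frobHom hF (l u) ≠ 0 := (map_ne_zero _).2 hl0u
    refine ⟨(⟨(l u)⁻¹ • y, smul_ne_zero (inv_ne_zero hl0u) hy0, ?_⟩, u), ?_⟩
    · rw [S.smul_left, S.smul_right, map_inv₀]
      have h4 : (l u)⁻¹ * ((frobHom hF (l u))⁻¹ * h y y) =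
          h y y / (l u * frobHom hF (l u)) := by
        field_simp
      rw [h4, hlu]
      field_simp
    · apply Subtype.ext
      show l u • (l u)⁻¹ • y = y
      rw [smul_smul, mul_inv_cancel₀ hl0u, one_smul]
  have h5 := Nat.card_le_card_of_surjective _ hsurj
  rw [Nat.card_prod, hU, h3] at h5
  have hq1 : 0 < q - 1 := by omega
  exact Nat.le_of_mul_le_mul_right h5 hq1

/-- Additive subgroups of a `p`-group have `p`-power order. -/
theorem two_mul_le_cube (hq2 : 2 ≤ q) {b : ℕ} (hdvd : b ∣ q ^ 6) (hb : b ≤ q ^ 3) (hne : b ≠ q ^ 3) :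
    2 * b ≤ q ^ 3 := by
  classical
  obtain ⟨p, hp⟩ := CharP.exists F
  obtain ⟨n, hpp, hcard⟩ := FiniteField.card F p
  rw [hF] at hcard
  have hq : q ∣ p ^ (n : ℕ) := by
    rw [← hcard]
    exact dvd_pow_self q (by norm_num)
  obtain ⟨k, -, rfl⟩ := (Nat.dvd_prime_pow hpp).1 hq
  rw [← pow_mul] at hdvd hb hne ⊢
  obtain ⟨j, -, rfl⟩ := (Nat.dvd_prime_pow hpp).1 hdvd
  have hj : j < k * 3 := by
    have h5 : j ≤ k * 3 := (Nat.pow_le_pow_iff_right hpp.one_lt).1 hb
    rcases h5.lt_or_eq with h6 | h6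
    · exact h6
    · exact absurd (by rw [h6]) hne
  calc 2 * p ^ j ≤ p * p ^ j := Nat.mul_le_mul_right _ hpp.two_le
    _ = p ^ (j + 1) := by ring
    _ ≤ p ^ (k * 3) := Nat.pow_le_pow_right hpp.pos hj

/-- The main bound on stabilizers of additive subgroups in dimension three. -/
theorem stab_bound3 (hfr : finrank F V = 3) (B : AddSubgroup V) (hB0 : B ≠ ⊥)
    (hb : Nat.card B ≤ q ^ 3) :
    (q ^ 5 + 1) * (q ^ 2 + 1) * Nat.card B ≤ (setStab h B).index * q ^ 7 := by
  classical
  have hσ := invol_frob' hF S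
  haveI : Finite F := Finite.of_fintype F
  haveI : Finite V := Module.finite_of_finite F
  haveI : Finite (suGroup h) := finite_su
  have hq := two_le_q hF S
  set N := setStab h B with hN
  set c := N.index with hc
  set b := Nat.card B with hbdef
  have hq2 : 4 ≤ q ^ 2 := by nlinarith
  have hq3 : 8 ≤ q ^ 3 := by nlinarith
  have hb2 : 2 ≤ b := by
    haveI : Nontrivial B := (AddSubgroup.nontrivial_iff_ne_bot B).2 hB0
    exact Finite.one_lt_card
  by_cases hsing : ∃ x ∈ B, x ≠ 0 ∧ h x x = 0
  · obtain ⟨x, hxB, hx0, hxx⟩ := hsing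
    by_cases hX : rootX S hσ x hxx ≤ N
    · have hxr : x ∈ rootSet S hσ N := ⟨hx0, hxx, hX⟩
      by_cases hpt : ∀ z ∈ rootSet S hσ N, ∃ r : F, z = r • x
      · -- the stabilizer of the point
        have hle : N ≤ stabSub h (Submodule.span F {x}) := by
          intro g hg
          apply mem_stabSub_of_forall
          intro y hy
          obtain ⟨r, rfl⟩ := Submodule.mem_span_singleton.1 hy
          obtain ⟨r', hr'⟩ := hpt _ (rootSet_conj S hσ hxr hg)
          rw [map_smul, hr', smul_smul]
          exact Submodule.smul_mem _ _ (Submodule.mem_span_singleton_self x)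
        have hG : q ^ 3 + 1 ≤ (stabSub h (Submodule.span F {x})).index := by
          have h1 := index_sing_bound hF S 2 (by rw [hfr]) (by omega) hx0 hxx (le_refl _)
          have h2 : (((q ^ 2 - 1) * (q ^ 3 + 1) : ℕ) : ℤ) ≤
              (((q ^ 2 - 1) * (stabSub h (Submodule.span F {x})).index : ℕ) : ℤ) := by
            have hq1 : 1 ≤ q ^ 2 := by omega
            push_cast [Nat.cast_sub hq1] at h1 ⊢
            linarith
          have h3 : (q ^ 2 - 1) * (q ^ 3 + 1) ≤ (q ^ 2 - 1) * (stabSub h (Submodule.span F {x})).index := by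
            exact_mod_cast h2
          exact Nat.le_of_mul_le_mul_left h3 (by omega)
        have hnum := num_five_a q hq
        by_cases hb3 : b = q ^ 3
        · have hne : N ≠ stabSub h (Submodule.span F {x}) :=
            fun h0 => not_stab_eq hF S hfr B hxB hx0 hxx hb3 h0
          have h1 := two_mul_index_le hle hne
          rw [hb3]
          calc (q ^ 5 + 1) * (q ^ 2 + 1) * q ^ 3 ≤ (2 * ((q ^ 3 + 1) * q ^ 4)) * q ^ 3 :=
                Nat.mul_le_mul_right _ hnum
            _ = (2 * (q ^ 3 + 1)) * q ^ 7 := by ring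
            _ ≤ (2 * (stabSub h (Submodule.span F {x})).index) * q ^ 7 :=
                Nat.mul_le_mul_right _ (Nat.mul_le_mul_left _ hG)
            _ ≤ c * q ^ 7 := Nat.mul_le_mul_right _ h1
        · have hdvd : b ∣ q ^ 6 := by
            have h1 : Nat.card B ∣ Nat.card V := AddSubgroup.card_addSubgroup_dvd_card B
            have hV : Nat.card V = q ^ 6 := by
              rw [Module.natCard_eq_pow_finrank (K := F), card_F_frob hF S, hfr, ← pow_mul]
            rw [hV] at h1
            exact h1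
          have h2b := two_mul_le_cube hF S hq hdvd hb hb3
          have hcG : q ^ 3 + 1 ≤ c := hG.trans (Nat.le_of_dvd (Nat.pos_of_ne_zero Subgroup.index_ne_zero_of_finite)
            (Subgroup.index_dvd_of_le hle))
          have hpos : 0 < 2 := by norm_num
          apply Nat.le_of_mul_le_mul_left _ hpos
          calc 2 * ((q ^ 5 + 1) * (q ^ 2 + 1) * b) = (q ^ 5 + 1) * (q ^ 2 + 1) * (2 * b) := by ring
            _ ≤ (q ^ 5 + 1) * (q ^ 2 + 1) * q ^ 3 := Nat.mul_le_mul_left _ h2b
            _ ≤ (2 * ((q ^ 3 + 1) * q ^ 4)) * q ^ 3 := Nat.mul_le_mul_right _ hnum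
            _ = 2 * ((q ^ 3 + 1) * q ^ 7) := by ring
            _ ≤ 2 * (c * q ^ 7) := Nat.mul_le_mul_left _ (Nat.mul_le_mul_right _ hcG)
      · -- a hyperbolic line of root points
        push Not at hpt
        obtain ⟨y, hyr, hyx⟩ := hpt
        obtain ⟨hy0, hyy, hyle⟩ := id hyr
        have hyxne : h y x ≠ 0 := by
          intro h0
          obtain ⟨r, hr⟩ := no_ti S hσ hfr hx0 hxx hyy h0
          exact hyx r hr
        have hsyx : frobHom hF (h y x) ≠ 0 := (map_ne_zero _).2 hyxne
        set f := (h y x)⁻¹ • y with hf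
        have H : IsHP h x f := by
          refine ⟨hxx, ?_, ?_⟩
          · rw [hf, S.smul_left, S.smul_right, hyy]
            ring
          · rw [hf, S.smul_left]
            field_simp
        have hfr1 : finrank F (perp2 S x f) = 1 := by
          have := finrank_perp2 S H
          omega
        have hfroot : f ∈ rootSet S hσ N := rootSet_smul S hσ hyr (inv_ne_zero hyxne)
        obtain ⟨u, hup, huu⟩ := exists_nonisotropic_perp2 S hσ (by omega) H
        have hu0 : u ≠ 0 := by
          rintro rfl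
          exact huu (S.zero_left _)
        have huW : (⟨u, hup⟩ : perp2 S x f) ≠ 0 := fun h0 => hu0 (congrArg Subtype.val h0)
        have hperp1 : ∀ w ∈ perp2 S x f, ∃ r : F, r • u = w := by
          intro w hw
          obtain ⟨r, hr⟩ := (finrank_eq_one_iff_of_nonzero' _ huW).1 hfr1 ⟨w, hw⟩
          exact ⟨r, congrArg Subtype.val hr⟩
        by_cases hu : ∀ z ∈ rootSet S hσ N, h z u = 0
        · -- the stabilizer of a non-isotropic point
          have hle : N ≤ stabSub h (Submodule.span F {u}) := by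
            intro g hg
            apply mem_stabSub_of_forall
            intro w hw
            obtain ⟨r, rfl⟩ := Submodule.mem_span_singleton.1 hw
            have hginv : g⁻¹ ∈ N := N.inv_mem hg
            have hgu := (mem_suGroup.1 g.2).1
            have hk : ∀ z ∈ rootSet S hσ N, h (g.1 u) z = 0 := by
              intro z hz
              have h1 := hu _ (rootSet_conj S hσ hz hginv)
              have h2 := S.zero_symm h1
              have h3 := hgu u ((g⁻¹).1 z)
              rw [h2] at h3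
              rwa [show g.1 ((g⁻¹).1 z) = z from g.1.apply_symm_apply z] at h3
            have hmem : g.1 u ∈ perp2 S x f := ⟨hk x hxr, hk f hfroot⟩
            obtain ⟨r', hr'⟩ := hperp1 _ hmem
            rw [map_smul, ← hr', smul_smul]
            exact Submodule.smul_mem _ _ (Submodule.mem_span_singleton_self u)
          have h1 := index_nonsing_bound hF S 2 (by rw [hfr]) (by omega) huu hle
          have h2 : (((q ^ 3 + 1) * q ^ 2 : ℕ) : ℤ) ≤ (((q + 1) * c : ℕ) : ℤ) := by
            have hq1 : 1 ≤ q ^ 2 := by omega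
            push_cast [Nat.cast_sub hq1] at h1 ⊢
            have hQ : (2 : ℤ) ≤ q := by exact_mod_cast hq
            have h5 : ((q : ℤ) - 1) * (((q : ℤ) ^ 3 + 1) * (q : ℤ) ^ 2) ≤ ((q : ℤ) - 1) * (((q : ℤ) + 1) * (c : ℤ)) := by
              linarith
            exact le_of_mul_le_mul_left h5 (by omega)
          have h3 : (q ^ 3 + 1) * q ^ 2 ≤ (q + 1) * c := by exact_mod_cast h2
          have hnum := num_five_c q hq
          have hpos : 0 < q + 1 := by omega
          apply Nat.le_of_mul_le_mul_left _ hpos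
          calc (q + 1) * ((q ^ 5 + 1) * (q ^ 2 + 1) * b)
              ≤ (q + 1) * ((q ^ 5 + 1) * (q ^ 2 + 1) * q ^ 3) :=
                Nat.mul_le_mul_left _ (Nat.mul_le_mul_left _ hb)
            _ = (q + 1) * ((q ^ 5 + 1) * (q ^ 2 + 1)) * q ^ 3 := by ring
            _ ≤ (q ^ 3 + 1) * q ^ 9 := hnum
            _ = ((q ^ 3 + 1) * q ^ 2) * q ^ 7 := by ring
            _ ≤ ((q + 1) * c) * q ^ 7 := Nat.mul_le_mul_right _ h3
            _ = (q + 1) * (c * q ^ 7) := by ring
        · -- everything is a root point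
          push Not at hu
          obtain ⟨z, hzr, hzu⟩ := hu
          exfalso
          set T := rootSet S hσ N with hT
          have hspan : Submodule.span F T = ⊤ := by
            rw [eq_top_iff]
            have hxs : x ∈ Submodule.span F T := Submodule.subset_span hxr
            have hfs : f ∈ Submodule.span F T := Submodule.subset_span hfroot
            have hzs : z ∈ Submodule.span F T := Submodule.subset_span hzr
            obtain ⟨r, hr⟩ := hperp1 _ (proj_mem S H z)
            have hdec := decomp (e := x) (f := f) (h := h) z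
            have hr0 : r ≠ 0 := by
              rintro rfl
              apply hzu
              have h1 : proj x f z h = 0 := by rw [← hr, zero_smul]
              rw [hdec, h1, zero_add, S.add_left, S.smul_left, S.smul_left, S.zero_symm hup.1,
                S.zero_symm hup.2]
              ring
            have hus : u ∈ Submodule.span F T := by
              have h1 : u = r⁻¹ • (z - h z f • x - h z x • f) := by
                have h2 : z - h z f • x - h z x • f = r • u := by
                  rw [hr]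
                  rfl
                rw [h2, smul_smul, inv_mul_cancel₀ hr0, one_smul]
              rw [h1]
              exact Submodule.smul_mem _ _ (Submodule.sub_mem _ (Submodule.sub_mem _ hzs
                (Submodule.smul_mem _ _ hxs)) (Submodule.smul_mem _ _ hfs))
            intro v _
            obtain ⟨r', hr'⟩ := hperp1 _ (proj_mem S H v)
            rw [decomp (e := x) (f := f) (h := h) v, ← hr']
            exact Submodule.add_mem _ (Submodule.add_mem _ (Submodule.smul_mem _ _ hus)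
              (Submodule.smul_mem _ _ hxs)) (Submodule.smul_mem _ _ hfs)
          have hall : ∀ w, w ≠ 0 → h w w = 0 → w ∈ T := by
            intro w hw0 hww
            refine closure_lemma S hσ (rootSet_lineClosed3 S hσ hfr N) ?_ (by rw [hspan]; trivial) hw0 hww
            intro a ha
            exact ⟨ha.2.1, ha.1⟩
          have h1 := full_case hF S hfr B hxB hx0 hxx hall
          have h2 : q ^ 3 * 1 ≤ q ^ 3 * (q - 1) := Nat.mul_le_mul_left _ (by omega)
          omega
    · -- a root group at a vector of `B` is not contained in the stabilizer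
      have h1 := rlemma hF S hfr B hxB hx0 hxx hX
      have hnum := num_five_b q hq
      have hb1 : 0 < b - 1 := by omega
      apply Nat.le_of_mul_le_mul_right _ hb1
      have h3 : b - 1 ≤ q ^ 3 - 1 := by omega
      calc (q ^ 5 + 1) * (q ^ 2 + 1) * b * (b - 1)
          = (q ^ 5 + 1) * (q ^ 2 + 1) * (b * (b - 1)) := by ring
        _ ≤ (q ^ 5 + 1) * (q ^ 2 + 1) * (q ^ 3 * (q ^ 3 - 1)) :=
            Nat.mul_le_mul_left _ (Nat.mul_le_mul hb h3)
        _ = ((q ^ 5 + 1) * (q ^ 2 + 1) * (q ^ 3 - 1)) * q ^ 3 := by ring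
        _ ≤ (2 * q ^ 5 * ((q ^ 3 + 1) * (q ^ 2 - 1))) * q ^ 3 := Nat.mul_le_mul_right _ hnum
        _ = ((q ^ 3 + 1) * (q ^ 2 - 1) * (2 * q)) * q ^ 7 := by ring
        _ ≤ (c * (b - 1)) * q ^ 7 := Nat.mul_le_mul_right _ h1
        _ = c * q ^ 7 * (b - 1) := by ring
  · -- no isotropic vector: Chevalley–Warning
    push Not at hsing
    have hb' : b ≤ q ^ 2 := by
      by_contra hc'
      push Not at hc'
      obtain ⟨x, hxB, hx0, hxx⟩ := exists_sing_of_large hF S B hc'
      exact hsing x hxB hx0 hxx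
    obtain ⟨⟨x, hxB⟩, hx0'⟩ := AddSubgroup.ne_bot_iff_exists_ne_zero.1 hB0
    have hx0 : x ≠ 0 := fun h0 => hx0' (Subtype.ext h0)
    have hxx := hsing x hxB hx0
    have hT := incidence_su hF S B (fun z => z ≠ 0 ∧ h z z = h x x) (fun _ hz => hz.1)
      (fun g z hz => ⟨by
        intro h0
        apply hz.1
        rw [h0, map_zero], by
        rw [← hz.2, (mem_suGroup.1 g.2).1]⟩)
      (T := {z | z ≠ 0 ∧ h z z = h x x}) (by
        intro z hz
        refine ⟨hz, ?_⟩
        obtain ⟨g, hg⟩ := exists_su_map_norm S hσ (by omega) hxx hz.2.symm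
        refine ⟨g, mem_imgB.2 ?_⟩
        rw [← hg, show (g⁻¹).1 (g.1 x) = x from g.1.symm_apply_apply x]
        exact hxB)
    rw [mul_zero, add_zero] at hT
    have hcount := count_norm_class hF S hfr hxx (S.self_fix x)
    have h1 : (q ^ 3 + 1) * q ^ 2 ≤ c * (b - 1) := hcount.trans hT
    have hnum := num_five_d q hq
    have hpos : 0 < q ^ 2 - 1 := by omega
    apply Nat.le_of_mul_le_mul_right _ hpos
    have h3 : b - 1 ≤ q ^ 2 - 1 := by omega
    calc (q ^ 5 + 1) * (q ^ 2 + 1) * b * (q ^ 2 - 1)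
        ≤ (q ^ 5 + 1) * (q ^ 2 + 1) * q ^ 2 * (q ^ 2 - 1) :=
          Nat.mul_le_mul_right _ (Nat.mul_le_mul_left _ hb')
      _ = (q ^ 5 + 1) * (q ^ 2 + 1) * (q ^ 2 * (q ^ 2 - 1)) := by ring
      _ ≤ (q ^ 3 + 1) * q ^ 2 * q ^ 7 := hnum
      _ ≤ (c * (b - 1)) * q ^ 7 := Nat.mul_le_mul_right _ h1
      _ ≤ (c * (q ^ 2 - 1)) * q ^ 7 := Nat.mul_le_mul_right _ (Nat.mul_le_mul_left _ h3)
      _ = c * q ^ 7 * (q ^ 2 - 1) := by ring

end frob

end Cfsg.Agent.Lib.MinSU
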