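/-
The local structure in dimension four: a subgroup of index below `(q+1)(q³+1)` has a very
restricted intersection with the radical of a point stabilizer.
-/
import Mathlib
import Cfsg.Agent.Lib.MinSU.Weak4

set_option autoImplicit false
set_option linter.unusedSimpArgs false
set_option linter.unusedSectionVars false
set_option linter.style.haveILetI false
set_option linter.unusedVariables false

namespace Cfsg.Agent.Lib.MinSU

open Module Cfsg.Agent.Lib.Classical.HermBasic Cfsg.Agent.Lib.Classical.HermElem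
open Cfsg.Agent.Lib.Classical.HermGen Cfsg.Agent.Lib.Classical.HermSimple
open Cfsg.Agent.Lib.HermCount.Field

universe u v

variable {F : Type u} [Field F] {V : Type v} [AddCommGroup V] [Module F V]
variable {σ : F →+* F} {h : V → V → F}

section arith

theorem arith_ns' (q d a b s I T : ℕ) (hq : 3 ≤ q) (h1 : I * (q * q ^ 4) ≤ d * (a * b))
    (h2 : T ≤ I * s) (h3 : s + 1 ≤ b) (h4 : b ≤ q ^ 2) (h5 : 2 * a ≤ q)
    (hT : q * (q - 1) * (q ^ 2 - 1) ≤ T) : (q + 1) * (q ^ 3 + 1) ≤ d := by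
  have hq2 : 9 ≤ q ^ 2 := by nlinarith
  have hs : s ≤ q ^ 2 - 1 := by omega
  have hpos : 0 < q ^ 2 * (q ^ 2 - 1) := by
    apply Nat.mul_pos
    · positivity
    · omega
  have h6 : q ^ 4 * (q - 1) ≤ a * d := by
    apply Nat.le_of_mul_le_mul_left _ hpos
    calc q ^ 2 * (q ^ 2 - 1) * (q ^ 4 * (q - 1))
        = (q * (q - 1) * (q ^ 2 - 1)) * (q * q ^ 4) := by ring
      _ ≤ T * (q * q ^ 4) := Nat.mul_le_mul_right _ hT
      _ ≤ (I * s) * (q * q ^ 4) := Nat.mul_le_mul_right _ h2
      _ = s * (I * (q * q ^ 4)) := by ring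
      _ ≤ s * (d * (a * b)) := Nat.mul_le_mul_left _ h1
      _ = a * d * (b * s) := by ring
      _ ≤ a * d * (q ^ 2 * (q ^ 2 - 1)) := Nat.mul_le_mul_left _ (Nat.mul_le_mul h4 hs)
      _ = q ^ 2 * (q ^ 2 - 1) * (a * d) := by ring
  obtain ⟨q', rfl⟩ : ∃ q', q = q' + 1 := ⟨q - 1, by omega⟩
  simp only [Nat.add_sub_cancel] at h6
  rcases (show q' = 2 ∨ 3 ≤ q' by omega) with rfl | hq'
  · have ha : a ≤ 1 := by omega
    norm_num at h6 ⊢
    nlinarith
  · -- `2 a ≤ q`
    have h7 : 2 * ((q' + 1) ^ 4 * q') ≤ (q' + 1) * d := by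
      calc 2 * ((q' + 1) ^ 4 * q') ≤ 2 * (a * d) := Nat.mul_le_mul_left _ h6
        _ = (2 * a) * d := by ring
        _ ≤ (q' + 1) * d := Nat.mul_le_mul_right _ h5
    have h8 : 2 * ((q' + 1) ^ 3 * q') ≤ d := by
      apply Nat.le_of_mul_le_mul_left _ (show 0 < q' + 1 by omega)
      calc (q' + 1) * (2 * ((q' + 1) ^ 3 * q')) = 2 * ((q' + 1) ^ 4 * q') := by ring
        _ ≤ (q' + 1) * d := h7
    refine le_trans ?_ h8
    nlinarith [pow_pos (show 0 < q' + 1 by omega) 3, pow_pos (show 0 < q' + 1 by omega) 2,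
      Nat.mul_le_mul_left ((q' + 1) ^ 3) hq']

theorem arith_even (q d b s I T : ℕ) (hq : 2 ≤ q) (h1 : I * (q * q ^ 4) ≤ d * b) (h2 : T ≤ I * s)
    (h3 : s + 1 ≤ b) (h4 : 2 * b ≤ q ^ 2) (hT : (q ^ 2 - 1) * (q + 1) ≤ T) :
    (q + 1) * (q ^ 3 + 1) ≤ d := by
  have hq2 : 4 ≤ q ^ 2 := by nlinarith
  have hs : 2 * s ≤ q ^ 2 - 1 := by omega
  have hpos : 0 < q ^ 2 * (q ^ 2 - 1) := by
    apply Nat.mul_pos <;> omega
  have h5 : 4 * (q ^ 3 * (q + 1)) ≤ d := by
    apply Nat.le_of_mul_le_mul_left _ hpos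
    calc q ^ 2 * (q ^ 2 - 1) * (4 * (q ^ 3 * (q + 1)))
        = 4 * (((q ^ 2 - 1) * (q + 1)) * (q * q ^ 4)) := by ring
      _ ≤ 4 * (T * (q * q ^ 4)) :=
          Nat.mul_le_mul_left _ (Nat.mul_le_mul_right _ hT)
      _ ≤ 4 * ((I * s) * (q * q ^ 4)) :=
          Nat.mul_le_mul_left _ (Nat.mul_le_mul_right _ h2)
      _ = (2 * s) * 2 * (I * (q * q ^ 4)) := by ring
      _ ≤ (2 * s) * 2 * (d * b) := Nat.mul_le_mul_left _ h1
      _ = d * ((2 * b) * (2 * s)) := by ring
      _ ≤ d * (q ^ 2 * (q ^ 2 - 1)) := Nat.mul_le_mul_left _ (Nat.mul_le_mul h4 hs)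
      _ = q ^ 2 * (q ^ 2 - 1) * d := by ring
  refine le_trans ?_ h5
  have h6 : 1 ≤ q ^ 3 := Nat.one_le_pow _ _ (by omega)
  nlinarith

theorem arith_odd' (q d b s I T : ℕ) (hq : 2 ≤ q) (h1 : I * (q * q ^ 4) ≤ d * b) (h2 : T ≤ I * s)
    (h3 : s + 1 ≤ b) (h4 : 3 * b ≤ q ^ 2) (hT : (q ^ 2 - 1) * (q + 1) ≤ 4 * T) :
    (q + 1) * (q ^ 3 + 1) ≤ d := by
  have hq2 : 4 ≤ q ^ 2 := by nlinarith
  have hs : 3 * s ≤ q ^ 2 - 1 := by omega
  have hpos : 0 < q ^ 2 * (q ^ 2 - 1) := by
    apply Nat.mul_pos <;> omega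
  have h5 : 9 * (q ^ 3 * (q + 1)) ≤ 4 * d := by
    apply Nat.le_of_mul_le_mul_left _ hpos
    calc q ^ 2 * (q ^ 2 - 1) * (9 * (q ^ 3 * (q + 1)))
        = 9 * (((q ^ 2 - 1) * (q + 1)) * (q * q ^ 4)) := by ring
      _ ≤ 9 * ((4 * T) * (q * q ^ 4)) :=
          Nat.mul_le_mul_left _ (Nat.mul_le_mul_right _ hT)
      _ ≤ 9 * ((4 * (I * s)) * (q * q ^ 4)) :=
          Nat.mul_le_mul_left _ (Nat.mul_le_mul_right _ (Nat.mul_le_mul_left _ h2))
      _ = 4 * (3 * s) * 3 * (I * (q * q ^ 4)) := by ring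
      _ ≤ 4 * (3 * s) * 3 * (d * b) := Nat.mul_le_mul_left _ h1
      _ = (4 * d) * ((3 * b) * (3 * s)) := by ring
      _ ≤ (4 * d) * (q ^ 2 * (q ^ 2 - 1)) := Nat.mul_le_mul_left _ (Nat.mul_le_mul h4 hs)
      _ = q ^ 2 * (q ^ 2 - 1) * (4 * d) := by ring
  have h6 : 1 ≤ q ^ 3 := Nat.one_le_pow _ _ (by omega)
  nlinarith

theorem arith_fam (q b s I T : ℕ) (hq : 2 ≤ q) (hb : b = q ^ 2) (h2 : T ≤ I * s) (h3 : s + 1 ≤ b)
    (hT : (q ^ 2 - 1) * (q + 1) ≤ T) : q + 1 ≤ I := by
  have hq2 : 4 ≤ q ^ 2 := by nlinarith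
  have hs : s ≤ q ^ 2 - 1 := by omega
  have h5 : (q ^ 2 - 1) * (q + 1) ≤ (q ^ 2 - 1) * I := by
    calc (q ^ 2 - 1) * (q + 1) ≤ T := hT
      _ ≤ I * s := h2
      _ ≤ I * (q ^ 2 - 1) := Nat.mul_le_mul_left _ hs
      _ = (q ^ 2 - 1) * I := by ring
  exact Nat.le_of_mul_le_mul_left h5 (by omega)

end arith

/-- The parameter set of the families at a hyperbolic pair. -/
abbrev NPR (σ : F →+* F) (h : V → V → F) (e f : V) : Type _ :=
  {p : suGroup h × F // NP σ e f p.2 p.1.1 ∧ p.2 * σ p.2 = 1}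

section frob

variable [Fintype F] [FiniteDimensional F V] {q : ℕ} (hF : Fintype.card F = q ^ 2)
variable (S : HForm (frobHom hF) h)

include hF in
theorem two_mul_le_sq {b : ℕ} (hdvd : b ∣ q ^ 4) (hb : b ≤ q ^ 2) (hne : b ≠ q ^ 2) :
    2 * b ≤ q ^ 2 := by
  classical
  obtain ⟨p, hp⟩ := CharP.exists F
  obtain ⟨n, hpp, hcard⟩ := FiniteField.card F p
  rw [hF] at hcard
  have hq : q ∣ p ^ (n : ℕ) := by
    rw [← hcard]
    exact dvd_pow_self q (by norm_num)
  obtain ⟨k, -, rfl⟩ := (Nat.dvd_prime_pow hpp).1 hq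
  rw [← pow_mul] at hdvd hb hne ⊢
  obtain ⟨j, -, rfl⟩ := (Nat.dvd_prime_pow hpp).1 hdvd
  have hj : j < k * 2 := by
    have h5 : j ≤ k * 2 := (Nat.pow_le_pow_iff_right hpp.one_lt).1 hb
    rcases h5.lt_or_eq with h6 | h6
    · exact h6
    · exact absurd (by rw [h6]) hne
  calc 2 * p ^ j ≤ p * p ^ j := Nat.mul_le_mul_right _ hpp.two_le
    _ = p ^ (j + 1) := by ring
    _ ≤ p ^ (k * 2) := Nat.pow_le_pow_right hpp.pos hj

include S

variable {e f : V} (H : IsHP h e f)

include H

/-- The bound when `Bof` contains a non-isotropic vector and `q ≥ 3`. -/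
theorem bound_nonsing' (hV : finrank F V = 4) (hq3 : 3 ≤ q) (K : Subgroup (suGroup h))
    (hA : Aof S (invol_frob' hF S) e H.ee K ≠ pureF (frobHom hF)) {u : V}
    (hu : u ∈ Bof S (invol_frob' hF S) H K) (huu : h u u ≠ 0) : (q + 1) * (q ^ 3 + 1) ≤ K.index := by
  classical
  have hσ := invol_frob' hF S
  haveI : Finite F := Finite.of_fintype F
  haveI : Finite V := Module.finite_of_finite F
  haveI : Finite (suGroup h) := finite_su
  have hfr : finrank F (perp2 S e f) = 2 := by
    have := finrank_perp2 S H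
    omega
  set B := Bof S hσ H K with hB
  let R := {p : suGroup h × F // NP (frobHom hF) e f p.2 p.1.1}
  let t : R → F := fun r => r.1.2
  let y : R → suGroup h := fun r => r.1.1
  have hy : ∀ r : R, NP (frobHom hF) e f (t r) (y r).1 := fun r => r.2
  have h1 := fam_main S hσ H K t y hy
  rw [card_pure_frob hF S, card_perp_frob hF S H 2 hfr, ← hB] at h1
  let P : V → Prop := fun z => z ≠ 0 ∧ h z z ≠ 0
  have hP : ∀ r x, P (hatY (frobHom hF) (t r) (y r).1 x) → P x := by
    rintro r x ⟨hx0, hxx⟩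
    have hst : frobHom hF (t r) ≠ 0 := (map_ne_zero _).2 (hy r).ne
    constructor
    · rintro rfl
      simp at hx0
    · intro h0
      apply hxx
      rw [hatY_apply, S.smul_left, S.smul_right, (mem_suGroup.1 (y r).2).1 x x, h0]
      ring
  let T : Set V := {z | P z ∧ ∃ r, z ∈ B.map (hatY (frobHom hF) (t r) (y r).1)}
  have h2 := incidence hσ B t y (fun r => (hy r).ne) P hP (T := T) (fun z hz => hz)
  have h3 := card_sub_nonzero_add_one_le B P (fun x hx => hx.1)
  have h4 := card_Bof_le_sq hF S H hfr K hA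
  have h5 := two_card_Aof_le hF S H K hA
  have hT : q * (q - 1) * (q ^ 2 - 1) ≤ Nat.card T := by
    rw [← count_nonsing_W hF S H hfr]
    refine Nat.card_le_card_of_injective (fun x => ⟨x.1.1, ?_⟩) ?_
    · have hx0 : x.1.1 ≠ 0 := fun h0 => x.2.1 (Subtype.ext h0)
      refine ⟨⟨hx0, x.2.2⟩, ?_⟩
      obtain ⟨g, s, hg, hgu⟩ := cover_nonsing S hσ H (by omega) hu.1 huu x.1.2 x.2.2
      exact ⟨⟨(g, s), hg⟩, u, hu, hgu⟩
    · intro x x' hxx
      have h6 : x.1.1 = x'.1.1 := congrArg (fun w : T => w.1) hxx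
      exact Subtype.ext (Subtype.ext h6)
  exact arith_ns' q K.index _ _ _ _ _ hq3 (by simpa [pow_mul] using h1) h2 h3 h4 h5 hT

/-- The case when `Bof` contains a non-isotropic vector and `q = 2`. -/
theorem bound_q2' (hV : finrank F V = 4) (hq2 : q = 2) (K : Subgroup (suGroup h))
    (hA : Aof S (invol_frob' hF S) e H.ee K ≠ pureF (frobHom hF)) {u : V}
    (hu : u ∈ Bof S (invol_frob' hF S) H K) (huu : h u u ≠ 0) : (q + 1) * (q ^ 3 + 1) ≤ K.index := by
  classical
  subst hq2
  have hσ := invol_frob' hF S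
  haveI : Finite F := Finite.of_fintype F
  haveI : Finite V := Module.finite_of_finite F
  haveI : Finite (suGroup h) := finite_su
  have hfr : finrank F (perp2 S e f) = 2 := by
    have := finrank_perp2 S H
    omega
  set B := Bof S hσ H K with hB
  have hcardF : Nat.card F = 4 := by
    rw [card_F_frob hF S]
    norm_num
  have h2F : (2 : F) = 0 := two_eq_zero_of_card hcardF
  let R := {p : suGroup h × F // NP (frobHom hF) e f p.2 p.1.1}
  let t : R → F := fun r => r.1.2
  let y : R → suGroup h := fun r => r.1.1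
  have hy : ∀ r : R, NP (frobHom hF) e f (t r) (y r).1 := fun r => r.2
  have h1 := fam_main S hσ H K t y hy
  rw [card_pure_frob hF S, card_perp_frob hF S H 2 hfr, ← hB] at h1
  have hA1 : Nat.card (Aof S hσ e H.ee K) = 1 := by
    have h5 := two_card_Aof_le hF S H K hA
    have h6 : 0 < Nat.card (Aof S hσ e H.ee K) := Nat.card_pos
    omega
  rw [hA1, one_mul] at h1
  have h1' : Nat.card (famB (σ := frobHom hF) B t y) * 32 ≤ K.index * Nat.card B := by
    simpa using h1
  have h4 := card_Bof_le_sq hF S H hfr K hA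
  have hbase : ∀ (P : V → Prop), (∀ z, P z → z ≠ 0) →
      (∀ r x, P (hatY (frobHom hF) (t r) (y r).1 x) → P x) →
      ∀ (T : Set V), (∀ z ∈ T, P z ∧ ∃ r, z ∈ B.map (hatY (frobHom hF) (t r) (y r).1)) →
      Nat.card T ≤ Nat.card (famB (σ := frobHom hF) B t y) * (Nat.card B - 1) := by
    intro P hP0 hP T hT
    have h2 := incidence hσ B t y (fun r => (hy r).ne) P hP hT
    have h3 := card_sub_nonzero_add_one_le B P hP0
    refine h2.trans (Nat.mul_le_mul_left _ (by omega))
  have hnonzero : ∀ r x, hatY (frobHom hF) (t r) (y r).1 x ≠ 0 → x ≠ 0 := by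
    rintro r x hx rfl
    simp at hx
  -- the non-isotropic vectors
  have hns : ∀ x : {x : perp2 S e f // x ≠ 0 ∧ h x.1 x.1 ≠ 0},
      ∃ r, x.1.1 ∈ B.map (hatY (frobHom hF) (t r) (y r).1) := by
    intro x
    obtain ⟨g, s, hg, hgu⟩ := cover_nonsing S hσ H (by omega) hu.1 huu x.1.2 x.2.2
    exact ⟨⟨(g, s), hg⟩, u, hu, hgu⟩
  have hne : ∀ x : perp2 S e f, x ≠ 0 → x.1 ≠ 0 := fun x hx h0 => hx (Subtype.ext h0)
  by_cases hb3 : Nat.card B ≤ 3
  · have h2 := hbase (fun z => z ≠ 0) (fun z hz => hz) hnonzero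
      {z | z ≠ 0 ∧ ∃ r, z ∈ B.map (hatY (frobHom hF) (t r) (y r).1)} (fun z hz => hz)
    have h5 : 2 * (2 - 1) * (2 ^ 2 - 1) ≤
        Nat.card {z : V | z ≠ 0 ∧ ∃ r, z ∈ B.map (hatY (frobHom hF) (t r) (y r).1)} := by
      rw [← count_nonsing_W hF S H hfr]
      refine Nat.card_le_card_of_injective (fun x => ⟨x.1.1, hne _ x.2.1, hns x⟩) ?_
      intro x x' hxx
      have h6 : x.1.1 = x'.1.1 := congrArg (fun w : {z : V | z ≠ 0 ∧ ∃ r, z ∈ B.map (hatY (frobHom hF) (t r) (y r).1)} => w.1) hxx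
      exact Subtype.ext (Subtype.ext h6)
    norm_num at h5
    set I := Nat.card (famB (σ := frobHom hF) B t y)
    set b := Nat.card B
    have h6 : 6 ≤ I * (b - 1) := h5.trans h2
    have h7 : b * (b - 1) ≤ 6 := by
      interval_cases b <;> norm_num
    have h8 : 6 * 32 ≤ K.index * 6 := by
      calc 6 * 32 ≤ (I * (b - 1)) * 32 := Nat.mul_le_mul_right _ h6
        _ = (I * 32) * (b - 1) := by ring
        _ ≤ (K.index * b) * (b - 1) := Nat.mul_le_mul_right _ h1'
        _ = K.index * (b * (b - 1)) := by ring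
        _ ≤ K.index * 6 := Nat.mul_le_mul_left _ h7
    norm_num
    omega
  · have hb4 : Nat.card B = 4 := by
      have h4' : Nat.card B ≤ 4 := by simpa using h4
      omega
    -- there is a non-zero isotropic vector
    have hex : ∃ v ∈ B, v ≠ 0 ∧ v ≠ u := by
      by_contra hc
      push Not at hc
      have hinj : Function.Injective (fun v : B => decide (v.1 = u)) := by
        intro v v' hvv
        have h5 : (v.1 = u) ↔ (v'.1 = u) := by simpa using hvv
        apply Subtype.ext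
        by_cases h6 : v.1 = u
        · rw [h6, h5.1 h6]
        · have h7 : v'.1 ≠ u := fun h8 => h6 (h5.2 h8)
          have h8 : v.1 = 0 := by
            by_contra h9
            exact h6 (hc v.1 v.2 h9)
          have h9 : v'.1 = 0 := by
            by_contra h10
            exact h7 (hc v'.1 v'.2 h10)
          rw [h8, h9]
      have h5 := Nat.card_le_card_of_injective _ hinj
      rw [hb4] at h5
      simp at h5
    obtain ⟨v, hv, hv0, hvu⟩ := hex
    have hA0 : ∀ x ∈ Aof S hσ e H.ee K, x = 0 := by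
      intro x hx
      have h5 := Nat.card_eq_one_iff_unique.1 hA1
      have h6 := h5.1.elim ⟨x, hx⟩ ⟨0, (Aof S hσ e H.ee K).zero_mem⟩
      exact congrArg Subtype.val h6
    have hreal : ∀ x : F, frobHom hF x = x → x ≠ 0 → x = 1 := by
      intro x hx hx0
      have h5 : x ^ 2 = x := by
        have h6 := hx
        rw [frobHom_apply] at h6
        exact h6
      have h6 : x * (x - 1) = 0 := by linear_combination h5
      exact sub_eq_zero.1 ((mul_eq_zero.1 h6).resolve_left hx0)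
    have hsing : ∃ a ∈ B, a ≠ 0 ∧ h a a = 0 := by
      by_cases hvv : h v v = 0
      · exact ⟨v, hv, hv0, hvv⟩
      · refine ⟨u + v, B.add_mem hu hv, ?_, ?_⟩
        · intro h0
          apply hvu
          have h5 : v = -u := by
            rw [eq_neg_iff_add_eq_zero, add_comm]
            exact h0
          rw [h5]
          have h6 : (2 : F) • u = 0 := by rw [h2F, zero_smul]
          rw [two_smul] at h6
          exact neg_eq_of_add_eq_zero_left h6
        · have h5 := hA0 _ (comm_mem_Aof S hσ H hu hv)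
          have h6 : h v u = h u v := by
            rw [S.conj u v]
            linear_combination -h5
          rw [S.add_left, S.add_right, S.add_right, h6, hreal _ (S.self_fix u) huu,
            hreal _ (S.self_fix v) hvv]
          linear_combination (1 + h u v) * h2F
    obtain ⟨a, ha, ha0, haa⟩ := hsing
    have hs : ∀ x : {x : perp2 S e f // x ≠ 0 ∧ h x.1 x.1 = 0},
        ∃ r, x.1.1 ∈ B.map (hatY (frobHom hF) (t r) (y r).1) := by
      intro x
      have hx0 : x.1.1 ≠ 0 := fun h0 => x.2.1 (Subtype.ext h0)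
      obtain ⟨c, hc, hc'⟩ := cover_scaled S hσ H (by omega) ha.1 ha0 haa x.1.2 hx0 x.2.2
      obtain ⟨t₀, ht₀⟩ := exists_four_root h2F c⁻¹
      have ht₀0 : t₀ ≠ 0 := by
        rintro rfl
        rw [zero_pow (by norm_num)] at ht₀
        exact inv_ne_zero hc ht₀.symm
      obtain ⟨g, s, hg, hs, hga⟩ := hc' t₀ ht₀0
      refine ⟨⟨(g, s), hg⟩, a, ha, ?_⟩
      show hatY (frobHom hF) s g.1 a = _
      rw [hga, ht₀, inv_mul_cancel₀ hc, one_smul]
    have h2 := hbase (fun z => z ≠ 0) (fun z hz => hz) hnonzero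
      {z | z ≠ 0 ∧ ∃ r, z ∈ B.map (hatY (frobHom hF) (t r) (y r).1)} (fun z hz => hz)
    have h5 : 2 * (2 - 1) * (2 ^ 2 - 1) + (2 ^ 2 - 1) * (2 + 1) ≤
        Nat.card {z : V | z ≠ 0 ∧ ∃ r, z ∈ B.map (hatY (frobHom hF) (t r) (y r).1)} := by
      rw [← count_nonsing_W hF S H hfr, ← count_sing_W hF S H hfr, ← Nat.card_sum]
      refine Nat.card_le_card_of_injective (fun x => match x with
        | Sum.inl x => ⟨x.1.1, hne _ x.2.1, hns x⟩
        | Sum.inr x => ⟨x.1.1, hne _ x.2.1, hs x⟩) ?_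
      rintro (x | x) (x' | x') hxx
      · have h6 : x.1.1 = x'.1.1 := congrArg (fun w : {z : V | z ≠ 0 ∧ ∃ r, z ∈ B.map (hatY (frobHom hF) (t r) (y r).1)} => w.1) hxx
        rw [Subtype.ext (Subtype.ext h6)]
      · have h6 : x.1.1 = x'.1.1 := congrArg (fun w : {z : V | z ≠ 0 ∧ ∃ r, z ∈ B.map (hatY (frobHom hF) (t r) (y r).1)} => w.1) hxx
        exact absurd (h6 ▸ x'.2.2) x.2.2
      · have h6 : x.1.1 = x'.1.1 := congrArg (fun w : {z : V | z ≠ 0 ∧ ∃ r, z ∈ B.map (hatY (frobHom hF) (t r) (y r).1)} => w.1) hxx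
        exact absurd (h6 ▸ x.2.2) x'.2.2
      · have h6 : x.1.1 = x'.1.1 := congrArg (fun w : {z : V | z ≠ 0 ∧ ∃ r, z ∈ B.map (hatY (frobHom hF) (t r) (y r).1)} => w.1) hxx
        rw [Subtype.ext (Subtype.ext h6)]
    norm_num at h5
    rw [hb4] at h1' h2
    norm_num at h2 h1' ⊢
    omega

/-- The case when all of `Bof` is isotropic. -/
theorem sing_case (hV : finrank F V = 4) (K : Subgroup (suGroup h))
    (hA : Aof S (invol_frob' hF S) e H.ee K ≠ pureF (frobHom hF))
    (hall : ∀ x ∈ Bof S (invol_frob' hF S) H K, h x x = 0) {a : V}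
    (ha : a ∈ Bof S (invol_frob' hF S) H K) (ha0 : a ≠ 0)
    (hidx : K.index < (q + 1) * (q ^ 3 + 1)) :
    Nat.card (Bof S (invol_frob' hF S) H K) = q ^ 2 ∧
      q + 1 ≤ Nat.card (famB (σ := frobHom hF) (Bof S (invol_frob' hF S) H K)
        (fun r : NPR (frobHom hF) h e f => r.1.2) (fun r : NPR (frobHom hF) h e f => r.1.1)) := by
  classical
  have hσ := invol_frob' hF S
  haveI : Finite F := Finite.of_fintype F
  haveI : Finite V := Module.finite_of_finite F
  haveI : Finite (suGroup h) := finite_su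
  have hq := two_le_q hF S
  have hfr : finrank F (perp2 S e f) = 2 := by
    have := finrank_perp2 S H
    omega
  set B := Bof S hσ H K with hB
  have haa := hall a ha
  let R := NPR (frobHom hF) h e f
  let t : R → F := fun r => r.1.2
  let y : R → suGroup h := fun r => r.1.1
  show Nat.card B = q ^ 2 ∧ q + 1 ≤ Nat.card (famB (σ := frobHom hF) B t y)
  have hy : ∀ r : R, NP (frobHom hF) e f (t r) (y r).1 := fun r => r.2.1
  have h1 := fam_main₀ S hσ H (by omega) K hA t y hy (fun r => r.2.2)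
  rw [card_pure_frob hF S, card_perp_frob hF S H 2 hfr, ← hB] at h1
  have h1' : Nat.card (famB (σ := frobHom hF) B t y) * (q * q ^ 4) ≤ K.index * Nat.card B := by
    simpa [pow_mul] using h1
  let P : V → Prop := fun z => z ≠ 0 ∧ h z z = 0
  have hP : ∀ r x, P (hatY (frobHom hF) (t r) (y r).1 x) → P x := by
    rintro r x ⟨hx0, hxx⟩
    have hst : frobHom hF (t r) ≠ 0 := (map_ne_zero _).2 (hy r).ne
    constructor
    · rintro rfl
      simp at hx0
    · rw [hatY_apply, S.smul_left, S.smul_right, (mem_suGroup.1 (y r).2).1 x x] at hxx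
      have h2 : frobHom hF (frobHom hF (t r)) ≠ 0 := (map_ne_zero _).2 hst
      exact (mul_eq_zero.1 ((mul_eq_zero.1 hxx).resolve_left hst)).resolve_left h2
  let T : Set V := {z | P z ∧ ∃ r, z ∈ B.map (hatY (frobHom hF) (t r) (y r).1)}
  have h2 := incidence hσ B t y (fun r => (hy r).ne) P hP (T := T) (fun z hz => hz)
  have h3 := card_sub_nonzero_add_one_le B P (fun x hx => hx.1)
  have h4 := card_Bof_le_sq hF S H hfr K hA
  have hdvd : Nat.card B ∣ q ^ 4 := by
    rw [show q ^ 4 = q ^ (2 * 2) by norm_num, ← card_perp_frob hF S H 2 hfr]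
    exact AddSubgroup.card_dvd_of_le (K := (perp2 S e f).toAddSubgroup) (fun x hx => hx.1)
  have hPz : ∀ x : {x : perp2 S e f // x ≠ 0 ∧ h x.1 x.1 = 0}, P x.1.1 := fun x =>
    ⟨fun h0 => x.2.1 (Subtype.ext h0), x.2.2⟩
  -- covering all isotropic vectors suffices
  have hcov : (∀ x : {x : perp2 S e f // x ≠ 0 ∧ h x.1 x.1 = 0}, x.1.1 ∈ T) →
      (q ^ 2 - 1) * (q + 1) ≤ Nat.card T := by
    intro hall'
    rw [← count_sing_W hF S H hfr]
    refine Nat.card_le_card_of_injective (fun x => ⟨x.1.1, hall' x⟩) ?_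
    intro x x' hxx
    have h6 : x.1.1 = x'.1.1 := congrArg (fun w : T => w.1) hxx
    exact Subtype.ext (Subtype.ext h6)
  by_cases h2F : (2 : F) = 0
  · -- even characteristic
    have hT := hcov (by
      intro x
      have hx0 : x.1.1 ≠ 0 := fun h0 => x.2.1 (Subtype.ext h0)
      obtain ⟨c, hc, hc'⟩ := cover_scaled S hσ H (by omega) ha.1 ha0 haa x.1.2 hx0 x.2.2
      obtain ⟨t₀, ht₀⟩ := exists_four_root h2F c⁻¹
      have ht₀0 : t₀ ≠ 0 := by
        rintro rfl
        rw [zero_pow (by norm_num)] at ht₀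
        exact inv_ne_zero hc ht₀.symm
      obtain ⟨g, s, hg, hs, hga⟩ := hc' t₀ ht₀0
      refine ⟨hPz x, ⟨(g, s), hg, hs⟩, a, ha, ?_⟩
      show hatY (frobHom hF) s g.1 a = _
      rw [hga, ht₀, inv_mul_cancel₀ hc, one_smul])
    by_cases hb : Nat.card B = q ^ 2
    · exact ⟨hb, arith_fam q _ _ _ _ hq hb h2 h3 hT⟩
    · exfalso
      have h2b := two_mul_le_sq hF hdvd h4 hb
      have := arith_even q K.index _ _ _ _ hq h1' h2 h3 h2b hT
      omega
  · by_cases hb : Nat.card B = q ^ 2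
    · -- `B` is a line
      have hline := line_of_full hF S H hfr h2F K hA hb hall ha ha0
      have hT := hcov (by
        intro x
        have hx0 : x.1.1 ≠ 0 := fun h0 => x.2.1 (Subtype.ext h0)
        obtain ⟨g, c, hc, hg, hga⟩ := cover_point S hσ H (by omega) ha.1 ha0 haa x.1.2 hx0 x.2.2
        -- `c⁻¹ • a` lies in `B`, by counting
        have hsurjB : ∀ l : F, l • a ∈ B := by
          choose lam hlam using fun x : B => hline x.1 x.2
          have hinj : Function.Injective lam := by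
            intro u v huv
            apply Subtype.ext
            rw [hlam u, hlam v, huv]
          have hcardB : Nat.card B = Nat.card F := by
            rw [hb, card_F_frob hF S]
          have hbij := (Nat.bijective_iff_injective_and_card lam).2 ⟨hinj, hcardB⟩
          intro l
          obtain ⟨u, hu⟩ := hbij.2 l
          have h5 := hlam u
          rw [hu] at h5
          rw [← h5]
          exact u.2
        refine ⟨hPz x, ⟨(g, 1), hg, by simp⟩, c⁻¹ • a, hsurjB _, ?_⟩
        show hatY (frobHom hF) 1 g.1 (c⁻¹ • a) = _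
        rw [hatY_apply, map_one, one_smul, map_smul, hga, smul_smul, inv_mul_cancel₀ hc, one_smul])
      exact ⟨hb, arith_fam q _ _ _ _ hq hb h2 h3 hT⟩
    · exfalso
      -- the small case
      have h3b : 3 * Nat.card B ≤ q ^ 2 := three_mul_le h2F (card_F_frob hF S) hdvd h4 hb
      have hT : (q ^ 2 - 1) * (q + 1) ≤ 4 * Nat.card T := by
        rw [← count_sing_W hF S H hfr]
        obtain ⟨γ, hγ, hrep⟩ := exists_four_rep (F := F)
        have hx : ∀ x : {x : perp2 S e f // x ≠ 0 ∧ h x.1 x.1 = 0}, ∃ (i : Fin 4),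
            (γ ^ (i : ℕ))⁻¹ • x.1.1 ∈ T := by
          intro x
          have hx0 : x.1.1 ≠ 0 := fun h0 => x.2.1 (Subtype.ext h0)
          obtain ⟨c, hc, hc'⟩ := cover_scaled S hσ H (by omega) ha.1 ha0 haa x.1.2 hx0 x.2.2
          obtain ⟨i, t₀, ht₀0, ht₀⟩ := hrep c hc
          obtain ⟨g, s, hg, hs, hga⟩ := hc' t₀ ht₀0
          refine ⟨i, ⟨?_, ⟨(g, s), hg, hs⟩, a, ha, ?_⟩⟩
          · refine ⟨smul_ne_zero (inv_ne_zero (pow_ne_zero _ hγ)) hx0, ?_⟩
            rw [S.smul_left, S.smul_right, x.2.2]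
            ring
          · show hatY (frobHom hF) s g.1 a = _
            rw [hga, ht₀]
        choose idx hidx' using hx
        have hinj := Nat.card_le_card_of_injective
          (fun x : {x : perp2 S e f // x ≠ 0 ∧ h x.1 x.1 = 0} =>
            ((idx x, ⟨_, hidx' x⟩) : Fin 4 × T)) (by
            intro x x' hxx
            have h6 : idx x = idx x' := congrArg Prod.fst hxx
            have h7 : (γ ^ ((idx x : Fin 4) : ℕ))⁻¹ • x.1.1 = (γ ^ ((idx x' : Fin 4) : ℕ))⁻¹ • x'.1.1 :=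
              congrArg (fun p : Fin 4 × T => p.2.1) hxx
            rw [← h6] at h7
            have h8 : x.1.1 = x'.1.1 := smul_right_injective V (inv_ne_zero (pow_ne_zero _ hγ)) h7
            exact Subtype.ext (Subtype.ext h8))
        rw [Nat.card_prod] at hinj
        simpa using hinj
      have := arith_odd' q K.index _ _ _ _ hq h1' h2 h3 h3b hT
      omega

/-- The local structure of a subgroup of small index whose conjugate does not contain a root group. -/
structure LocalData (K : Subgroup (suGroup h)) : Prop where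
  A0 : Aof S (invol_frob' hF S) e H.ee K = ⊥
  cardB : Nat.card (Bof S (invol_frob' hF S) H K) = q ^ 2
  sing : ∀ x ∈ Bof S (invol_frob' hF S) H K, h x x = 0
  fam : q + 1 ≤ Nat.card (famB (σ := frobHom hF) (Bof S (invol_frob' hF S) H K)
    (fun r : NPR (frobHom hF) h e f => r.1.2) (fun r : NPR (frobHom hF) h e f => r.1.1))

theorem local4 (hV : finrank F V = 4) (K : Subgroup (suGroup h))
    (hA : Aof S (invol_frob' hF S) e H.ee K ≠ pureF (frobHom hF))
    (hidx : K.index < (q + 1) * (q ^ 3 + 1)) : LocalData hF S H K := by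
  classical
  have hσ := invol_frob' hF S
  haveI : Finite F := Finite.of_fintype F
  haveI : Finite V := Module.finite_of_finite F
  haveI : Finite (suGroup h) := finite_su
  have hq := two_le_q hF S
  have hfr : finrank F (perp2 S e f) = 2 := by
    have := finrank_perp2 S H
    omega
  have hsing : ∀ x ∈ Bof S hσ H K, h x x = 0 := by
    intro u hu
    by_contra huu
    rcases (show q = 2 ∨ 3 ≤ q by omega) with hq2 | hq3
    · have := bound_q2' hF S H hV hq2 K hA hu huu
      omega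
    · have := bound_nonsing' hF S H hV hq3 K hA hu huu
      omega
  -- `B` is not trivial
  have hB0 : Bof S hσ H K ≠ ⊥ := by
    intro hB
    have hfam := family_bound₁ S hσ H (by omega) K hA (J := Unit) (fun _ => 1) (fun _ => 1)
      (fun _ => ⟨one_ne_zero, by simp, by simp⟩) (fun _ => by simp)
      (fun a b _ => Subsingleton.elim a b)
    rw [card_pure_frob hF S, card_perp_frob hF S H 2 hfr, hB] at hfam
    simp only [Nat.card_unique, one_mul, mul_one] at hfam
    have h1 : (q + 1) * (q ^ 3 + 1) ≤ q * q ^ (2 * 2) := by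
      have h3 : 8 ≤ q ^ 3 := by nlinarith
      have h4 : q ^ 3 * 2 ≤ q ^ 3 * q := Nat.mul_le_mul_left _ hq
      have h5 : q * q ^ (2 * 2) = q ^ 3 * q * q := by ring
      rw [h5]
      nlinarith
    omega
  obtain ⟨⟨a, ha⟩, ha0⟩ := AddSubgroup.ne_bot_iff_exists_ne_zero.1 hB0
  have ha0' : a ≠ 0 := fun h0 => ha0 (Subtype.ext h0)
  obtain ⟨hb, hI⟩ := sing_case hF S H hV K hA hsing ha ha0' hidx
  refine ⟨?_, hb, hsing, hI⟩
  by_contra hA0
  -- the family of the previous step, with non-trivial `A`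
  set B := Bof S hσ H K with hB
  let R := NPR (frobHom hF) h e f
  let t : R → F := fun r => r.1.2
  let y : R → suGroup h := fun r => r.1.1
  have hy : ∀ r : R, NP (frobHom hF) e f (t r) (y r).1 := fun r => r.2.1
  haveI : Finite (AddSubgroup V) :=
    Finite.of_injective (fun H : AddSubgroup V => (H : Set V)) SetLike.coe_injective
  have hrep : ∀ A : famB (σ := frobHom hF) B t y, ∃ r,
      B.map (hatY (frobHom hF) (t r) (y r).1) = A.1 := fun A => A.2
  choose rep hrep using hrep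
  have h1 := family_bound₂ S hσ H (by omega) K hA hA0
    (fun A : famB (σ := frobHom hF) B t y => y (rep A))
    (fun A => t (rep A)) (fun A => hy _) (fun A => (rep A).2.2) (by
      intro A A' hAA
      have h2 : B.map (hatY (frobHom hF) (t (rep A)) (y (rep A)).1) =
          B.map (hatY (frobHom hF) (t (rep A')) (y (rep A')).1) := hAA
      rw [hrep, hrep] at h2
      exact Subtype.ext h2)
  rw [card_pure_frob hF S, card_perp_frob hF S H 2 hfr, ← hB, hb] at h1
  have hq0 : 0 < q ^ 2 := by positivity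
  have h5 : (q + 1) * (q ^ 3 + 1) ≤ K.index := by
    have h6 : (q + 1) * ((q + 1) * q ^ 2) ≤ K.index := by
      apply Nat.le_of_mul_le_mul_right _ hq0
      calc (q + 1) * ((q + 1) * q ^ 2) * q ^ 2 = (q + 1) * ((q + 1) * q ^ (2 * 2)) := by ring
        _ ≤ Nat.card (famB (σ := frobHom hF) B t y) * ((q + 1) * q ^ (2 * 2)) :=
            Nat.mul_le_mul_right _ hI
        _ ≤ K.index * q ^ 2 := h1
    refine le_trans ?_ h6
    apply Nat.mul_le_mul_left
    nlinarith
  omega

end frob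

end Cfsg.Agent.Lib.MinSU
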