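/-
Totally isotropic planes in dimension four: transitivity and the index of their stabilizer.
-/
import Mathlib
import Cfsg.Agent.Lib.MinSU.Four1
import Cfsg.Agent.Lib.HermCount.Lines

set_option autoImplicit false
set_option linter.unusedSimpArgs false
set_option linter.unusedSectionVars false
set_option linter.style.haveILetI false
set_option linter.unusedVariables false

namespace Cfsg.Agent.Lib.MinSU

open Module Cfsg.Agent.Lib.Classical.HermBasic Cfsg.Agent.Lib.Classical.HermElem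
open Cfsg.Agent.Lib.Classical.HermGen Cfsg.Agent.Lib.Classical.HermSimple
open Cfsg.Agent.Lib.HermCount.Field

universe u v

variable {F : Type u} [Field F] {V : Type v} [AddCommGroup V] [Module F V]
variable {σ : F →+* F} {h : V → V → F}

/-- Totally isotropic planes. -/
abbrev IsPlane (h : V → V → F) (M : Submodule F V) : Prop := Cfsg.Agent.Lib.HermCount.Lines.X h M

section frob

variable [Fintype F] [FiniteDimensional F V] {q : ℕ} (hF : Fintype.card F = q ^ 2)
variable (S : HForm (frobHom hF) h)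

include S

/-- Normal form of a plane through a point. -/
theorem exists_plane_basis (hV : finrank F V = 4) {M : Submodule F V} (hM : IsPlane h M) {u f : V}
    (H : IsHP h u f) (hu : u ∈ M) :
    ∃ z, z ∈ perp2 S u f ∧ z ≠ 0 ∧ z ∈ M ∧ h z z = 0 ∧ ∀ x ∈ M, ∃ α β : F, x = α • u + β • z := by
  classical
  have hσ := invol_frob' hF S
  haveI : Finite F := Finite.of_fintype F
  have hfr : finrank F (perp2 S u f) = 2 := by
    have := finrank_perp2 S H
    omega
  have hu0 : u ≠ 0 := H.ne_left S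
  have hex : ∃ t ∈ M, t ∉ Submodule.span F {u} := by
    by_contra hc
    push Not at hc
    have h1 : finrank F M ≤ finrank F (Submodule.span F {u}) := Submodule.finrank_mono hc
    rw [finrank_span_singleton hu0, hM.1] at h1
    omega
  obtain ⟨t, htM, ht⟩ := hex
  have huf : h u f = 1 := H.ef S
  have hproj : ∀ x ∈ M, x - h x f • u ∈ perp2 S u f := by
    intro x hx
    constructor
    · rw [S.sub_left, S.smul_left, hM.2 x hx u hu, hM.2 u hu u hu]
      ring
    · rw [S.sub_left, S.smul_left, huf]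
      ring
  have hprojM : ∀ x ∈ M, x - h x f • u ∈ M := fun x hx => M.sub_mem hx (M.smul_mem _ hu)
  have hz0 : t - h t f • u ≠ 0 := by
    intro h0
    apply ht
    rw [sub_eq_zero.1 h0]
    exact Submodule.smul_mem _ _ (Submodule.mem_span_singleton_self u)
  set z := t - h t f • u with hz
  have hzM := hprojM t htM
  have hzz : h z z = 0 := hM.2 _ hzM _ hzM
  refine ⟨z, hproj t htM, hz0, hzM, hzz, ?_⟩
  intro x hx
  obtain ⟨c, hc⟩ := eq_smul_of_orth S hσ H hfr (hproj t htM) hz0 hzz (hproj x hx)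
    (hM.2 _ (hprojM x hx) _ hzM)
  refine ⟨h x f, c, ?_⟩
  rw [← hc]
  abel

/-- Transitivity on totally isotropic planes. -/
theorem exists_map_plane (hV : finrank F V = 4) {M M' : Submodule F V} (hM : IsPlane h M)
    (hM' : IsPlane h M') : ∃ g : suGroup h, M.map (g.1 : V →ₗ[F] V) = M' := by
  classical
  have hσ := invol_frob' hF S
  haveI : Finite F := Finite.of_fintype F
  have hne : ∀ {W : Submodule F V}, IsPlane h W → ∃ x ∈ W, x ≠ 0 := by
    intro W hW
    have h1 : W ≠ ⊥ := by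
      intro h0
      have := hW.1
      rw [h0] at this
      simp at this
    exact Submodule.exists_mem_ne_zero_of_ne_bot h1
  obtain ⟨a, haM, ha0⟩ := hne hM
  obtain ⟨a', ha'M, ha'0⟩ := hne hM'
  have haa : h a a = 0 := hM.2 a haM a haM
  have ha'a' : h a' a' = 0 := hM'.2 a' ha'M a' ha'M
  obtain ⟨g₁, hg₁⟩ := exists_su_map S hσ (by omega) ha0 ha'0 haa ha'a'
  obtain ⟨f, hff, hfe⟩ := S.exists_partner hσ ha'0 ha'a'
  have H : IsHP h a' f := ⟨ha'a', hff, hfe⟩
  have hfr : finrank F (perp2 S a' f) = 2 := by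
    have := finrank_perp2 S H
    omega
  -- the image of `M`
  have hM₁ : IsPlane h (M.map (g₁.1 : V →ₗ[F] V)) := by
    constructor
    · exact LinearEquiv.finrank_map_eq g₁.1 M |>.trans hM.1
    · rintro _ ⟨x, hx, rfl⟩ _ ⟨y, hy, rfl⟩
      show h (g₁.1 x) (g₁.1 y) = 0
      rw [(mem_suGroup.1 g₁.2).1]
      exact hM.2 x hx y hy
  have hmem : a' ∈ M.map (g₁.1 : V →ₗ[F] V) := ⟨a, haM, hg₁⟩
  obtain ⟨z, hzW, hz0, -, hzz, hzx⟩ := exists_plane_basis hF S hV hM₁ H hmem
  obtain ⟨z', hz'W, hz'0, hz'M, hz'z', -⟩ := exists_plane_basis hF S hV hM' H ha'M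
  -- `SU` of the complement
  have hzW0 : (⟨z, hzW⟩ : perp2 S a' f) ≠ 0 := fun h0 => hz0 (congrArg Subtype.val h0)
  have hz'W0 : (⟨z', hz'W⟩ : perp2 S a' f) ≠ 0 := fun h0 => hz'0 (congrArg Subtype.val h0)
  obtain ⟨g₀, c, hc, hg₀⟩ := exists_su_map_point (restrict S H) hσ (by omega) hzW0 hz'W0 hzz hz'z'
  obtain ⟨g₂, hg₂, hg₂'⟩ := exists_lift S hσ H g₀
  refine ⟨g₂ * g₁, ?_⟩
  apply Submodule.eq_of_le_of_finrank_eq
  · rintro _ ⟨x, hx, rfl⟩
    obtain ⟨α, β, hαβ⟩ := hzx (g₁.1 x) ⟨x, hx, rfl⟩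
    show g₂.1 (g₁.1 x) ∈ M'
    rw [hαβ, map_add, map_smul, map_smul]
    have h1 : g₂.1 a' = a' := by
      have := hg₂.left
      rwa [one_smul] at this
    have h2 : g₂.1 z = c • z' := by
      have h3 := hg₂' ⟨z, hzW⟩
      have h4 : (g₀.1 ⟨z, hzW⟩ : perp2 S a' f) = c • ⟨z', hz'W⟩ := hg₀
      rw [h4] at h3
      exact h3
    rw [h1, h2]
    exact M'.add_mem (M'.smul_mem _ ha'M) (M'.smul_mem _ (M'.smul_mem _ hz'M))
  · have h1 : finrank F (M.map ((g₂ * g₁).1 : V →ₗ[F] V)) = finrank F M :=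
      LinearEquiv.finrank_map_eq (g₂ * g₁).1 M
    rw [h1, hM.1, hM'.1]

theorem map_plane_eq_iff (M : Submodule F V) (a b : suGroup h) :
    M.map (a.1 : V →ₗ[F] V) = M.map (b.1 : V →ₗ[F] V) ↔ a⁻¹ * b ∈ stabSub h M := by
  have hmul : ∀ x y : suGroup h, M.map ((x * y).1 : V →ₗ[F] V) =
      (M.map (y.1 : V →ₗ[F] V)).map (x.1 : V →ₗ[F] V) := by
    intro x y
    rw [← Submodule.map_comp]
    rfl
  have hinv : ∀ x : suGroup h, (M.map (x.1 : V →ₗ[F] V)).map ((x⁻¹).1 : V →ₗ[F] V) = M := by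
    intro x
    rw [← hmul]
    rw [inv_mul_cancel]
    exact Submodule.map_id M
  constructor
  · intro hab
    show M.map ((a⁻¹ * b).1 : V →ₗ[F] V) = M
    rw [hmul, ← hab, hinv]
  · intro hab
    have h1 : M.map ((a⁻¹ * b).1 : V →ₗ[F] V) = M := hab
    have h2 : b = a * (a⁻¹ * b) := by group
    conv_rhs => rw [h2, hmul, h1]

/-- The number of totally isotropic planes. -/
theorem card_planes_four (hV : finrank F V = 4) :
    Nat.card {M : Submodule F V // IsPlane h M} = (q + 1) * (q ^ 3 + 1) := by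
  classical
  haveI : Finite F := Finite.of_fintype F
  haveI : Finite V := Module.finite_of_finite F
  have hq := two_le_q hF S
  have hQ : (2 : ℤ) ≤ q := by exact_mod_cast hq
  have h1 := Cfsg.Agent.Lib.HermCount.Lines.card_planes (hspace_of_hform hF S) hF 2 hV (q + 1) (by
    simp only [Cfsg.Agent.Lib.HermCount.Space.A]
    push_cast
    ring)
  simp only [Cfsg.Agent.Lib.HermCount.Space.A] at h1
  have h2 : ((q : ℤ) ^ 4 - 1) ≠ 0 := by
    have : (16 : ℤ) ≤ (q : ℤ) ^ 4 := by
      have : (2 : ℤ) ^ 4 ≤ (q : ℤ) ^ 4 := pow_le_pow_left₀ (by norm_num) hQ 4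
      linarith
    linarith
  have h3 : (Nat.card {W // Cfsg.Agent.Lib.HermCount.Lines.X h W} : ℤ) = ((q : ℤ) + 1) * ((q : ℤ) ^ 3 + 1) := by
    apply mul_right_cancel₀ h2
    rw [h1]
    push_cast
    ring
  exact_mod_cast h3

/-- The index of the stabilizer of a totally isotropic plane. -/
theorem index_stab_plane (hV : finrank F V = 4) {M : Submodule F V} (hM : IsPlane h M) :
    (stabSub h M).index = (q + 1) * (q ^ 3 + 1) := by
  classical
  haveI : Finite F := Finite.of_fintype F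
  haveI : Finite (suGroup h) := finite_su
  have h1 := card_range_of_cosets (stabSub h M) (fun g : suGroup h => M.map (g.1 : V →ₗ[F] V))
    (map_plane_eq_iff hF S M)
  have h2 := Subgroup.index_mul_card (stabSub h M)
  have h3 : Nat.card (Set.range fun g : suGroup h => M.map (g.1 : V →ₗ[F] V)) =
      (stabSub h M).index := by
    apply Nat.eq_of_mul_eq_mul_right (Nat.card_pos (α := stabSub h M))
    rw [h1, h2]
  rw [← h3, ← card_planes_four hF S hV]
  apply Nat.card_congr
  refine Equiv.subtypeEquivRight ?_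
  intro W
  constructor
  · rintro ⟨g, rfl⟩
    constructor
    · exact LinearEquiv.finrank_map_eq g.1 M |>.trans hM.1
    · rintro _ ⟨x, hx, rfl⟩ _ ⟨y, hy, rfl⟩
      show h (g.1 x) (g.1 y) = 0
      rw [(mem_suGroup.1 g.2).1]
      exact hM.2 x hx y hy
  · intro hW
    obtain ⟨g, hg⟩ := exists_map_plane hF S hV hM hW
    exact ⟨g, hg⟩

theorem center_le_stab_plane (hV : 2 ≤ finrank F V) (M : Submodule F V) :
    Subgroup.center (suGroup h) ≤ stabSub h M := by
  have hσ := invol_frob' hF S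
  haveI : Finite F := Finite.of_fintype F
  intro z hz
  obtain ⟨a, ha⟩ := scalar_of_mem_center S hσ hV hz
  apply mem_stabSub_of_forall
  intro x hx
  rw [ha]
  exact Submodule.smul_mem _ _ hx

end frob

end Cfsg.Agent.Lib.MinSU
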