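/-
Dimension four: a subgroup of small index does not contain a root group.
-/
import Mathlib
import Cfsg.Agent.Lib.MinSU.Four0
import Cfsg.Agent.Lib.MinSU.Five

set_option autoImplicit false
set_option linter.unusedSimpArgs false
set_option linter.unusedSectionVars false
set_option linter.style.haveILetI false
set_option linter.unusedVariables false

namespace Cfsg.Agent.Lib.MinSU

open Module Cfsg.Agent.Lib.Classical.HermBasic Cfsg.Agent.Lib.Classical.HermElem
open Cfsg.Agent.Lib.Classical.HermGen Cfsg.Agent.Lib.Classical.HermSimple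
open Cfsg.Agent.Lib.HermCount.Field

universe u v

section cosets

variable {G : Type*} [Group G]

theorem cj_of_mem {K : Subgroup G} {k : G} (hk : k ∈ K) : cj k K = K := by
  ext x
  rw [mem_cj]
  constructor
  · intro hx
    have : x = k * (k⁻¹ * x * k) * k⁻¹ := by group
    rw [this]
    exact K.mul_mem (K.mul_mem hk hx) (K.inv_mem hk)
  · intro hx
    exact K.mul_mem (K.mul_mem (K.inv_mem hk) hx) hk

/-- The stabilizer of a coset. -/
noncomputable def Kx (K : Subgroup G) (x : G ⧸ K) : Subgroup G := cj (Quotient.out x) K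

theorem Kx_mk (K : Subgroup G) (g : G) : Kx K (QuotientGroup.mk g) = cj g K := by
  obtain ⟨k, hk⟩ := QuotientGroup.mk_out_eq_mul K g
  unfold Kx
  show cj (QuotientGroup.mk g : G ⧸ K).out K = _
  rw [hk, cj_mul, cj_of_mem k.2]

/-- The coset map of a family with distinct invariants is injective. -/
theorem psi_inj (K Q : Subgroup G) {T ι : Type*}
    (Φ : Subgroup G → T) (hΦ : ∀ u ∈ Q, ∀ L, Φ (cj u L) = Φ L) (y : ι → G)
    (hy : ∀ i, ∀ u ∈ Q, y i * u * (y i)⁻¹ ∈ Q)
    (hinj : Function.Injective fun i => Φ (cj (y i) K)) :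
    Function.Injective fun p : ι × (Q ⧸ K.subgroupOf Q) =>
      (QuotientGroup.mk (y p.1 * (Quotient.out p.2 : Q).1) : G ⧸ K) := by
  classical
  rintro ⟨i, a⟩ ⟨j, b⟩ hab
  have hab' : (y i * (Quotient.out a : Q).1)⁻¹ * (y j * (Quotient.out b : Q).1) ∈ K :=
    QuotientGroup.eq.1 hab
  set u := (Quotient.out a : Q) with hu
  set v := (Quotient.out b : Q) with hv
  have hij : i = j := by
    apply hinj
    show Φ (cj (y i) K) = Φ (cj (y j) K)
    have h1 : cj (y i * u.1) K = cj (y j * v.1) K := by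
      rw [← Kx_mk K (y i * u.1), ← Kx_mk K (y j * v.1)]
      exact congrArg (Kx K) hab
    have h2 : y i * u.1 = (y i * u.1 * (y i)⁻¹) * y i := by group
    have h3 : y j * v.1 = (y j * v.1 * (y j)⁻¹) * y j := by group
    have h4 : cj (y i * u.1) K = cj (y i * u.1 * (y i)⁻¹) (cj (y i) K) := by
      rw [← cj_mul, ← h2]
    have h5 : cj (y j * v.1) K = cj (y j * v.1 * (y j)⁻¹) (cj (y j) K) := by
      rw [← cj_mul, ← h3]
    rw [← hΦ _ (hy i u.1 u.2) (cj (y i) K), ← h4, h1, h5, hΦ _ (hy j v.1 v.2)]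
  subst hij
  have hmem : u⁻¹ * v ∈ K.subgroupOf Q := by
    rw [Subgroup.mem_subgroupOf]
    have : (y i * u.1)⁻¹ * (y i * v.1) = u.1⁻¹ * v.1 := by group
    rw [this] at hab'
    exact hab'
  have hab2 : (QuotientGroup.mk u : Q ⧸ K.subgroupOf Q) = QuotientGroup.mk v :=
    QuotientGroup.eq.2 hmem
  have h6 : (QuotientGroup.mk u : Q ⧸ K.subgroupOf Q) = a := QuotientGroup.out_eq' a
  have h7 : (QuotientGroup.mk v : Q ⧸ K.subgroupOf Q) = b := QuotientGroup.out_eq' b
  rw [Prod.mk.injEq]
  exact ⟨rfl, by rw [← h6, ← h7, hab2]⟩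

end cosets

variable {F : Type u} [Field F] {V : Type v} [AddCommGroup V] [Module F V]
variable {σ : F →+* F} {h : V → V → F}

section frob

variable [Fintype F] [FiniteDimensional F V] {q : ℕ} (hF : Fintype.card F = q ^ 2)
variable (S : HForm (frobHom hF) h)

section rootconj

variable (S' : HForm σ h) (hσ : Invol σ)

include S' hσ

omit [Fintype F] in
theorem rootX_cj (K : Subgroup (suGroup h)) {v w : V} (hvv : h v v = 0) (hww : h w w = 0) {g : suGroup h}
    (hg : g.1 v = w) (hle : rootX S' hσ v hvv ≤ K) : rootX S' hσ w hww ≤ cj g K := by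
  rintro x ⟨a, E⟩
  have hu' := (mem_suGroup.1 (g⁻¹).2).1
  have h1 := E.conj hu'
  have h2 : (g⁻¹).1 w = v := by
    rw [← hg]
    exact g.1.symm_apply_apply v
  rw [h2, map_zero] at h1
  have h3 : g⁻¹ * x * g⁻¹⁻¹ ∈ K := hle ⟨a, h1⟩
  rw [mem_cj]
  simpa using h3

end rootconj

include S

variable {e f : V} (H : IsHP h e f)

theorem index_of_local {L : Subgroup (suGroup h)} (hV : finrank F V = 4) (D : LocalData hF S H L) :
    (L.subgroupOf (radQ S (invol_frob' hF S) e H.ee)).index = q ^ 3 := by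
  have hσ := invol_frob' hF S
  haveI : Finite F := Finite.of_fintype F
  haveI : Finite (suGroup h) := finite_su
  have hq := two_le_q hF S
  have hfr : finrank F (perp2 S e f) = 2 := by
    have := finrank_perp2 S H
    omega
  have h1 := index_formula S hσ H L
  rw [D.A0, D.cardB, Aof_top, card_Bof_top S hσ H, card_pure_frob hF S,
    card_perp_frob hF S H 2 hfr] at h1
  have h2 : Nat.card (⊥ : AddSubgroup F) = 1 := Nat.card_unique
  rw [h2, one_mul] at h1
  apply Nat.eq_of_mul_eq_mul_right (show 0 < q ^ 2 by positivity)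
  rw [h1]
  ring

/-- The set of cosets covered by the family of a subgroup with local data. -/
theorem exists_cosets (hV : finrank F V = 4) {L : Subgroup (suGroup h)} (D : LocalData hF S H L) :
    ∃ Sc : Set (suGroup h ⧸ L), (q + 1) * q ^ 3 ≤ Nat.card Sc ∧
      (∀ x ∈ Sc, ¬ rootX S (invol_frob' hF S) e H.ee ≤ Kx L x) ∧
      (∀ g : suGroup h, (QuotientGroup.mk g : suGroup h ⧸ L) ∈ Sc →
        ∀ u ∈ radQ S (invol_frob' hF S) e H.ee, (QuotientGroup.mk (u * g) : suGroup h ⧸ L) ∈ Sc) ∧
      (∀ x ∈ Sc, ∃ (t : F) (y u : suGroup h), NP (frobHom hF) e f t y.1 ∧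
        u ∈ radQ S (invol_frob' hF S) e H.ee ∧ x = QuotientGroup.mk (y * u)) := by
  classical
  have hσ := invol_frob' hF S
  haveI : Finite F := Finite.of_fintype F
  haveI : Finite V := Module.finite_of_finite F
  haveI : Finite (suGroup h) := finite_su
  have hq := two_le_q hF S
  set B := Bof S hσ H L with hB
  let R := NPR (frobHom hF) h e f
  let t : R → F := fun r => r.1.2
  let y : R → suGroup h := fun r => r.1.1
  have hy : ∀ r : R, NP (frobHom hF) e f (t r) (y r).1 := fun r => r.2.1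
  haveI : Finite (AddSubgroup V) :=
    Finite.of_injective (fun H : AddSubgroup V => (H : Set V)) SetLike.coe_injective
  have hrep : ∀ A : famB (σ := frobHom hF) B t y, ∃ r,
      B.map (hatY (frobHom hF) (t r) (y r).1) = A.1 := fun A => A.2
  choose rep hrep using hrep
  let J := famB (σ := frobHom hF) B t y
  let Y : J → suGroup h := fun A => y (rep A)
  set Q := radQ S hσ e H.ee with hQ
  have hinj := psi_inj L Q (fun L => (Aof S hσ e H.ee L, Bof S hσ H L))
    (fun u hu L => by
      show (_, _) = (_, _)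
      rw [Aof_cj_radQ S hσ H hu, Bof_cj_radQ S hσ H hu])
    Y (fun i u hu => NP.conj_radQ S hσ H (hy _) hu) (by
      intro A A' hAA
      have h2 := congrArg Prod.snd hAA
      simp only [Y, Bof_conj S hσ H (hy _)] at h2
      rw [← hB, hrep, hrep] at h2
      exact Subtype.ext h2)
  refine ⟨Set.range fun p : J × (Q ⧸ L.subgroupOf Q) =>
      (QuotientGroup.mk (Y p.1 * (Quotient.out p.2 : Q).1) : suGroup h ⧸ L), ?_, ?_, ?_, ?_⟩
  · rw [Nat.card_range_of_injective hinj, Nat.card_prod, ← Subgroup.index_eq_card,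
      index_of_local hF S H hV D]
    exact Nat.mul_le_mul_right _ D.fam
  · rintro _ ⟨⟨A, c⟩, rfl⟩
    rw [rootX_le_iff S hσ H.ee]
    simp only [Kx_mk]
    rw [cj_mul, Aof_conj S hσ H (hy _), Aof_cj_radQ S hσ H (Quotient.out c : Q).2, D.A0]
    intro h0
    obtain ⟨c, hc0, hc⟩ := hσ.exists_pure
    have h1 : c ∈ pureF (frobHom hF) := hc
    rw [← h0] at h1
    obtain ⟨b, hb, hbc⟩ := h1
    have hb0 : b = 0 := hb
    rw [hb0] at hbc
    simp at hbc
    exact hc0 hbc.symm
  · rintro g ⟨⟨A, c⟩, hc⟩ u hu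
    have hc' : (QuotientGroup.mk (Y A * (Quotient.out c : Q).1) : suGroup h ⧸ L) =
        QuotientGroup.mk g := hc
    -- moving `u` across `Y A`
    have hmem : (Y A)⁻¹ * u * Y A ∈ Q := by
      have HY' : NP (frobHom hF) e f (t (rep A))⁻¹ ((Y A)⁻¹).1 := (hy (rep A)).inv hσ
      have := NP.conj_radQ S hσ H HY' hu
      simpa using this
    set c₀ := (Quotient.out c : Q) with hc₀
    let w : Q := ⟨(Y A)⁻¹ * u * Y A, hmem⟩
    let w' : Q := w * c₀
    refine ⟨⟨A, QuotientGroup.mk w'⟩, ?_⟩
    have h1 := QuotientGroup.eq.1 hc'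
    have h2 : (QuotientGroup.mk (Quotient.out (QuotientGroup.mk w' : Q ⧸ L.subgroupOf Q)) :
        Q ⧸ L.subgroupOf Q) = QuotientGroup.mk w' := QuotientGroup.out_eq' _
    have h3 := QuotientGroup.eq.1 h2
    rw [Subgroup.mem_subgroupOf] at h3
    show (QuotientGroup.mk (Y A * (Quotient.out (QuotientGroup.mk w' : Q ⧸ L.subgroupOf Q) : Q).1) :
      suGroup h ⧸ L) = QuotientGroup.mk (u * g)
    apply QuotientGroup.eq.2
    set o := (Quotient.out (QuotientGroup.mk w' : Q ⧸ L.subgroupOf Q) : Q) with ho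
    have h4 : (Y A * o.1)⁻¹ * (u * g) = (o⁻¹ * w').1 * ((Y A * c₀.1)⁻¹ * g) := by
      simp only [w', w, Subgroup.coe_mul, InvMemClass.coe_inv]
      group
    rw [h4]
    refine L.mul_mem ?_ h1
    exact h3
  · rintro _ ⟨⟨A, c⟩, rfl⟩
    exact ⟨t (rep A), Y A, (Quotient.out c : Q).1, hy _, (Quotient.out c : Q).2, rfl⟩

/-- Few cosets are fixed by the root group. -/
theorem card_fix_le_of (hV : finrank F V = 4) {L : Subgroup (suGroup h)}
    (hA : Aof S (invol_frob' hF S) e H.ee L ≠ pureF (frobHom hF))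
    (hidx : L.index < (q + 1) * (q ^ 3 + 1)) :
    Nat.card {x : suGroup h ⧸ L // rootX S (invol_frob' hF S) e H.ee ≤ Kx L x} ≤ q := by
  classical
  have hσ := invol_frob' hF S
  haveI : Finite F := Finite.of_fintype F
  haveI : Finite (suGroup h) := finite_su
  have D := local4 hF S H hV L hA hidx
  obtain ⟨Sc, hc, hn, -⟩ := exists_cosets hF S H hV D
  set Fx := {x : suGroup h ⧸ L // rootX S hσ e H.ee ≤ Kx L x} with hFx
  have h1 : Nat.card Fx + Nat.card Sc ≤ L.index := by
    rw [Subgroup.index_eq_card, ← Nat.card_sum]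
    refine Nat.card_le_card_of_injective (fun p => match p with
      | Sum.inl x => x.1
      | Sum.inr x => x.1) ?_
    rintro (x | x) (x' | x') hxx
    · exact congrArg _ (Subtype.ext hxx)
    · exact absurd (show rootX S hσ e H.ee ≤ Kx L x'.1 from (show x.1 = x'.1 from hxx) ▸ x.2) (hn _ x'.2)
    · exact absurd (show rootX S hσ e H.ee ≤ Kx L x.1 from (show x'.1 = x.1 from hxx.symm) ▸ x'.2) (hn _ x.2)
    · exact congrArg _ (Subtype.ext hxx)
  have h2 : (q + 1) * (q ^ 3 + 1) = (q + 1) * q ^ 3 + (q + 1) := by ring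
  omega

omit H in
/-- A proper subgroup has a conjugate missing a given root group. -/
theorem exists_not_le (hV : finrank F V = 4) {K : Subgroup (suGroup h)} (hK : K ≠ ⊤) {v : V}
    (hv0 : v ≠ 0) (hvv : h v v = 0) : ∃ g : suGroup h, ¬ rootX S (invol_frob' hF S) v hvv ≤ cj g K := by
  classical
  have hσ := invol_frob' hF S
  haveI : Finite F := Finite.of_fintype F
  have hex : ∃ (e : V) (he0 : e ≠ 0) (hee : h e e = 0), ¬ rootX S hσ e hee ≤ K := by
    by_contra hc
    push Not at hc
    apply hK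
    rw [eq_top_iff]
    have hcl := Cfsg.Agent.Lib.Classical.HermTransv.closure_transv_eq_top S hσ (Or.inl (by omega)) (by omega)
    rw [← hcl, Subgroup.closure_le]
    rintro g ⟨e, c, he0, E⟩
    exact hc e he0 E.ee ⟨c, E⟩
  obtain ⟨e₀, he₀, he₀e₀, hne⟩ := hex
  obtain ⟨g, hg⟩ := exists_su_map S hσ (by omega) he₀ hv0 he₀e₀ hvv
  refine ⟨g, fun hle => hne ?_⟩
  have h1 : (g⁻¹).1 v = e₀ := by
    rw [← hg]
    exact g.1.symm_apply_apply e₀
  have h2 := rootX_cj S hσ (cj g K) hvv he₀e₀ h1 hle
  rwa [cj_inv_cj] at h2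

omit H in
/-- Few cosets are fixed by a root group. -/
theorem card_fix_le (hV : finrank F V = 4) {K : Subgroup (suGroup h)} (hK : K ≠ ⊤)
    (hidx : K.index < (q + 1) * (q ^ 3 + 1)) {v : V} (hv0 : v ≠ 0) (hvv : h v v = 0) :
    Nat.card {x : suGroup h ⧸ K // rootX S (invol_frob' hF S) v hvv ≤ Kx K x} ≤ q := by
  classical
  have hσ := invol_frob' hF S
  haveI : Finite F := Finite.of_fintype F
  haveI : Finite (suGroup h) := finite_su
  obtain ⟨g, hg⟩ := exists_not_le hF S hV hK hv0 hvv
  obtain ⟨f, hff, hfe⟩ := S.exists_partner hσ hv0 hvv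
  have H : IsHP h v f := ⟨hvv, hff, hfe⟩
  have hA : Aof S hσ v hvv (cj g K) ≠ pureF (frobHom hF) := by
    intro h0
    exact hg ((rootX_le_iff S hσ hvv _).2 h0)
  have h1 := card_fix_le_of hF S H hV hA (by rw [index_cj]; exact hidx)
  refine le_trans ?_ h1
  refine Nat.card_le_card_of_injective (fun x =>
    ⟨QuotientGroup.mk (Quotient.out x.1 * g⁻¹), ?_⟩) ?_
  · have h2 := x.2
    rw [Kx_mk, ← cj_mul, inv_mul_cancel_right]
    exact h2
  · intro x x' hxx
    have h3 : (QuotientGroup.mk (Quotient.out x.1 * g⁻¹) : suGroup h ⧸ cj g K) =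
        QuotientGroup.mk (Quotient.out x'.1 * g⁻¹) := congrArg Subtype.val hxx
    have h4 := QuotientGroup.eq.1 h3
    rw [mem_cj] at h4
    have h5 : g⁻¹ * ((Quotient.out x.1 * g⁻¹)⁻¹ * (Quotient.out x'.1 * g⁻¹)) * g =
        (Quotient.out x.1)⁻¹ * Quotient.out x'.1 := by group
    rw [h5] at h4
    have h6 : (QuotientGroup.mk (Quotient.out x.1) : suGroup h ⧸ K) =
        QuotientGroup.mk (Quotient.out x'.1) := QuotientGroup.eq.2 h4
    rw [QuotientGroup.out_eq', QuotientGroup.out_eq'] at h6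
    exact Subtype.ext h6

omit H in
/-- The double count of root groups. -/
theorem rootSet_count (hV : finrank F V = 4) {K : Subgroup (suGroup h)} (hK : K ≠ ⊤)
    (hidx : K.index < (q + 1) * (q ^ 3 + 1)) :
    K.index * Nat.card (rootSet S (invol_frob' hF S) K) ≤
      Nat.card {v : V // v ≠ 0 ∧ h v v = 0} * q := by
  classical
  have hσ := invol_frob' hF S
  haveI : Finite F := Finite.of_fintype F
  haveI : Finite V := Module.finite_of_finite F
  haveI : Finite (suGroup h) := finite_su
  rw [Subgroup.index_eq_card]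
  refine double_count (fun (x : suGroup h ⧸ K) (v : {v : V // v ≠ 0 ∧ h v v = 0}) =>
    rootX S hσ v.1 v.2.2 ≤ Kx K x) _ _ ?_ ?_
  · intro x
    have hval : ∀ w : rootSet S hσ K, (Quotient.out x).1 w.1 ≠ 0 ∧
        h ((Quotient.out x).1 w.1) ((Quotient.out x).1 w.1) = 0 := by
      intro w
      obtain ⟨hw0, hww, -⟩ := w.2
      refine ⟨by simpa using hw0, ?_⟩
      rw [(mem_suGroup.1 (Quotient.out x).2).1]
      exact hww
    refine Nat.card_le_card_of_injective (fun w => ⟨⟨(Quotient.out x).1 w.1, hval w⟩, ?_⟩) ?_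
    · obtain ⟨hw0, hww, hle⟩ := w.2
      exact rootX_cj S hσ K hww (hval w).2 rfl hle
    · intro w w' hww
      have h1 : (Quotient.out x).1 w.1 = (Quotient.out x).1 w'.1 :=
        congrArg (fun p : {b : {v : V // v ≠ 0 ∧ h v v = 0} // rootX S hσ b.1 b.2.2 ≤ Kx K x} => p.1.1) hww
      exact Subtype.ext ((Quotient.out x).1.injective h1)
  · intro v
    exact card_fix_le hF S hV hK hidx v.2.1 v.2.2

/-- Two non-orthogonal root groups in a subgroup of small index are impossible. -/
theorem rootSet_large (hV : finrank F V = 4) {K : Subgroup (suGroup h)} (hK : K ≠ ⊤)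
    (hidx : K.index < (q + 1) * (q ^ 3 + 1))
    (he : rootX S (invol_frob' hF S) e H.ee ≤ K) (hfR : f ∈ rootSet S (invol_frob' hF S) K) :
    q ^ 4 ≤ Nat.card (rootSet S (invol_frob' hF S) K) := by
  classical
  have hσ := invol_frob' hF S
  haveI : Finite F := Finite.of_fintype F
  haveI : Finite V := Module.finite_of_finite F
  haveI : Finite (suGroup h) := finite_su
  have hq := two_le_q hF S
  have hfr : finrank F (perp2 S e f) = 2 := by
    have := finrank_perp2 S H
    omega
  have he0 : e ≠ 0 := H.ne_left S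
  set Q := radQ S hσ e H.ee with hQ
  -- the orbit of the base coset
  have h1 : (K.subgroupOf Q).index ≤ q := by
    refine le_trans ?_ (card_fix_le hF S hV hK hidx he0 H.ee)
    rw [Subgroup.index_eq_card]
    refine Nat.card_le_card_of_injective (fun c => ⟨QuotientGroup.mk (Quotient.out c : Q).1, ?_⟩) ?_
    · rw [Kx_mk, rootX_le_iff S hσ H.ee, Aof_cj_radQ S hσ H (Quotient.out c : Q).2,
        ← rootX_le_iff S hσ H.ee]
      exact he
    · intro c c' hcc
      have h2 : (QuotientGroup.mk (Quotient.out c : Q).1 : suGroup h ⧸ K) =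
          QuotientGroup.mk (Quotient.out c' : Q).1 := congrArg Subtype.val hcc
      have h3 := QuotientGroup.eq.1 h2
      have h4 : (QuotientGroup.mk (Quotient.out c) : Q ⧸ K.subgroupOf Q) =
          QuotientGroup.mk (Quotient.out c') := by
        apply QuotientGroup.eq.2
        rw [Subgroup.mem_subgroupOf]
        simpa using h3
      rwa [QuotientGroup.out_eq', QuotientGroup.out_eq'] at h4
  have h5 := index_formula S hσ H K
  rw [Aof_top, card_Bof_top S hσ H, card_pure_frob hF S, card_perp_frob hF S H 2 hfr] at h5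
  rw [← card_inf_radQ S hσ H K] at h5
  have h6 : q ^ 4 ≤ Nat.card ↥(K ⊓ Q) := by
    apply Nat.le_of_mul_le_mul_left _ (show 0 < q by omega)
    calc q * q ^ 4 = (K.subgroupOf Q).index * Nat.card ↥(K ⊓ Q) := by
          rw [h5]
      _ ≤ q * Nat.card ↥(K ⊓ Q) := Nat.mul_le_mul_right _ h1
  refine h6.trans ?_
  refine Nat.card_le_card_of_injective (fun g => ⟨g.1.1 f, rootSet_conj S hσ hfR g.2.1⟩) ?_
  intro g g' hgg
  have h7 : g.1.1 f = g'.1.1 f := congrArg Subtype.val hgg
  -- the element fixes `f`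
  set x := g'.1⁻¹ * g.1 with hx
  have hxQ : x ∈ Q := Q.mul_mem (Q.inv_mem g'.2.2) g.2.2
  have hxf : x.1 f = f := by
    show (g'.1⁻¹).1 (g.1.1 f) = f
    rw [h7]
    exact g'.1.1.symm_apply_apply f
  have E := exists_normal_params S hσ H hxQ
  have hp : proj e f f h = 0 := by
    unfold proj
    rw [H.ff, H.fe]
    simp
  rw [hxf, hp, H.ff] at E
  have hx1 : x = 1 := by
    apply Subtype.ext
    apply LinearEquiv.ext
    intro y
    rw [E.apply]
    simp [S.zero_left, S.zero_right]
  apply Subtype.ext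
  apply Subtype.ext
  have h8 : g.1 = g'.1 := by
    have h9 : g.1 = g'.1 * x := by rw [hx]; group
    rw [h9, hx1, mul_one]
  rw [h8]

omit H in
/-- Root groups in a subgroup of small index are pairwise orthogonal. -/
theorem rootSet_orth (hV : finrank F V = 4) {K : Subgroup (suGroup h)} (hK : K ≠ ⊤)
    (hidx : K.index < (q + 1) * (q ^ 3 + 1)) {a b : V} (ha : a ∈ rootSet S (invol_frob' hF S) K)
    (hb : b ∈ rootSet S (invol_frob' hF S) K) : h b a = 0 := by
  classical
  have hσ := invol_frob' hF S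
  haveI : Finite F := Finite.of_fintype F
  haveI : Finite V := Module.finite_of_finite F
  have hq := two_le_q hF S
  by_contra hne
  obtain ⟨ha0, haa, hale⟩ := ha
  have hb' := hb
  obtain ⟨hb0, hbb, hble⟩ := hb
  set c := (h b a)⁻¹ with hc
  have hc0 : c ≠ 0 := inv_ne_zero hne
  have H : IsHP h a (c • b) := by
    refine ⟨haa, ?_, ?_⟩
    · rw [S.smul_left, S.smul_right, hbb]
      ring
    · rw [S.smul_left, hc]
      exact inv_mul_cancel₀ hne
  have h1 := rootSet_large hF S H hV hK hidx hale (rootSet_smul S hσ hb' hc0)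
  have h2 := rootSet_count hF S hV hK hidx
  have h3 := weak_four hF S hV K hK
  have h4 := card_sing_vectors hF S 3 (by omega)
  set r := Nat.card (rootSet S hσ K) with hr
  set s := Nat.card {v : V // v ≠ 0 ∧ h v v = 0} with hs
  have e1 : (-1 : ℤ) ^ (3 + 1) = 1 := by norm_num
  have e2 : (-1 : ℤ) ^ 3 = -1 := by norm_num
  rw [e1, e2] at h4
  have h5 : (q ^ 3 * (q + 1)) * q ^ 4 ≤ s * q := by
    calc (q ^ 3 * (q + 1)) * q ^ 4 ≤ K.index * r := Nat.mul_le_mul h3 h1
      _ ≤ s * q := h2
  have h6 : ((q ^ 3 * (q + 1)) * q ^ 4 : ℤ) ≤ (s : ℤ) * q := by exact_mod_cast h5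
  rw [h4] at h6
  have hQ : (2 : ℤ) ≤ q := by exact_mod_cast hq
  have h8 : ((q : ℤ) ^ 3 * ((q : ℤ) + 1)) * (q : ℤ) ^ 4 = (q : ℤ) ^ 8 + (q : ℤ) ^ 7 := by ring
  have h9 : (((q : ℤ) ^ (3 + 1) - 1) * ((q : ℤ) ^ 3 - -1)) * (q : ℤ) =
      (q : ℤ) ^ 8 + (q : ℤ) ^ 5 - (q : ℤ) ^ 4 - (q : ℤ) := by ring
  rw [h8, h9] at h6
  have h10 : (q : ℤ) ^ 5 ≤ (q : ℤ) ^ 7 := pow_le_pow_right₀ (by omega) (by norm_num)
  have h11 : (0 : ℤ) < (q : ℤ) ^ 4 := by positivity
  linarith

omit H in
/-- A subgroup of small index contains no root group. -/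
theorem root_case (hV : finrank F V = 4) {K : Subgroup (suGroup h)} (hK : K ≠ ⊤)
    (hidx : K.index < (q + 1) * (q ^ 3 + 1)) : rootSet S (invol_frob' hF S) K = ∅ := by
  classical
  have hσ := invol_frob' hF S
  haveI : Finite F := Finite.of_fintype F
  haveI : Finite V := Module.finite_of_finite F
  haveI : Finite (suGroup h) := finite_su
  have hq := two_le_q hF S
  by_contra hne
  obtain ⟨y, hy⟩ := Set.nonempty_iff_ne_empty.2 hne
  have hy0 := hy.1
  obtain ⟨hyy, -⟩ := hy.2
  have horth := fun {a b : V} ha hb => rootSet_orth hF S hV hK hidx (a := a) (b := b) ha hb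
  have hpos : 0 < K.index := Nat.pos_of_ne_zero Subgroup.index_ne_zero_of_finite
  by_cases hall : ∀ r ∈ rootSet S hσ K, r ∈ Submodule.span F {y}
  · -- all in one point
    have hle : K ≤ stabSub h (Submodule.span F {y}) := by
      intro g hg
      apply mem_stabSub_of_forall
      intro x hx
      obtain ⟨c, rfl⟩ := Submodule.mem_span_singleton.1 hx
      rw [map_smul]
      exact Submodule.smul_mem _ _ (hall _ (rootSet_conj S hσ hy hg))
    have h1 := index_sing_bound hF S 3 (by omega) (by omega) hy0 hyy hle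
    have e1 : (-1 : ℤ) ^ (3 + 1) = 1 := by norm_num
    have e2 : (-1 : ℤ) ^ 3 = -1 := by norm_num
    rw [e1, e2] at h1
    have hcast : ((q ^ 2 - 1 : ℕ) : ℤ) = (q : ℤ) ^ 2 - 1 := by
      have : 1 ≤ q ^ 2 := Nat.one_le_pow _ _ (by omega)
      push_cast [Nat.cast_sub this]
      ring
    rw [hcast] at h1
    have hQ : (2 : ℤ) ≤ q := by exact_mod_cast hq
    have hq1 : (0 : ℤ) < (q : ℤ) ^ 2 - 1 := by nlinarith
    have h2 : ((q : ℤ) ^ 2 - 1) * (((q : ℤ) ^ 2 + 1) * ((q : ℤ) ^ 3 + 1)) ≤
        ((q : ℤ) ^ 2 - 1) * (K.index : ℤ) := by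
      refine le_trans (le_of_eq ?_) h1
      ring
    have h3 := le_of_mul_le_mul_left h2 hq1
    have h4 : ((q + 1) * (q ^ 3 + 1) : ℤ) ≤ K.index := by
      refine le_trans ?_ h3
      apply mul_le_mul_of_nonneg_right _ (by positivity)
      nlinarith
    have h5 : (q + 1) * (q ^ 3 + 1) ≤ K.index := by exact_mod_cast h4
    omega
  · push Not at hall
    obtain ⟨z, hz, hzy⟩ := hall
    -- the plane through `y` and `z`
    obtain ⟨f, hff, hfe⟩ := S.exists_partner hσ hy0 hyy
    have H : IsHP h y f := ⟨hyy, hff, hfe⟩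
    have hfr : finrank F (perp2 S y f) = 2 := by
      have := finrank_perp2 S H
      omega
    have hyf : h y f = 1 := H.ef S
    have hzz : h z z = 0 := hz.2.1
    have hzy' : h z y = 0 := horth hy hz
    have hyz' : h y z = 0 := horth hz hy
    set M := Submodule.span F {y, z} with hM
    have hli : LinearIndependent F ![y, z] := by
      rw [LinearIndependent.pair_iff]
      intro s t hst
      by_cases ht : t = 0
      · subst ht
        simp only [zero_smul, add_zero] at hst
        exact ⟨(smul_eq_zero.1 hst).resolve_right hy0, rfl⟩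
      · exfalso
        apply hzy
        have h1 : z = (-(t⁻¹ * s)) • y := by
          have h2 : t • z = (-s) • y := by
            rw [neg_smul]
            exact (eq_neg_of_add_eq_zero_right hst)
          have h3 : t⁻¹ • (t • z) = t⁻¹ • ((-s) • y) := by rw [h2]
          rw [smul_smul, inv_mul_cancel₀ ht, one_smul, smul_smul] at h3
          rw [h3]
          congr 1
          ring
        rw [h1]
        exact Submodule.smul_mem _ _ (Submodule.mem_span_singleton_self y)
    have hfrM : finrank F M = 2 := by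
      have h1 := finrank_span_eq_card hli
      have e : Set.range ![y, z] = {y, z} := by
        ext x
        simp [Fin.exists_fin_two, eq_comm]
        tauto
      rw [e] at h1
      simpa using h1
    have hti : ∀ a ∈ M, ∀ b ∈ M, h a b = 0 := by
      intro a ha b hb
      obtain ⟨α, β, rfl⟩ := Submodule.mem_span_pair.1 ha
      obtain ⟨γ, δ, rfl⟩ := Submodule.mem_span_pair.1 hb
      simp only [S.add_left, S.add_right, S.smul_left, S.smul_right, hyy, hzz, hzy', hyz']
      ring
    have hPl : IsPlane h M := ⟨hfrM, hti⟩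
    -- every root vector lies in the plane
    have hRM : ∀ r ∈ rootSet S hσ K, r ∈ M := by
      intro r hr
      have hrr : h r r = 0 := hr.2.1
      have hry : h r y = 0 := horth hy hr
      have hrz : h r z = 0 := horth hz hr
      have hproj : ∀ x : V, h x y = 0 → x - h x f • y ∈ perp2 S y f := by
        intro x hx
        constructor
        · rw [S.sub_left, S.smul_left, hx, hyy]
          ring
        · rw [S.sub_left, S.smul_left, hyf]
          ring
      set z₀ := z - h z f • y with hz₀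
      have hz₀0 : z₀ ≠ 0 := by
        intro h0
        apply hzy
        rw [sub_eq_zero.1 h0]
        exact Submodule.smul_mem _ _ (Submodule.mem_span_singleton_self y)
      have hz₀z₀ : h z₀ z₀ = 0 := by
        rw [hz₀]
        simp only [S.sub_left, S.sub_right, S.smul_left, S.smul_right, hzz, hzy', hyz', hyy]
        ring
      have hrz₀ : h (r - h r f • y) z₀ = 0 := by
        rw [hz₀]
        simp only [S.sub_left, S.sub_right, S.smul_left, S.smul_right, hrz, hry, hyz', hyy]
        ring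
      obtain ⟨c, hc⟩ := eq_smul_of_orth S hσ H hfr (hproj z hzy') hz₀0 hz₀z₀ (hproj r hry) hrz₀
      have h1 : r = c • z₀ + h r f • y := by
        rw [← hc]
        abel
      rw [h1, hz₀]
      have hyM : y ∈ M := Submodule.subset_span (by simp)
      have hzM : z ∈ M := Submodule.subset_span (by simp)
      exact M.add_mem (M.smul_mem _ (M.sub_mem hzM (M.smul_mem _ hyM))) (M.smul_mem _ hyM)
    have hle : K ≤ stabSub h M := by
      intro g hg
      apply mem_stabSub_of_forall
      intro x hx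
      obtain ⟨α, β, rfl⟩ := Submodule.mem_span_pair.1 hx
      rw [map_add, map_smul, map_smul]
      exact M.add_mem (M.smul_mem _ (hRM _ (rootSet_conj S hσ hy hg)))
        (M.smul_mem _ (hRM _ (rootSet_conj S hσ hz hg)))
    have h1 := index_stab_plane hF S hV hPl
    have h2 : (stabSub h M).index ≤ K.index :=
      Nat.le_of_dvd hpos (Subgroup.index_dvd_of_le hle)
    omega

end frob

end Cfsg.Agent.Lib.MinSU
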