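/-
Dimension four: the groups attached to a totally isotropic plane.
-/
import Mathlib
import Cfsg.Agent.Lib.MinSU.Four2

set_option autoImplicit false
set_option linter.unusedSimpArgs false
set_option linter.unusedSectionVars false
set_option linter.style.haveILetI false
set_option linter.unusedVariables false

namespace Cfsg.Agent.Lib.MinSU

open Module Cfsg.Agent.Lib.Classical.HermBasic Cfsg.Agent.Lib.Classical.HermElem
open Cfsg.Agent.Lib.Classical.HermGen Cfsg.Agent.Lib.Classical.HermSimple
open Cfsg.Agent.Lib.HermCount.Field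

universe u v

variable {F : Type u} [Field F] {V : Type v} [AddCommGroup V] [Module F V]
variable {σ : F →+* F} {h : V → V → F}

/-- The group of elements acting trivially on a subspace and on its quotient. -/
def lineG (h : V → V → F) (M : Submodule F V) : Subgroup (suGroup h) where
  carrier := {g | (∀ x, g.1 x - x ∈ M) ∧ ∀ y ∈ M, g.1 y = y}
  mul_mem' := by
    rintro a b ⟨ha1, ha2⟩ ⟨hb1, hb2⟩
    constructor
    · intro x
      have h1 : (a * b).1 x - x = (a.1 (b.1 x) - b.1 x) + (b.1 x - x) := by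
        show a.1 (b.1 x) - x = _
        abel
      rw [h1]
      exact M.add_mem (ha1 _) (hb1 _)
    · intro y hy
      show a.1 (b.1 y) = y
      rw [hb2 y hy, ha2 y hy]
  one_mem' := by
    constructor
    · intro x
      show x - x ∈ M
      simp
    · intro y _
      rfl
  inv_mem' := by
    rintro a ⟨ha1, ha2⟩
    have hinv : ∀ x, a.1 ((a⁻¹).1 x) = x := fun x => a.1.apply_symm_apply x
    constructor
    · intro x
      have h1 := ha1 ((a⁻¹).1 x)
      rw [hinv] at h1
      have h2 : (a⁻¹).1 x - x = -(x - (a⁻¹).1 x) := by abel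
      rw [h2]
      exact M.neg_mem h1
    · intro y hy
      have h1 := ha2 y hy
      have h2 : (a⁻¹).1 (a.1 y) = y := a.1.symm_apply_apply y
      rw [h1] at h2
      exact h2

theorem mem_lineG {M : Submodule F V} {g : suGroup h} :
    g ∈ lineG h M ↔ (∀ x, g.1 x - x ∈ M) ∧ ∀ y ∈ M, g.1 y = y := Iff.rfl

section frob

variable [Fintype F] [FiniteDimensional F V] {q : ℕ} (hF : Fintype.card F = q ^ 2)
variable (S : HForm (frobHom hF) h)

include S

/-- Skew-symmetry of the nilpotent part. -/
theorem line_skew {M : Submodule F V} (hM : IsPlane h M) {g : suGroup h} (hg : g ∈ lineG h M)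
    (x y : V) : h (g.1 x - x) y + h x (g.1 y - y) = 0 := by
  have h1 := (mem_suGroup.1 g.2).1 x y
  have h2 := hM.2 _ (hg.1 x) _ (hg.1 y)
  simp only [S.sub_left, S.sub_right] at h2 ⊢
  linear_combination h1 - h2

theorem line_pure {M : Submodule F V} (hM : IsPlane h M) {g : suGroup h} (hg : g ∈ lineG h M)
    (a : V) : h (g.1 a - a) a + frobHom hF (h (g.1 a - a) a) = 0 := by
  have h1 := line_skew hF S hM hg a a
  have h2 : h a (g.1 a - a) = frobHom hF (h (g.1 a - a) a) := S.conj _ _
  rw [← h2]
  exact h1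

theorem line_mul_sub {M : Submodule F V} {a b : suGroup h} (ha : a ∈ lineG h M) (hb : b ∈ lineG h M)
    (x : V) : (a * b).1 x - x = (a.1 x - x) + (b.1 x - x) := by
  have h1 : (a * b).1 x = a.1 (b.1 x) := rfl
  have h2 : b.1 x = x + (b.1 x - x) := by abel
  have h3 : a.1 (x + (b.1 x - x)) = a.1 x + (b.1 x - x) := by
    rw [map_add, ha.2 _ (hb.1 x)]
  rw [h1]
  conv_lhs => rw [h2, h3]
  abel

/-- The orthogonal of a plane is contained in the plane. -/
theorem plane_perp_mem (hV : finrank F V = 4) {M : Submodule F V} (hM : IsPlane h M)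
    {a : V} (ha : ∀ y ∈ M, h y a = 0) : a ∈ M := by
  classical
  have hσ := invol_frob' hF S
  haveI : Finite F := Finite.of_fintype F
  have h1 : M ≠ ⊥ := by
    intro h0
    have := hM.1
    rw [h0] at this
    simp at this
  obtain ⟨u, hu, hu0⟩ := Submodule.exists_mem_ne_zero_of_ne_bot h1
  have huu : h u u = 0 := hM.2 u hu u hu
  obtain ⟨f, hff, hfe⟩ := S.exists_partner hσ hu0 huu
  have H : IsHP h u f := ⟨huu, hff, hfe⟩
  have hfr : finrank F (perp2 S u f) = 2 := by
    have := finrank_perp2 S H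
    omega
  obtain ⟨z, hzW, hz0, hzM, hzz, -⟩ := exists_plane_basis hF S hV hM H hu
  have hau : h a u = 0 := S.zero_symm (ha u hu)
  have haz : h a z = 0 := S.zero_symm (ha z hzM)
  have huf : h u f = 1 := H.ef S
  have huz : h u z = 0 := S.zero_symm hzW.1
  have ha₀ : a - h a f • u ∈ perp2 S u f := by
    constructor
    · rw [S.sub_left, S.smul_left, hau, huu]
      ring
    · rw [S.sub_left, S.smul_left, huf]
      ring
  have h2 : h (a - h a f • u) z = 0 := by
    rw [S.sub_left, S.smul_left, haz, huz]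
    ring
  obtain ⟨c, hc⟩ := eq_smul_of_orth S hσ H hfr hzW hz0 hzz ha₀ h2
  have h3 : a = c • z + h a f • u := by
    rw [← hc]
    abel
  rw [h3]
  exact M.add_mem (M.smul_mem _ hzM) (M.smul_mem _ hu)

/-- The orthogonal in a plane of a vector outside the plane is a point. -/
theorem plane_perp_line (hV : finrank F V = 4) {M : Submodule F V} (hM : IsPlane h M) {a : V}
    (ha : a ∉ M) : ∃ u ∈ M, u ≠ 0 ∧ h u a = 0 ∧ ∀ y ∈ M, h y a = 0 → ∃ c : F, y = c • u := by
  classical
  have hσ := invol_frob' hF S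
  haveI : Finite F := Finite.of_fintype F
  have h1 : M ≠ ⊥ := by
    intro h0
    have := hM.1
    rw [h0] at this
    simp at this
  obtain ⟨u₀, hu₀, hu₀0⟩ := Submodule.exists_mem_ne_zero_of_ne_bot h1
  have hu₀u₀ : h u₀ u₀ = 0 := hM.2 _ hu₀ _ hu₀
  obtain ⟨f, hff, hfe⟩ := S.exists_partner hσ hu₀0 hu₀u₀
  have H : IsHP h u₀ f := ⟨hu₀u₀, hff, hfe⟩
  obtain ⟨z, hzW, hz0, hzM, hzz, hspan⟩ := exists_plane_basis hF S hV hM H hu₀
  have huf : h u₀ f = 1 := H.ef S
  have hzf : h z f = 0 := hzW.2
  set p := h u₀ a with hp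
  set s := h z a with hs
  have hne : p ≠ 0 ∨ s ≠ 0 := by
    by_contra hc
    push Not at hc
    apply ha
    apply plane_perp_mem hF S hV hM
    intro y hy
    obtain ⟨α, β, rfl⟩ := hspan y hy
    rw [S.add_left, S.smul_left, S.smul_left, ← hp, ← hs, hc.1, hc.2]
    ring
  refine ⟨s • u₀ - p • z, M.sub_mem (M.smul_mem _ hu₀) (M.smul_mem _ hzM), ?_, ?_, ?_⟩
  · intro h0
    have h2 : h (s • u₀ - p • z) f = 0 := by rw [h0, S.zero_left]
    rw [S.sub_left, S.smul_left, S.smul_left, huf, hzf] at h2
    have hs0 : s = 0 := by linear_combination h2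
    rw [hs0, zero_smul, zero_sub, neg_eq_zero] at h0
    have hp0 : p = 0 := (smul_eq_zero.1 h0).resolve_right hz0
    rcases hne with h3 | h3
    · exact h3 hp0
    · exact h3 hs0
  · rw [S.sub_left, S.smul_left, S.smul_left, ← hp, ← hs]
    ring
  · intro y hy hya
    obtain ⟨α, β, rfl⟩ := hspan y hy
    rw [S.add_left, S.smul_left, S.smul_left, ← hp, ← hs] at hya
    by_cases hs0 : s = 0
    · have hp0 : p ≠ 0 := by
        rcases hne with h3 | h3
        · exact h3
        · exact absurd hs0 h3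
      have hα : α = 0 := by
        rw [hs0, mul_zero, add_zero] at hya
        exact (mul_eq_zero.1 hya).resolve_right hp0
      refine ⟨-(β / p), ?_⟩
      have e : -(β / p) * p = -β := by field_simp
      rw [hα, hs0, zero_smul, zero_add, zero_sub, smul_neg, smul_smul, e, neg_smul, neg_neg]
    · refine ⟨α / s, ?_⟩
      rw [smul_sub, smul_smul, smul_smul]
      have e1 : α / s * s = α := by field_simp
      have e2 : α / s * p = -β := by
        field_simp
        linear_combination hya
      rw [e1, e2, neg_smul, sub_neg_eq_add]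

omit S in
theorem eich_perp {u w : V} {c : F} {g : V ≃ₗ[F] V} (E : EichAt (frobHom hF) h u w c g) {x : V}
    (hx : h x u = 0) : g x - x = (- h x w) • u := by
  rw [E.apply, hx]
  simp only [zero_smul, mul_zero, neg_smul]
  abel

/-- Membership in the radical of a point. -/
theorem mem_radQ_of_perp {u : V} (hu0 : u ≠ 0) (huu : h u u = 0) {g : suGroup h} (hgu : g.1 u = u)
    (hg : ∀ x, h x u = 0 → ∃ l : F, g.1 x - x = l • u) :
    g ∈ radQ S (invol_frob' hF S) u huu := by
  classical
  have hσ := invol_frob' hF S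
  obtain ⟨f, hff, hfe⟩ := S.exists_partner hσ hu0 huu
  have H : IsHP h u f := ⟨huu, hff, hfe⟩
  have huf : h u f = 1 := H.ef S
  have hU := (mem_suGroup.1 g.2).1
  set w := proj u f (g.1 f) h with hw
  set c := h (g.1 f) f with hc
  have hwW : w ∈ perp2 S u f := proj_mem S H _
  have hwu : h w u = 0 := hwW.1
  have hwf : h w f = 0 := hwW.2
  have huw : h u w = 0 := S.zero_symm hwu
  have hfw : h f w = 0 := S.zero_symm hwf
  have hgfu : h (g.1 f) u = 1 := by
    have := hU f u
    rw [hgu, hfe] at this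
    exact this
  have hgf : g.1 f = w + c • u + f := by
    have h1 := decomp (e := u) (f := f) (h := h) (g.1 f)
    rw [hgfu, one_smul] at h1
    exact h1
  refine ⟨w, c, ?_⟩
  constructor
  · exact huu
  · exact hwu
  · have h1 := hU f f
    rw [hgf, hff] at h1
    simp only [S.add_left, S.add_right, S.smul_left, S.smul_right, hwu, hwf, huw, hfw, huu, huf, hff, hfe,
      mul_zero, add_zero, zero_add, mul_one] at h1
    linear_combination h1
  · intro x
    set x₀ := proj u f x h with hx₀
    have hx₀W : x₀ ∈ perp2 S u f := proj_mem S H _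
    have hx₀u : h x₀ u = 0 := hx₀W.1
    have hx₀f : h x₀ f = 0 := hx₀W.2
    have hdec := decomp (e := u) (f := f) (h := h) x
    rw [← hx₀] at hdec
    obtain ⟨l, hl⟩ := hg x₀ hx₀u
    have hgx₀ : g.1 x₀ = x₀ + l • u := by
      rw [← hl]
      abel
    -- the value of `l`
    have hl' : l = - h x₀ w := by
      have h1 := hU x₀ f
      rw [hgx₀, hgf, hx₀f] at h1
      simp only [S.add_left, S.add_right, S.smul_left, S.smul_right, hx₀u, hx₀f, huw, huu, huf,
        mul_zero, add_zero, zero_add, mul_one] at h1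
      linear_combination h1
    have hxu : h x u = h x u := rfl
    have hxw : h x w = h x₀ w := by
      conv_lhs => rw [hdec]
      simp only [S.add_left, S.smul_left, huw, hfw, mul_zero, add_zero]
    conv_lhs => rw [hdec]
    rw [map_add, map_add, map_smul, map_smul, hgx₀, hgu, hgf, hxw, hl']
    conv_rhs => rw [hdec]
    simp only [neg_smul, smul_add, smul_smul, mul_comm c]
    have e : h (x₀ + h x f • u + h x u • f) u = h x u := by
      rw [← hdec]
    rw [e]
    abel

/-- The criterion for membership in the radical of a point of the plane. -/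
theorem line_radQ_iff (hV : finrank F V = 4) {M : Submodule F V} (hM : IsPlane h M) {g : suGroup h}
    (hg : g ∈ lineG h M) {u : V} (hu : u ∈ M) (hu0 : u ≠ 0) {a : V} (ha : a ∉ M) (hau : h a u = 0) :
    g ∈ radQ S (invol_frob' hF S) u (hM.2 u hu u hu) ↔ h (g.1 a - a) a = 0 := by
  classical
  have hσ := invol_frob' hF S
  haveI : Finite F := Finite.of_fintype F
  have huu : h u u = 0 := hM.2 u hu u hu
  obtain ⟨f, hff, hfe⟩ := S.exists_partner hσ hu0 huu
  have H : IsHP h u f := ⟨huu, hff, hfe⟩
  have hfr : finrank F (perp2 S u f) = 2 := by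
    have := finrank_perp2 S H
    omega
  obtain ⟨z, hzW, hz0, hzM, hzz, hspan⟩ := exists_plane_basis hF S hV hM H hu
  have huf : h u f = 1 := H.ef S
  have huz : h u z = 0 := S.zero_symm hzW.1
  have hzu : h z u = 0 := hzW.1
  have hua : h u a = 0 := S.zero_symm hau
  have hproj : ∀ x : V, h x u = 0 → x - h x f • u ∈ perp2 S u f := by
    intro x hx
    constructor
    · rw [S.sub_left, S.smul_left, hx, huu]
      ring
    · rw [S.sub_left, S.smul_left, huf]
      ring
  set a₀ := a - h a f • u with ha₀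
  have ha₀W := hproj a hau
  have hr : h a₀ z ≠ 0 := by
    intro h0
    obtain ⟨c, hc⟩ := eq_smul_of_orth S hσ H hfr hzW hz0 hzz ha₀W h0
    apply ha
    have h3 : a = c • z + h a f • u := by
      rw [← hc]
      abel
    rw [h3]
    exact M.add_mem (M.smul_mem _ hzM) (M.smul_mem _ hu)
  have hza : h z a ≠ 0 := by
    intro h0
    apply hr
    have h1 : h a z = 0 := S.zero_symm h0
    rw [ha₀, S.sub_left, S.smul_left, h1, huz]
    ring
  constructor
  · rintro ⟨w, c, E⟩
    have h1 := eich_perp hF E hau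
    rw [h1, S.smul_left, hua, mul_zero]
  · intro h0
    apply mem_radQ_of_perp hF S hu0 huu (hg.2 u hu)
    obtain ⟨α, β, hαβ⟩ := hspan _ (hg.1 a)
    have hβ : β = 0 := by
      rw [hαβ, S.add_left, S.smul_left, S.smul_left, hua, mul_zero, zero_add] at h0
      exact (mul_eq_zero.1 h0).resolve_right hza
    rw [hβ, zero_smul, add_zero] at hαβ
    intro x hx
    set s := h (x - h x f • u) z / h a₀ z with hs
    have hy : (x - h x f • u) - s • a₀ ∈ perp2 S u f :=
      (perp2 S u f).sub_mem (hproj x hx) ((perp2 S u f).smul_mem _ ha₀W)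
    have hyz : h ((x - h x f • u) - s • a₀) z = 0 := by
      rw [S.sub_left, S.smul_left, hs]
      field_simp
      ring
    obtain ⟨c, hc⟩ := eq_smul_of_orth S hσ H hfr hzW hz0 hzz hy hyz
    set m := c • z + (h x f - s * h a f) • u with hm
    have hmM : m ∈ M := M.add_mem (M.smul_mem _ hzM) (M.smul_mem _ hu)
    have hxd : x = s • a + m := by
      have h1 : x = c • z + s • a₀ + h x f • u := by
        rw [← hc]
        abel
      have h2 : s • a₀ = s • a - s • h a f • u := by
        rw [ha₀, smul_sub]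
      rw [h2] at h1
      rw [hm, sub_smul, mul_smul]
      conv_lhs => rw [h1]
      abel
    refine ⟨s * α, ?_⟩
    have h2 : g.1 (s • a + m) = s • g.1 a + m := by
      rw [map_add, map_smul, hg.2 m hmM]
    conv_lhs => rw [hxd, h2]
    have h3 : s • g.1 a + m - (s • a + m) = s • (g.1 a - a) := by
      rw [smul_sub]
      abel
    rw [h3, hαβ, smul_smul]

/-- An element of `K` in the group of a plane fixing a vector outside the plane is trivial. -/
theorem line_eq_one (hV : finrank F V = 4) {M : Submodule F V} (hM : IsPlane h M)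
    {K : Subgroup (suGroup h)}
    (hroot : ∀ (v : V) (hv : v ≠ 0) (hvv : h v v = 0), Aof S (invol_frob' hF S) v hvv K = ⊥)
    {g : suGroup h} (hgK : g ∈ K) (hg : g ∈ lineG h M) {a : V} (ha : a ∉ M) (hfix : g.1 a = a) :
    g = 1 := by
  classical
  have hσ := invol_frob' hF S
  haveI : Finite F := Finite.of_fintype F
  obtain ⟨u, huM, hu0, hua, hline⟩ := plane_perp_line hF S hV hM ha
  have huu : h u u = 0 := hM.2 u huM u huM
  have hT : ∀ x, ∃ l : F, g.1 x - x = l • u := by
    intro x
    apply hline _ (hg.1 x)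
    have h1 := line_skew hF S hM hg x a
    rw [hfix, sub_self, S.zero_right, add_zero] at h1
    exact h1
  have hmem : g ∈ radQ S hσ u huu := mem_radQ_of_perp hF S hu0 huu (hg.2 u huM) (fun x _ => hT x)
  obtain ⟨f, hff, hfe⟩ := S.exists_partner hσ hu0 huu
  have H : IsHP h u f := ⟨huu, hff, hfe⟩
  have E := exists_normal_params S hσ H hmem
  obtain ⟨l, hl⟩ := hT f
  have hgf : g.1 f = f + l • u := by
    rw [← hl]
    abel
  have huf : h u f = 1 := H.ef S
  have hp : proj u f (g.1 f) h = 0 := by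
    rw [hgf]
    unfold proj
    simp only [S.add_left, S.smul_left, hff, huf, hfe, huu, mul_one, mul_zero, add_zero, zero_add,
      one_smul]
    abel
  have hc : h (g.1 f) f = l := by
    rw [hgf, S.add_left, S.smul_left, hff, huf]
    ring
  rw [hp, hc] at E
  have hl0 : l = 0 := by
    have h1 : l ∈ Aof S hσ u huu K := ⟨g, hgK, E⟩
    rw [hroot u hu0 huu] at h1
    exact h1
  rw [hl0] at E
  apply Subtype.ext
  apply LinearEquiv.ext
  intro y
  rw [E.apply]
  simp [S.zero_left, S.zero_right]

/-- The number of points of a plane at which an element of `K` lies in the radical. -/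
theorem count_g (hV : finrank F V = 4) {M : Submodule F V} (hM : IsPlane h M)
    {K : Subgroup (suGroup h)}
    (hroot : ∀ (v : V) (hv : v ≠ 0) (hvv : h v v = 0), Aof S (invol_frob' hF S) v hvv K = ⊥)
    {g : suGroup h} (hgK : g ∈ K) (hg : g ∈ lineG h M) (hg1 : g ≠ 1) :
    Nat.card {u : M // u ≠ 0 ∧ g ∈ radQ S (invol_frob' hF S) u.1 (hM.2 _ u.2 _ u.2)} =
      (q ^ 2 - 1) * (q + 1) := by
  classical
  have hσ := invol_frob' hF S
  haveI : Finite F := Finite.of_fintype F
  have hq := two_le_q hF S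
  have h1 : M ≠ ⊥ := by
    intro h0
    have := hM.1
    rw [h0] at this
    simp at this
  obtain ⟨u₀, hu₀, hu₀0⟩ := Submodule.exists_mem_ne_zero_of_ne_bot h1
  have hu₀u₀ : h u₀ u₀ = 0 := hM.2 _ hu₀ _ hu₀
  obtain ⟨f₀, hff, hfe⟩ := S.exists_partner hσ hu₀0 hu₀u₀
  have H : IsHP h u₀ f₀ := ⟨hu₀u₀, hff, hfe⟩
  have huf : h u₀ f₀ = 1 := H.ef S
  have hfr : finrank F (perp2 S u₀ f₀) = 2 := by
    have := finrank_perp2 S H
    omega
  obtain ⟨z, hzW, hz0, hzM, hzz, hspan⟩ := exists_plane_basis hF S hV hM H hu₀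
  have hzW0 : (⟨z, hzW⟩ : perp2 S u₀ f₀) ≠ 0 := fun h0 => hz0 (congrArg Subtype.val h0)
  obtain ⟨z', hz'z', hz'z⟩ := (restrict S H).exists_partner hσ hzW0 hzz
  have hz'1 : h z'.1 z = 1 := hz'z
  have hz'2 : h z'.1 z'.1 = 0 := hz'z'
  have hz'u : h z'.1 u₀ = 0 := z'.2.1
  have hz'f : h z'.1 f₀ = 0 := z'.2.2
  have hzu : h z u₀ = 0 := hzW.1
  have hzf : h z f₀ = 0 := hzW.2
  have hf₀z : h f₀ z = 0 := S.zero_symm hzf
  have hf₀z' : h f₀ z'.1 = 0 := S.zero_symm hz'f
  have huz' : h u₀ z'.1 = 0 := S.zero_symm hz'u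
  have hzz' : h z z'.1 = 1 := by
    rw [S.conj z'.1 z, hz'1, map_one]
  -- the complement
  let ι : (F × F) →ₗ[F] V :=
    (LinearMap.toSpanSingleton F V f₀).coprod (LinearMap.toSpanSingleton F V z'.1)
  have hι : ∀ p, ι p = p.1 • f₀ + p.2 • z'.1 := fun p => rfl
  have hιu : ∀ p, h (ι p) u₀ = p.1 := by
    intro p
    rw [hι, S.add_left, S.smul_left, S.smul_left, hfe, hz'u]
    ring
  have hιz : ∀ p, h (ι p) z = p.2 := by
    intro p
    rw [hι, S.add_left, S.smul_left, S.smul_left, hf₀z, hz'1]
    ring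
  have hιM : ∀ p, ι p ∈ M → p = 0 := by
    intro p hp
    have h2 := hιu p
    have h3 := hιz p
    rw [hM.2 _ hp _ hu₀] at h2
    rw [hM.2 _ hp _ hzM] at h3
    exact Prod.ext h2.symm h3.symm
  let T : (F × F) →ₗ[F] V := ((g.1 : V →ₗ[F] V) - LinearMap.id).comp ι
  have hT : ∀ p, T p = g.1 (ι p) - ι p := fun p => rfl
  have hTinj : ∀ p, T p = 0 → p = 0 := by
    intro p hp
    by_contra hp0
    have h2 : ι p ∉ M := fun h3 => hp0 (hιM p h3)
    exact hg1 (line_eq_one hF S hV hM hroot hgK hg h2 (sub_eq_zero.1 hp))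
  have hTM : ∀ p, T p ∈ M := fun p => hg.1 (ι p)
  obtain ⟨c, hc0, hc⟩ := hσ.exists_pure
  have hsc : frobHom hF c = -c := by linear_combination hc
  -- the Hermitian form on the complement
  let ψ : F × F → F × F → F := fun x y => c * h (T x) (ι y)
  have Sψ : HForm (frobHom hF) ψ := by
    refine ⟨?_, ?_, ?_, ?_⟩
    · intro x y w
      show c * h (T (x + y)) (ι w) = c * h (T x) (ι w) + c * h (T y) (ι w)
      rw [map_add, S.add_left]
      ring
    · intro a x w
      show c * h (T (a • x)) (ι w) = a * (c * h (T x) (ι w))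
      rw [map_smul, S.smul_left]
      ring
    · intro x y
      show c * h (T y) (ι x) = frobHom hF (c * h (T x) (ι y))
      have h2 := line_skew hF S hM hg (ι y) (ι x)
      have h3 : frobHom hF (h (T x) (ι y)) = h (ι y) (T x) := (S.conj _ _).symm
      rw [map_mul, hsc, h3]
      have h4 : T y = g.1 (ι y) - ι y := rfl
      have h5 : T x = g.1 (ι x) - ι x := rfl
      rw [h4, h5]
      linear_combination c * h2
    · intro x hx
      apply hTinj
      have h2 := hx (1, 0)
      have h3 := hx (0, 1)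
      have h4 : h (T x) f₀ = 0 := by
        have h5 : ι (1, 0) = f₀ := by
          rw [hι]
          simp
        have h6 : c * h (T x) (ι (1, 0)) = 0 := h2
        rw [h5] at h6
        exact (mul_eq_zero.1 h6).resolve_left hc0
      have h5 : h (T x) z'.1 = 0 := by
        have h5 : ι (0, 1) = z'.1 := by
          rw [hι]
          simp
        have h6 : c * h (T x) (ι (0, 1)) = 0 := h3
        rw [h5] at h6
        exact (mul_eq_zero.1 h6).resolve_left hc0
      obtain ⟨α, β, hαβ⟩ := hspan _ (hTM x)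
      rw [hαβ, S.add_left, S.smul_left, S.smul_left, huf, hzf] at h4
      rw [hαβ, S.add_left, S.smul_left, S.smul_left, huz', hzz'] at h5
      have hα : α = 0 := by linear_combination h4
      have hβ : β = 0 := by linear_combination h5
      rw [hαβ, hα, hβ, zero_smul, zero_smul, add_zero]
  have hfrP : finrank F (F × F) = 1 + 1 := by
    rw [Module.finrank_prod, Module.finrank_self]
  have hcount := card_sing_vectors hF Sψ 1 hfrP
  have hcast : (((q ^ 2 - 1) * (q + 1) : ℕ) : ℤ) =
      ((q : ℤ) ^ (1 + 1) - (-1) ^ (1 + 1)) * ((q : ℤ) ^ 1 - (-1) ^ 1) := by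
    have hq2 : 1 ≤ q ^ 2 := Nat.one_le_pow _ _ (by omega)
    push_cast [Nat.cast_sub hq2]
    ring
  have hcount' : Nat.card {x : F × F // x ≠ 0 ∧ ψ x x = 0} = (q ^ 2 - 1) * (q + 1) := by
    exact_mod_cast hcount.trans hcast.symm
  rw [← hcount']
  symm
  -- the linear map to the plane
  let T' : (F × F) →ₗ[F] M := T.codRestrict M hTM
  have hT'inj : Function.Injective T' := by
    rw [injective_iff_map_eq_zero]
    intro p hp
    apply hTinj
    exact congrArg Subtype.val hp
  have hT'surj : Function.Surjective T' := by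
    apply (LinearMap.injective_iff_surjective_of_finrank_eq_finrank (by
      rw [hM.1, hfrP])).1 hT'inj
  have hψ0 : ∀ p, ψ p p = 0 ↔ h (T p) (ι p) = 0 := by
    intro p
    constructor
    · intro h2
      exact (mul_eq_zero.1 h2).resolve_left hc0
    · intro h2
      show c * h (T p) (ι p) = 0
      rw [h2, mul_zero]
  have hnot : ∀ p : F × F, p ≠ 0 → ι p ∉ M := fun p hp h2 => hp (hιM p h2)
  refine Nat.card_congr (Equiv.ofBijective (fun x : {x : F × F // x ≠ 0 ∧ ψ x x = 0} =>
    ⟨⟨T x.1, hTM _⟩, ?_, ?_⟩) ⟨?_, ?_⟩)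
  · intro h0
    exact x.2.1 (hTinj _ (congrArg Subtype.val h0))
  · have h2 := (hψ0 x.1).1 x.2.2
    have hau : h (ι x.1) (T x.1) = 0 := S.zero_symm h2
    have hne : T x.1 ≠ 0 := fun h0 => x.2.1 (hTinj _ h0)
    exact (line_radQ_iff hF S hV hM hg (hTM _) hne (hnot _ x.2.1) hau).2 h2
  · intro x x' hxx
    have h2 : T x.1 = T x'.1 := congrArg (fun w : {u : M // u ≠ 0 ∧ g ∈ radQ S (invol_frob' hF S) u.1 (hM.2 _ u.2 _ u.2)} => w.1.1) hxx
    apply Subtype.ext
    have h3 : T (x.1 - x'.1) = 0 := by rw [map_sub, h2, sub_self]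
    exact sub_eq_zero.1 (hTinj _ h3)
  · rintro ⟨u, hu0, hur⟩
    obtain ⟨p, hp⟩ := hT'surj u
    have hpu : T p = u.1 := congrArg Subtype.val hp
    have hp0 : p ≠ 0 := by
      rintro rfl
      apply hu0
      rw [map_zero] at hp
      exact hp.symm
    have huv : u.1 ≠ 0 := fun h0 => hu0 (Subtype.ext h0)
    -- a vector of the complement orthogonal to `u`
    set A := h (ι (1, 0)) u.1 with hA
    set B := h (ι (0, 1)) u.1 with hB
    have hAB : A ≠ 0 ∨ B ≠ 0 := by
      by_contra hc'
      push Not at hc'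
      apply huv
      obtain ⟨α, β, hαβ⟩ := hspan _ u.2
      have h2 : h u.1 f₀ = 0 := by
        have h5 : ι (1, 0) = f₀ := by
          rw [hι]
          simp
        rw [hA, h5] at hc'
        exact S.zero_symm hc'.1
      have h3 : h u.1 z'.1 = 0 := by
        have h5 : ι (0, 1) = z'.1 := by
          rw [hι]
          simp
        rw [hB, h5] at hc'
        exact S.zero_symm hc'.2
      rw [hαβ, S.add_left, S.smul_left, S.smul_left, huf, hzf] at h2
      rw [hαβ, S.add_left, S.smul_left, S.smul_left, huz', hzz'] at h3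
      have hα : α = 0 := by linear_combination h2
      have hβ : β = 0 := by linear_combination h3
      rw [hαβ, hα, hβ, zero_smul, zero_smul, add_zero]
    set p₁ : F × F := (B, -A) with hp₁
    have hp₁0 : p₁ ≠ 0 := by
      intro h0
      have h2 : B = 0 := congrArg Prod.fst h0
      have h3 : -A = 0 := congrArg Prod.snd h0
      rcases hAB with h4 | h4
      · exact h4 (neg_eq_zero.1 h3)
      · exact h4 h2
    have hp₁u : h (ι p₁) u.1 = 0 := by
      have e : p₁ = B • ((1, 0) : F × F) + (-A) • ((0, 1) : F × F) := by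
        rw [hp₁]
        ext <;> simp
      rw [e, map_add, map_smul, map_smul, S.add_left, S.smul_left, S.smul_left, ← hA, ← hB]
      ring
    obtain ⟨w, c', E⟩ := hur
    have h2 := eich_perp hF E hp₁u
    have h3 : T p₁ = (-h (ι p₁) w) • T p := by
      rw [hpu]
      exact h2
    have h4 : T (p₁ - (-h (ι p₁) w) • p) = 0 := by
      rw [map_sub, map_smul, h3, sub_self]
    have h5 : p₁ = (-h (ι p₁) w) • p := sub_eq_zero.1 (hTinj _ h4)
    set l := -h (ι p₁) w with hl
    have hl0 : l ≠ 0 := by
      intro h0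
      rw [h0, zero_smul] at h5
      exact hp₁0 h5
    have h6 : h (ι p) u.1 = 0 := by
      have h7 : h (ι p₁) u.1 = l * h (ι p) u.1 := by
        rw [h5, map_smul, S.smul_left]
      rw [hp₁u] at h7
      exact ((mul_eq_zero.1 h7.symm).resolve_left hl0)
    refine ⟨⟨p, hp0, ?_⟩, ?_⟩
    · rw [hψ0, hpu]
      exact S.zero_symm h6
    · apply Subtype.ext
      apply Subtype.ext
      exact hpu

end frob

end Cfsg.Agent.Lib.MinSU
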