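/-
Dimension four: the final count excluding subgroups of index below `(q+1)(q³+1)`.
-/
import Mathlib
import Cfsg.Agent.Lib.MinSU.Four3

set_option autoImplicit false
set_option linter.unusedSimpArgs false
set_option linter.unusedSectionVars false
set_option linter.style.haveILetI false
set_option linter.unusedVariables false

namespace Cfsg.Agent.Lib.MinSU

open Module Cfsg.Agent.Lib.Classical.HermBasic Cfsg.Agent.Lib.Classical.HermElem
open Cfsg.Agent.Lib.Classical.HermGen Cfsg.Agent.Lib.Classical.HermSimple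
open Cfsg.Agent.Lib.HermCount.Field

universe u v

section arith

theorem card_ne_elem {α : Type*} [Finite α] (a : α) : Nat.card {x : α // x ≠ a} + 1 = Nat.card α := by
  classical
  have h := Nat.card_congr (Equiv.optionSubtypeNe a)
  rwa [Finite.card_option] at h

theorem arith_a (q n : ℕ) (hq : 2 ≤ q)
    (h1 : (n - 1) * ((q ^ 2 - 1) * (q + 1)) = (q ^ 4 - 1) * (q ^ 2 - 1)) (hdvd : q ^ 2 ∣ n)
    (hn : 0 < n) : False := by
  obtain ⟨m, rfl⟩ := hdvd
  have hq1 : 1 ≤ q ^ 2 := Nat.one_le_pow _ _ (by omega)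
  have hq4 : 1 ≤ q ^ 4 := Nat.one_le_pow _ _ (by omega)
  have hQ : (2 : ℤ) ≤ q := by exact_mod_cast hq
  have h2 : (((q ^ 2 * m - 1) * ((q ^ 2 - 1) * (q + 1)) : ℕ) : ℤ) = (((q ^ 4 - 1) * (q ^ 2 - 1) : ℕ) : ℤ) := by
    rw [h1]
  push_cast [Nat.cast_sub hq1, Nat.cast_sub hq4, Nat.cast_sub (show 1 ≤ q ^ 2 * m from hn)] at h2
  have hne : ((q : ℤ) ^ 2 - 1) * ((q : ℤ) + 1) ≠ 0 := by
    apply mul_ne_zero
    · nlinarith
    · omega
  have h3 : ((q : ℤ) ^ 2 * (m : ℤ) - 1) = ((q : ℤ) ^ 2 + 1) * ((q : ℤ) - 1) := by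
    apply mul_right_cancel₀ hne
    rw [h2]
    ring
  have h5 : (q : ℤ) * ((q : ℤ) * (m : ℤ) - (q : ℤ) ^ 2 + (q : ℤ) - 1) = 0 := by
    linear_combination h3
  have h7 : (q : ℤ) ≠ 0 := by omega
  have h6 := (mul_eq_zero.1 h5).resolve_left h7
  have h8 : (q : ℤ) ∣ 1 := ⟨(m : ℤ) - (q : ℤ) + 1, by linarith⟩
  have h9 := Int.le_of_dvd one_pos h8
  omega

theorem arith_b (q n : ℕ) (hq : 2 ≤ q) (heven : Even q)
    (h1 : (n - 1) * ((q ^ 2 - 1) * (q + 1)) = (q ^ 4 - 1) * (q - 1)) (hn : 0 < n) : False := by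
  have hq1 : 1 ≤ q ^ 2 := Nat.one_le_pow _ _ (by omega)
  have hq4 : 1 ≤ q ^ 4 := Nat.one_le_pow _ _ (by omega)
  have hq0 : 1 ≤ q := by omega
  have hQ : (2 : ℤ) ≤ q := by exact_mod_cast hq
  have h2 : (((n - 1) * ((q ^ 2 - 1) * (q + 1)) : ℕ) : ℤ) = (((q ^ 4 - 1) * (q - 1) : ℕ) : ℤ) := by
    rw [h1]
  push_cast [Nat.cast_sub hq1, Nat.cast_sub hq4, Nat.cast_sub hq0, Nat.cast_sub (show 1 ≤ n from hn)] at h2
  have hne : (q : ℤ) ^ 2 - 1 ≠ 0 := by nlinarith
  have h3 : ((n : ℤ) - 1) * ((q : ℤ) + 1) = ((q : ℤ) ^ 2 + 1) * ((q : ℤ) - 1) := by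
    apply mul_left_cancel₀ hne
    linear_combination h2
  have h4 : ((q : ℤ) + 1) ∣ 4 := by
    refine ⟨(q : ℤ) ^ 2 - 2 * (q : ℤ) + 3 - ((n : ℤ) - 1), ?_⟩
    linear_combination h3
  have h5 : q + 1 ∣ 4 := by exact_mod_cast h4
  have h6 := Nat.le_of_dvd (by norm_num) h5
  obtain ⟨r, rfl⟩ := heven
  have h7 : r = 1 := by omega
  subst h7
  norm_num at h5

end arith

variable {F : Type u} [Field F] {V : Type v} [AddCommGroup V] [Module F V]
variable {σ : F →+* F} {h : V → V → F}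

section frob

variable [Fintype F] [FiniteDimensional F V] {q : ℕ} (hF : Fintype.card F = q ^ 2)
variable (S : HForm (frobHom hF) h)

include S

/-- The double count on a plane. -/
theorem count_line (hV : finrank F V = 4) {M : Submodule F V} (hM : IsPlane h M)
    {K : Subgroup (suGroup h)}
    (hroot : ∀ (v : V) (hv : v ≠ 0) (hvv : h v v = 0), Aof S (invol_frob' hF S) v hvv K = ⊥)
    (k : ℕ) (hk : ∀ (u : V) (hu : u ∈ M), u ≠ 0 →
      Nat.card ↥(K ⊓ lineG h M ⊓ radQ S (invol_frob' hF S) u (hM.2 u hu u hu)) = k) :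
    (Nat.card ↥(K ⊓ lineG h M) - 1) * ((q ^ 2 - 1) * (q + 1)) = (q ^ 4 - 1) * (k - 1) := by
  classical
  have hσ := invol_frob' hF S
  haveI : Finite F := Finite.of_fintype F
  haveI : Finite V := Module.finite_of_finite F
  haveI : Finite (suGroup h) := finite_su
  let α := {g : ↥(K ⊓ lineG h M) // g ≠ 1}
  let β := {u : M // u ≠ 0}
  let rel : α → β → Prop := fun a b => a.1.1 ∈ radQ S hσ b.1.1 (hM.2 _ b.1.2 _ b.1.2)
  have hα : Nat.card α + 1 = Nat.card ↥(K ⊓ lineG h M) := card_ne_elem _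
  have hβ : Nat.card β + 1 = q ^ 4 := by
    have h1 := card_ne_elem (0 : M)
    have h2 : Nat.card M = q ^ 4 := by
      rw [Module.natCard_eq_pow_finrank (K := F) (V := ↥M), hM.1, card_F_frob hF S, ← pow_mul]
    rw [h2] at h1
    exact h1
  have hfib1 : ∀ a : α, Nat.card {b : β // rel a b} = (q ^ 2 - 1) * (q + 1) := by
    intro a
    have h1 := count_g hF S hV hM hroot a.1.2.1 a.1.2.2 (fun h0 => a.2 (Subtype.ext h0))
    rw [← h1]
    apply Nat.card_congr
    exact
      { toFun := fun b => ⟨b.1.1, b.1.2, b.2⟩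
        invFun := fun u => ⟨⟨u.1, u.2.1⟩, u.2.2⟩
        left_inv := fun b => rfl
        right_inv := fun u => rfl }
  have hfib2 : ∀ b : β, Nat.card {a : α // rel a b} + 1 = k := by
    intro b
    have hb0 : b.1.1 ≠ 0 := fun h0 => b.2 (Subtype.ext h0)
    rw [← hk b.1.1 b.1.2 hb0, ← card_ne_elem (1 : ↥(K ⊓ lineG h M ⊓ radQ S hσ b.1.1 (hM.2 _ b.1.2 _ b.1.2)))]
    congr 1
    apply Nat.card_congr
    exact
      { toFun := fun a => ⟨⟨a.1.1.1, ⟨a.1.1.2, a.2⟩⟩, fun h0 =>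
          a.1.2 (Subtype.ext (congrArg (fun x : ↥(K ⊓ lineG h M ⊓ radQ S hσ b.1.1 (hM.2 _ b.1.2 _ b.1.2)) => x.1) h0))⟩
        invFun := fun x => ⟨⟨⟨x.1.1, x.1.2.1⟩, fun h0 =>
          x.2 (Subtype.ext (congrArg (fun x : ↥(K ⊓ lineG h M) => x.1) h0))⟩, x.1.2.2⟩
        left_inv := fun a => rfl
        right_inv := fun x => rfl }
  have hle1 := double_count rel ((q ^ 2 - 1) * (q + 1)) (k - 1)
    (fun a => (hfib1 a).ge) (fun b => by have := hfib2 b; omega)
  have hle2 := double_count (fun (b : β) (a : α) => rel a b) (k - 1) ((q ^ 2 - 1) * (q + 1))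
    (fun b => by have := hfib2 b; omega) (fun a => (hfib1 a).le)
  have e1 : Nat.card ↥(K ⊓ lineG h M) - 1 = Nat.card α := by omega
  have e2 : q ^ 4 - 1 = Nat.card β := by omega
  rw [e1, e2]
  exact le_antisymm hle1 hle2

/-- The index of the radical in the group of a plane is at most `q`. -/
theorem card_line_le (hV : finrank F V = 4) {M : Submodule F V} (hM : IsPlane h M)
    (K : Subgroup (suGroup h)) {u : V} (hu : u ∈ M) (hu0 : u ≠ 0) :
    Nat.card ↥(K ⊓ lineG h M) ≤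
      q * Nat.card ↥(K ⊓ lineG h M ⊓ radQ S (invol_frob' hF S) u (hM.2 u hu u hu)) := by
  classical
  have hσ := invol_frob' hF S
  haveI : Finite F := Finite.of_fintype F
  haveI : Finite V := Module.finite_of_finite F
  haveI : Finite (suGroup h) := finite_su
  have huu : h u u = 0 := hM.2 u hu u hu
  obtain ⟨f, hff, hfe⟩ := S.exists_partner hσ hu0 huu
  have H : IsHP h u f := ⟨huu, hff, hfe⟩
  obtain ⟨z, hzW, hz0, hzM, hzz, hspan⟩ := exists_plane_basis hF S hV hM H hu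
  have hzW0 : (⟨z, hzW⟩ : perp2 S u f) ≠ 0 := fun h0 => hz0 (congrArg Subtype.val h0)
  obtain ⟨z', hz'z', hz'z⟩ := (restrict S H).exists_partner hσ hzW0 hzz
  have hz'1 : h z'.1 z = 1 := hz'z
  have hz'u : h z'.1 u = 0 := z'.2.1
  have hz'M : z'.1 ∉ M := by
    intro h0
    have := hM.2 _ h0 _ hzM
    rw [hz'1] at this
    exact one_ne_zero this
  set a := z'.1 with ha
  let φ : ↥(K ⊓ lineG h M) →* Multiplicative (pureF (frobHom hF)) :=
    { toFun := fun g => Multiplicative.ofAdd ⟨h (g.1.1 a - a) a, line_pure hF S hM g.2.2 a⟩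
      map_one' := by
        show Multiplicative.ofAdd _ = Multiplicative.ofAdd 0
        congr 1
        apply Subtype.ext
        show h (a - a) a = 0
        rw [sub_self, S.zero_left]
      map_mul' := by
        intro g g'
        show Multiplicative.ofAdd _ = Multiplicative.ofAdd (_ + _)
        congr 1
        apply Subtype.ext
        show h ((g.1 * g'.1).1 a - a) a = h (g.1.1 a - a) a + h (g'.1.1 a - a) a
        rw [line_mul_sub hF S g.2.2 g'.2.2, S.add_left] }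
  have hker : ∀ g : ↥(K ⊓ lineG h M), g ∈ φ.ker ↔ g.1 ∈ radQ S hσ u huu := by
    intro g
    rw [line_radQ_iff hF S hV hM g.2.2 hu hu0 hz'M hz'u]
    constructor
    · intro h1
      have h2 : φ g = 1 := h1
      have h3 := congrArg (fun x : Multiplicative (pureF (frobHom hF)) => (Multiplicative.toAdd x).1) h2
      exact h3
    · intro h1
      show φ g = 1
      show Multiplicative.ofAdd _ = Multiplicative.ofAdd 0
      congr 1
      apply Subtype.ext
      exact h1
  have h1 := φ.ker.card_mul_index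
  rw [Subgroup.index_ker] at h1
  have h2 : Nat.card φ.range ≤ q := by
    refine (Subgroup.card_le_card_group _).trans ?_
    rw [show Nat.card (Multiplicative (pureF (frobHom hF))) = Nat.card (pureF (frobHom hF)) from rfl]
    exact (card_pure_frob hF S).le
  have h3 : Nat.card φ.ker = Nat.card ↥(K ⊓ lineG h M ⊓ radQ S hσ u (hM.2 u hu u hu)) := by
    apply Nat.card_congr
    exact
      { toFun := fun g => ⟨g.1.1, ⟨g.1.2, (hker g.1).1 g.2⟩⟩
        invFun := fun x => ⟨⟨x.1, x.2.1⟩, (hker ⟨x.1, x.2.1⟩).2 x.2.2⟩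
        left_inv := fun g => rfl
        right_inv := fun x => rfl }
  rw [← h3, ← h1, mul_comm]
  exact Nat.mul_le_mul_right _ h2

end frob

end Cfsg.Agent.Lib.MinSU
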