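/-
Dimension four: the conclusion.
-/
import Mathlib
import Cfsg.Agent.Lib.MinSU.Four4

set_option autoImplicit false
set_option linter.unusedSimpArgs false
set_option linter.unusedSectionVars false
set_option linter.style.haveILetI false
set_option linter.unusedVariables false

namespace Cfsg.Agent.Lib.MinSU

open Module Cfsg.Agent.Lib.Classical.HermBasic Cfsg.Agent.Lib.Classical.HermElem
open Cfsg.Agent.Lib.Classical.HermGen Cfsg.Agent.Lib.Classical.HermSimple
open Cfsg.Agent.Lib.HermCount.Field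

universe u v

variable {F : Type u} [Field F] {V : Type v} [AddCommGroup V] [Module F V]
variable {σ : F →+* F} {h : V → V → F}

section frob

variable [Fintype F] [FiniteDimensional F V] {q : ℕ} (hF : Fintype.card F = q ^ 2)
variable (S : HForm (frobHom hF) h)

include S

theorem local_of_empty (hV : finrank F V = 4) {K : Subgroup (suGroup h)}
    (hidx : K.index < (q + 1) * (q ^ 3 + 1)) (hR : rootSet S (invol_frob' hF S) K = ∅)
    {e f : V} (H : IsHP h e f) : LocalData hF S H K := by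
  apply local4 hF S H hV K _ hidx
  intro h0
  have h1 := (rootX_le_iff S (invol_frob' hF S) H.ee K).2 h0
  have h2 : e ∈ rootSet S (invol_frob' hF S) K := ⟨H.ne_left S, H.ee, h1⟩
  rw [hR] at h2
  exact h2

theorem rootSet_cj_empty {K : Subgroup (suGroup h)} (hR : rootSet S (invol_frob' hF S) K = ∅)
    (g : suGroup h) : rootSet S (invol_frob' hF S) (cj g K) = ∅ := by
  have hσ := invol_frob' hF S
  by_contra hne
  obtain ⟨v, hv0, hvv, hle⟩ := Set.nonempty_iff_ne_empty.2 hne
  have hU := (mem_suGroup.1 (g⁻¹).2).1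
  have hw : h ((g⁻¹).1 v) ((g⁻¹).1 v) = 0 := by rw [hU, hvv]
  have h1 := rootX_cj S hσ (cj g K) hvv hw (g := g⁻¹) rfl hle
  rw [cj_inv_cj] at h1
  have h2 : (g⁻¹).1 v ∈ rootSet S hσ K := ⟨by simpa using hv0, hw, h1⟩
  rw [hR] at h2
  exact h2

/-- The subgroup is transitive on the isotropic points. -/
theorem K_transitive (hV : finrank F V = 4) {K : Subgroup (suGroup h)}
    (hidx : K.index < (q + 1) * (q ^ 3 + 1)) (hR : rootSet S (invol_frob' hF S) K = ∅)
    {e f : V} (H : IsHP h e f) {z : V} (hz0 : z ≠ 0) (hzz : h z z = 0) :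
    ∃ k ∈ K, ∃ c : F, c ≠ 0 ∧ k.1 z = c • e := by
  classical
  have hσ := invol_frob' hF S
  haveI : Finite F := Finite.of_fintype F
  haveI : Finite (suGroup h) := finite_su
  have hq := two_le_q hF S
  have D := local_of_empty hF S hV hidx hR H
  obtain ⟨Sc, hc, -, hinv, hform⟩ := exists_cosets hF S H hV D
  set Q := radQ S hσ e H.ee with hQ
  have hall : ∀ g : suGroup h, (QuotientGroup.mk g : suGroup h ⧸ K) ∈ Sc := by
    intro g
    by_contra hg
    have Dg := local_of_empty hF S hV (K := cj g K) (by rw [index_cj]; exact hidx)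
      (rootSet_cj_empty hF S hR g) H
    have hidxg := index_of_local hF S H hV Dg
    have h1 : Nat.card Sc + ((cj g K).subgroupOf Q).index ≤ K.index := by
      rw [Subgroup.index_eq_card, Subgroup.index_eq_card, ← Nat.card_sum]
      refine Nat.card_le_card_of_injective (fun p => match p with
        | Sum.inl x => x.1
        | Sum.inr c => (QuotientGroup.mk ((Quotient.out c : Q).1 * g) : suGroup h ⧸ K)) ?_
      have hnot : ∀ (x : Sc) (c : Q ⧸ (cj g K).subgroupOf Q),
          x.1 ≠ (QuotientGroup.mk ((Quotient.out c : Q).1 * g) : suGroup h ⧸ K) := by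
        intro x c hxc
        apply hg
        have h2 : (QuotientGroup.mk ((Quotient.out c : Q).1 * g) : suGroup h ⧸ K) ∈ Sc := hxc ▸ x.2
        have h3 := hinv _ h2 _ (Q.inv_mem (Quotient.out c : Q).2)
        have h4 : ((Quotient.out c : Q).1)⁻¹ * ((Quotient.out c : Q).1 * g) = g := by group
        rwa [h4] at h3
      rintro (x | c) (x' | c') hxx
      · exact congrArg _ (Subtype.ext hxx)
      · exact absurd hxx (hnot x c')
      · exact absurd hxx.symm (hnot x' c)
      · have h2 := QuotientGroup.eq.1 hxx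
        have h3 : (Quotient.out c : Q)⁻¹ * (Quotient.out c' : Q) ∈ (cj g K).subgroupOf Q := by
          rw [Subgroup.mem_subgroupOf, mem_cj]
          have h4 : g⁻¹ * (((Quotient.out c : Q)⁻¹ * (Quotient.out c' : Q) : Q) : suGroup h) * g =
              ((Quotient.out c : Q).1 * g)⁻¹ * ((Quotient.out c' : Q).1 * g) := by
            simp only [Subgroup.coe_mul, InvMemClass.coe_inv]
            group
          rw [h4]
          exact h2
        have h5 : (QuotientGroup.mk (Quotient.out c) : Q ⧸ (cj g K).subgroupOf Q) =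
            QuotientGroup.mk (Quotient.out c') := QuotientGroup.eq.2 h3
        rw [QuotientGroup.out_eq', QuotientGroup.out_eq'] at h5
        rw [h5]
    rw [hidxg] at h1
    have h2 : (q + 1) * (q ^ 3 + 1) = (q + 1) * q ^ 3 + q + 1 := by ring
    have h3 : q + 1 ≤ q ^ 3 := by
      have : q * q ≤ q ^ 3 := by
        have h4 : q ^ 3 = q * q * q := by ring
        rw [h4]
        exact Nat.le_mul_of_pos_right _ (by omega)
      nlinarith
    omega
  obtain ⟨g, hg⟩ := exists_su_map S hσ (by omega) hz0 (H.ne_left S) hzz H.ee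
  obtain ⟨t, y, u, HY, hu, hx⟩ := hform _ (hall g)
  have hk : (y * u)⁻¹ * g ∈ K := QuotientGroup.eq.1 hx.symm
  refine ⟨_, hk, t⁻¹, inv_ne_zero HY.ne, ?_⟩
  have h1 : (u⁻¹).1 e = e := by
    obtain ⟨w, a, E⟩ := Q.inv_mem hu
    exact E.apply_center S
  have h2 : (y⁻¹).1 e = t⁻¹ • e := (HY.inv hσ).left
  have h3 : ((y * u)⁻¹ * g).1 z = (u⁻¹).1 ((y⁻¹).1 (g.1 z)) := rfl
  rw [h3, hg, h2, map_smul, h1]

/-- All of `K ∩ Q` lies in the group of one plane. -/
def TA (K : Subgroup (suGroup h)) (u : V) (hu : h u u = 0) : Prop :=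
  ∃ M : Submodule F V, IsPlane h M ∧ u ∈ M ∧ K ⊓ radQ S (invol_frob' hF S) u hu ≤ lineG h M

theorem TA_transport {K : Subgroup (suGroup h)} {k : suGroup h} (hk : k ∈ K) {u u' : V}
    (hu : h u u = 0) (hu' : h u' u' = 0) {c : F} (hc : c ≠ 0) (hku : k.1 u = c • u')
    (hT : TA hF S K u hu) : TA hF S K u' hu' := by
  classical
  have hσ := invol_frob' hF S
  obtain ⟨M, hM, huM, hle⟩ := hT
  have hU := (mem_suGroup.1 k.2).1
  have hkinv : ∀ x, k.1 ((k⁻¹).1 x) = x := fun x => k.1.apply_symm_apply x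
  have hinvk : ∀ x, (k⁻¹).1 (k.1 x) = x := fun x => k.1.symm_apply_apply x
  refine ⟨M.map (k.1 : V →ₗ[F] V), ⟨?_, ?_⟩, ?_, ?_⟩
  · exact LinearEquiv.finrank_map_eq k.1 M |>.trans hM.1
  · rintro _ ⟨x, hx, rfl⟩ _ ⟨y, hy, rfl⟩
    show h (k.1 x) (k.1 y) = 0
    rw [hU]
    exact hM.2 x hx y hy
  · refine ⟨c⁻¹ • u, M.smul_mem _ huM, ?_⟩
    show k.1 (c⁻¹ • u) = u'
    rw [map_smul, hku, smul_smul, inv_mul_cancel₀ hc, one_smul]
  · rintro g ⟨hgK, w, a, E⟩
    -- transport to `u`
    have hk' := (mem_suGroup.1 (k⁻¹).2).1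
    have E1 := E.conj hk'
    have h1 : (k⁻¹).1 u' = c⁻¹ • u := by
      have h2 : u' = c⁻¹ • k.1 u := by
        rw [hku, smul_smul, inv_mul_cancel₀ hc, one_smul]
      rw [h2, map_smul, hinvk]
    rw [h1] at E1
    have E2 := E1.smul_center S hσ (inv_ne_zero hc)
    have hx : k⁻¹ * g * k⁻¹⁻¹ ∈ K ⊓ radQ S hσ u hu :=
      ⟨K.mul_mem (K.mul_mem (K.inv_mem hk) hgK) (K.inv_mem (K.inv_mem hk)), _, _, E2⟩
    obtain ⟨hx1, hx2⟩ := hle hx
    have hval : ∀ y, (k⁻¹ * g * k⁻¹⁻¹).1 y = (k⁻¹).1 (g.1 (k.1 y)) := fun y => rfl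
    constructor
    · intro y
      have h2 := hx1 ((k⁻¹).1 y)
      rw [hval, hkinv] at h2
      refine ⟨_, h2, ?_⟩
      show k.1 ((k⁻¹).1 (g.1 y) - (k⁻¹).1 y) = g.1 y - y
      rw [map_sub, hkinv, hkinv]
    · rintro _ ⟨m, hm, rfl⟩
      have h2 := hx2 m hm
      rw [hval] at h2
      show g.1 (k.1 m) = k.1 m
      have h3 : k.1 ((k⁻¹).1 (g.1 (k.1 m))) = k.1 m := by rw [h2]
      rwa [hkinv] at h3

omit S in
theorem eich_mem_lineG {M : Submodule F V} (hM : IsPlane h M) {e w : V} {a : F} {g : suGroup h}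
    (E : EichAt (frobHom hF) h e w a g.1) (he : e ∈ M) (hw : w ∈ M) : g ∈ lineG h M := by
  constructor
  · intro x
    rw [E.apply]
    have h1 : x + h x e • w - h x w • e + (a * h x e) • e - x =
        h x e • w - h x w • e + (a * h x e) • e := by abel
    rw [h1]
    exact M.add_mem (M.sub_mem (M.smul_mem _ hw) (M.smul_mem _ he)) (M.smul_mem _ he)
  · intro y hy
    rw [E.apply, hM.2 y hy e he, hM.2 y hy w hw]
    simp

variable {e f : V} (H : IsHP h e f)

include H

/-- The plane spanned by a point and an isotropic vector of the complement. -/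
theorem plane_of_pair {x : V} (hx : x ∈ perp2 S e f) (hx0 : x ≠ 0) (hxx : h x x = 0) :
    IsPlane h (Submodule.span F {e, x}) := by
  classical
  have he0 : e ≠ 0 := H.ne_left S
  have hef : h e f = 1 := H.ef S
  have hxe : h x e = 0 := hx.1
  have hxf : h x f = 0 := hx.2
  have hex : h e x = 0 := S.zero_symm hxe
  have hli : LinearIndependent F ![e, x] := by
    rw [LinearIndependent.pair_iff]
    intro s t hst
    have h1 := congrArg (fun v => h v f) hst
    simp only [S.add_left, S.smul_left, hef, hxf, S.zero_left, mul_one, mul_zero, add_zero] at h1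
    subst h1
    simp only [zero_smul, zero_add] at hst
    exact ⟨rfl, (smul_eq_zero.1 hst).resolve_right hx0⟩
  constructor
  · have h1 := finrank_span_eq_card hli
    have e1 : Set.range ![e, x] = {e, x} := by
      ext y
      simp [Fin.exists_fin_two, eq_comm]
      tauto
    rw [e1] at h1
    simpa using h1
  · intro a ha b hb
    obtain ⟨α, β, rfl⟩ := Submodule.mem_span_pair.1 ha
    obtain ⟨γ, δ, rfl⟩ := Submodule.mem_span_pair.1 hb
    simp only [S.add_left, S.add_right, S.smul_left, S.smul_right, H.ee, hxx, hxe, hex]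
    ring

/-- If `B` is totally isotropic for the form, then `K ∩ Q` lies in the group of one plane. -/
theorem TA_of_orth (hV : finrank F V = 4) {K : Subgroup (suGroup h)} (D : LocalData hF S H K)
    (horth : ∀ x ∈ Bof S (invol_frob' hF S) H K, ∀ y ∈ Bof S (invol_frob' hF S) H K, h x y = 0) :
    TA hF S K e H.ee := by
  classical
  have hσ := invol_frob' hF S
  haveI : Finite F := Finite.of_fintype F
  haveI : Finite V := Module.finite_of_finite F
  have hq := two_le_q hF S
  have hfr : finrank F (perp2 S e f) = 2 := by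
    have := finrank_perp2 S H
    omega
  -- a non-zero vector of `B`
  have hB0 : Bof S hσ H K ≠ ⊥ := by
    intro h0
    have h1 := D.cardB
    rw [h0] at h1
    have h2 : Nat.card (⊥ : AddSubgroup V) = 1 := Nat.card_unique
    rw [h2] at h1
    have : 4 ≤ q ^ 2 := by nlinarith
    omega
  obtain ⟨⟨x₀, hx₀⟩, hx₀0⟩ := AddSubgroup.ne_bot_iff_exists_ne_zero.1 hB0
  have hx₀0' : x₀ ≠ 0 := fun h0 => hx₀0 (Subtype.ext h0)
  have hx₀x₀ := D.sing x₀ hx₀
  have hPl := plane_of_pair hF S H hx₀.1 hx₀0' hx₀x₀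
  have heM : e ∈ Submodule.span F {e, x₀} := Submodule.subset_span (by simp)
  have hx₀M : x₀ ∈ Submodule.span F {e, x₀} := Submodule.subset_span (by simp)
  refine ⟨_, hPl, heM, ?_⟩
  rintro g ⟨hgK, hgQ⟩
  have E := exists_normal_params S hσ H hgQ
  have hw := proj_mem S H (g.1 f)
  have hwB : proj e f (g.1 f) h ∈ Bof S hσ H K := ⟨hw, g, hgK, _, E⟩
  obtain ⟨c, hc⟩ := eq_smul_of_orth S hσ H hfr hx₀.1 hx₀0' hx₀x₀ hw (horth _ hwB _ hx₀)
  apply eich_mem_lineG hF hPl E heM
  rw [hc]
  exact Submodule.smul_mem _ _ hx₀M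

/-- The plane of an element is determined. -/
theorem plane_unique (hV : finrank F V = 4) {K : Subgroup (suGroup h)}
    (hA0 : Aof S (invol_frob' hF S) e H.ee K = ⊥) {g : suGroup h} (hgK : g ∈ K) (hg1 : g ≠ 1)
    (hgQ : g ∈ radQ S (invol_frob' hF S) e H.ee) {M₁ M₂ : Submodule F V} (hM₁ : IsPlane h M₁)
    (hM₂ : IsPlane h M₂) (he₁ : e ∈ M₁) (he₂ : e ∈ M₂) (hg₁ : g ∈ lineG h M₁) (hg₂ : g ∈ lineG h M₂) :
    M₁ = M₂ := by
  classical
  have hσ := invol_frob' hF S
  haveI : Finite F := Finite.of_fintype F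
  have hfr : finrank F (perp2 S e f) = 2 := by
    have := finrank_perp2 S H
    omega
  have E := exists_normal_params S hσ H hgQ
  have hw := proj_mem S H (g.1 f)
  set w := proj e f (g.1 f) h with hwdef
  set c := h (g.1 f) f with hc
  have hgf := eich_apply_f S H E hw
  have hwM : ∀ {M : Submodule F V}, g ∈ lineG h M → e ∈ M → w ∈ M := by
    intro M hgM heM
    have h1 := hgM.1 f
    have h2 : w = (g.1 f - f) - c • e := by
      rw [hgf]
      abel
    rw [h2]
    exact M.sub_mem h1 (M.smul_mem _ heM)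
  have hw0 : w ≠ 0 := by
    intro h0
    rw [h0] at E
    have hc0 : c = 0 := by
      have h1 : c ∈ Aof S hσ e H.ee K := ⟨g, hgK, E⟩
      rw [hA0] at h1
      exact h1
    rw [hc0] at E
    apply hg1
    apply Subtype.ext
    apply LinearEquiv.ext
    intro y
    rw [E.apply]
    simp [S.zero_left, S.zero_right]
  have hwM₁ := hwM hg₁ he₁
  have hwM₂ := hwM hg₂ he₂
  have hww : h w w = 0 := hM₁.2 _ hwM₁ _ hwM₁
  apply Submodule.eq_of_le_of_finrank_eq _ (hM₁.1.trans hM₂.1.symm)
  intro x hx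
  obtain ⟨z, hzW, hz0, hzM, hzz, hspan⟩ := exists_plane_basis hF S hV hM₁ H he₁
  have hwz : h w z = 0 := hM₁.2 _ hwM₁ _ hzM
  obtain ⟨μ, hμ⟩ := eq_smul_of_orth S hσ H hfr hzW hz0 hzz hw hwz
  have hμ0 : μ ≠ 0 := by
    rintro rfl
    rw [zero_smul] at hμ
    exact hw0 hμ
  obtain ⟨α, β, rfl⟩ := hspan x hx
  have h1 : z = μ⁻¹ • w := by
    rw [hμ, smul_smul, inv_mul_cancel₀ hμ0, one_smul]
  rw [h1]
  exact M₂.add_mem (M₂.smul_mem _ he₂) (M₂.smul_mem _ (M₂.smul_mem _ hwM₂))

/-- `K ∩ Q ∩ (group of a plane)` and the vectors of `B` on the plane. -/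
theorem card_N_eq (hV : finrank F V = 4) {K : Subgroup (suGroup h)}
    (hA0 : Aof S (invol_frob' hF S) e H.ee K = ⊥) {M : Submodule F V} (hM : IsPlane h M)
    (he : e ∈ M) :
    Nat.card ↥(K ⊓ lineG h M ⊓ radQ S (invol_frob' hF S) e (hM.2 e he e he)) =
      Nat.card {w : V // w ∈ Bof S (invol_frob' hF S) H K ∧ w ∈ M} := by
  classical
  have hσ := invol_frob' hF S
  haveI : Finite F := Finite.of_fintype F
  have hee : h e e = 0 := H.ee
  let N := ↥(K ⊓ lineG h M ⊓ radQ S hσ e (hM.2 e he e he))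
  have hQ : ∀ g : N, g.1 ∈ radQ S hσ e H.ee := fun g => g.2.2
  have hE : ∀ g : N, EichAt (frobHom hF) h e (proj e f (g.1.1 f) h) (h (g.1.1 f) f) g.1.1 :=
    fun g => exists_normal_params S hσ H (hQ g)
  have hw : ∀ g : N, proj e f (g.1.1 f) h ∈ perp2 S e f := fun g => proj_mem S H _
  have hwM : ∀ g : N, proj e f (g.1.1 f) h ∈ M := by
    intro g
    have h1 := g.2.1.2.1 f
    have h2 := eich_apply_f S H (hE g) (hw g)
    have h3 : ∀ (p : V) (c' : F), g.1.1 f = f + p + c' • e → p = (g.1.1 f - f) - c' • e := by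
      intro p c' hp
      rw [hp]
      abel
    rw [h3 _ _ h2]
    exact M.sub_mem h1 (M.smul_mem _ he)
  refine Nat.card_congr (Equiv.ofBijective (fun g : N =>
    ⟨proj e f (g.1.1 f) h, ⟨hw g, g.1, g.2.1.1, _, hE g⟩, hwM g⟩) ⟨?_, ?_⟩)
  · intro g g' hgg
    have h1 : proj e f (g.1.1 f) h = proj e f (g'.1.1 f) h :=
      congrArg (fun x : {w : V // w ∈ Bof S hσ H K ∧ w ∈ M} => x.1) hgg
    have E1 := hE g
    have E2 := hE g'
    rw [← h1] at E2
    have E3 := (E1.inv S hσ).mul S E2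
    rw [neg_add_cancel] at E3
    have hg1 : g.1⁻¹ * g'.1 ∈ K := K.mul_mem (K.inv_mem g.2.1.1) g'.2.1.1
    have hmem := (show _ ∈ Aof S hσ e H.ee K from ⟨g.1⁻¹ * g'.1, hg1, E3⟩)
    rw [hA0] at hmem
    have hmem' := (AddSubgroup.mem_bot).1 hmem
    rw [hmem'] at E3
    have hx1 : g.1⁻¹ * g'.1 = 1 := by
      apply Subtype.ext
      apply LinearEquiv.ext
      intro y
      show ((g.1.1)⁻¹ * g'.1.1) y = y
      rw [E3.apply]
      simp [S.zero_left, S.zero_right]
    apply Subtype.ext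
    exact (inv_mul_eq_one.1 hx1)
  · rintro ⟨w, ⟨hwW, g, hgK, a, E⟩, hwM'⟩
    have hgl : g ∈ lineG h M := eich_mem_lineG hF hM E he hwM'
    refine ⟨⟨g, ⟨⟨hgK, hgl⟩, w, a, E⟩⟩, ?_⟩
    apply Subtype.ext
    exact proj_eich S H E hwW

/-- The structure of `B` when the form does not vanish on it. -/
theorem card_B_M (hV : finrank F V = 4) {K : Subgroup (suGroup h)} (D : LocalData hF S H K)
    {x y : V} (hx : x ∈ Bof S (invol_frob' hF S) H K) (hy : y ∈ Bof S (invol_frob' hF S) H K)
    (hxy : h x y ≠ 0) {M : Submodule F V} (hM : IsPlane h M) (he : e ∈ M) :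
    Nat.card {w : V // w ∈ Bof S (invol_frob' hF S) H K ∧ w ∈ M} = q := by
  classical
  have hσ := invol_frob' hF S
  haveI : Finite F := Finite.of_fintype F
  haveI : Finite V := Module.finite_of_finite F
  have hq := two_le_q hF S
  have hfr : finrank F (perp2 S e f) = 2 := by
    have := finrank_perp2 S H
    omega
  set B := Bof S hσ H K with hB
  have hreal : ∀ a ∈ B, ∀ b ∈ B, frobHom hF (h a b) = h a b := by
    intro a ha b hb
    have h1 := comm_mem_Aof S hσ H ha hb
    rw [D.A0] at h1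
    have h2 : h a b - frobHom hF (h a b) = 0 := h1
    linear_combination -h2
  have hsw : ∀ a ∈ B, ∀ b ∈ B, h b a = h a b := by
    intro a ha b hb
    rw [S.conj a b, hreal a ha b hb]
  have hsum : ∀ a ∈ B, ∀ b ∈ B, h a b + h a b = 0 := by
    intro a ha b hb
    have h1 := D.sing _ (B.add_mem ha hb)
    rw [S.add_left, S.add_right, S.add_right, D.sing a ha, D.sing b hb, hsw a ha b hb] at h1
    linear_combination h1
  set c := h x y with hc
  have h2F : (2 : F) = 0 := by
    have h1 := hsum x hx y hy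
    have h2 : (2 : F) * c = 0 := by linear_combination h1
    exact (mul_eq_zero.1 h2).resolve_right hxy
  have hcr : frobHom hF c = c := hreal x hx y hy
  have hyx : h y x = c := hsw x hx y hy
  have hxx := D.sing x hx
  have hyy := D.sing y hy
  have hx0 : x ≠ 0 := by
    rintro h0
    apply hxy
    rw [hc, h0, S.zero_left]
  have hWx : x ∈ perp2 S e f := hx.1
  have hWy : y ∈ perp2 S e f := hy.1
  -- coordinates
  have hcoord : ∀ w ∈ perp2 S e f, w = (h w y / c) • x + (h w x / c) • y := by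
    intro w hw
    set r := w - ((h w y / c) • x + (h w x / c) • y) with hr
    have hrW : r ∈ perp2 S e f :=
      (perp2 S e f).sub_mem hw ((perp2 S e f).add_mem ((perp2 S e f).smul_mem _ hWx)
        ((perp2 S e f).smul_mem _ hWy))
    have hrx : h r x = 0 := by
      rw [hr, S.sub_left, S.add_left, S.smul_left, S.smul_left, hxx, hyx]
      field_simp
      ring
    have hry : h r y = 0 := by
      rw [hr, S.sub_left, S.add_left, S.smul_left, S.smul_left, hyy, ← hc]
      field_simp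
      ring
    obtain ⟨γ, hγ⟩ := eq_smul_of_orth S hσ H hfr hWx hx0 hxx hrW hrx
    have hγ0 : γ = 0 := by
      rw [hγ, S.smul_left, ← hc] at hry
      exact (mul_eq_zero.1 hry).resolve_right hxy
    rw [hγ0, zero_smul] at hγ
    exact sub_eq_zero.1 hγ
  have hfixB : ∀ w ∈ B, h w y / c ∈ fixF (frobHom hF) ∧ h w x / c ∈ fixF (frobHom hF) := by
    intro w hw
    constructor
    · show frobHom hF (h w y / c) = h w y / c
      rw [map_div₀, hreal w hw y hy, hcr]
    · show frobHom hF (h w x / c) = h w x / c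
      rw [map_div₀, hreal w hw x hx, hcr]
  have hcardfix : Nat.card (fixF (frobHom hF)) = q := by
    rw [card_fix_eq_pure hσ, card_pure_frob hF S]
  -- all real combinations lie in `B`
  have hB2 : ∀ α ∈ fixF (frobHom hF), ∀ β ∈ fixF (frobHom hF), α • x + β • y ∈ B := by
    let φ : B → fixF (frobHom hF) × fixF (frobHom hF) := fun w =>
      (⟨_, (hfixB w.1 w.2).1⟩, ⟨_, (hfixB w.1 w.2).2⟩)
    have hφ : Function.Injective φ := by
      intro w w' hww
      have h1 : h w.1 y / c = h w'.1 y / c := congrArg (fun p => (Prod.fst p).1) hww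
      have h2 : h w.1 x / c = h w'.1 x / c := congrArg (fun p => (Prod.snd p).1) hww
      apply Subtype.ext
      rw [hcoord w.1 w.2.1, hcoord w'.1 w'.2.1, h1, h2]
    have hcard : Nat.card B = Nat.card (fixF (frobHom hF) × fixF (frobHom hF)) := by
      rw [Nat.card_prod, hcardfix, D.cardB]
      ring
    have hbij := (Nat.bijective_iff_injective_and_card φ).2 ⟨hφ, hcard⟩
    intro α hα β hβ
    obtain ⟨w, hw⟩ := hbij.2 (⟨α, hα⟩, ⟨β, hβ⟩)
    have h1 : h w.1 y / c = α := congrArg (fun p => (Prod.fst p).1) hw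
    have h2 : h w.1 x / c = β := congrArg (fun p => (Prod.snd p).1) hw
    have h3 := hcoord w.1 w.2.1
    rw [h1, h2] at h3
    rw [← h3]
    exact w.2
  -- the point of `M` in the complement
  obtain ⟨z, hzW, hz0, hzM, hzz, hspan⟩ := exists_plane_basis hF S hV hM H he
  have hzc := hcoord z hzW
  set α := h z y / c with hα
  set β := h z x / c with hβ
  have hnorm : α * frobHom hF β + β * frobHom hF α = 0 := by
    have h1 := hzz
    rw [hzc] at h1
    simp only [S.add_left, S.add_right, S.smul_left, S.smul_right, hxx, hyy, hyx, ← hc] at h1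
    have h2 : (α * frobHom hF β + β * frobHom hF α) * c = 0 := by linear_combination h1
    exact (mul_eq_zero.1 h2).resolve_right hxy
  have hnorm' : α * frobHom hF β = β * frobHom hF α := by
    linear_combination hnorm - (β * frobHom hF α) * h2F
  have hsσ : ∀ t : F, frobHom hF (frobHom hF t) = t := hσ.invol
  -- a real multiple of `z`
  obtain ⟨τ, hτ0, α₁, β₁, hα₁, hβ₁, hz₁, hne⟩ : ∃ τ : F, τ ≠ 0 ∧ ∃ α₁ β₁ : F,
      α₁ ∈ fixF (frobHom hF) ∧ β₁ ∈ fixF (frobHom hF) ∧ τ • z = α₁ • x + β₁ • y ∧ (α₁ ≠ 0 ∨ β₁ ≠ 0) := by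
    by_cases hβ0 : β = 0
    · have hα0 : α ≠ 0 := by
        intro h0
        apply hz0
        rw [hzc, h0, hβ0, zero_smul, zero_smul, add_zero]
      refine ⟨α⁻¹, inv_ne_zero hα0, 1, 0, map_one _, map_zero _, ?_, Or.inl one_ne_zero⟩
      conv_lhs => rw [hzc]
      rw [hβ0, zero_smul, add_zero, smul_smul, inv_mul_cancel₀ hα0, add_zero]
    · have hσβ : frobHom hF β ≠ 0 := (map_ne_zero _).2 hβ0
      refine ⟨frobHom hF β, hσβ, frobHom hF β * α, frobHom hF β * β, ?_, ?_, ?_, Or.inr (mul_ne_zero hσβ hβ0)⟩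
      · show frobHom hF (frobHom hF β * α) = frobHom hF β * α
        rw [map_mul, hsσ, mul_comm (frobHom hF β) α, hnorm']
      · show frobHom hF (frobHom hF β * β) = frobHom hF β * β
        rw [map_mul, hsσ, mul_comm]
      · conv_lhs => rw [hzc]
        rw [smul_add, smul_smul, smul_smul]
  set z₁ := τ • z with hz₁def
  have hz₁0 : z₁ ≠ 0 := smul_ne_zero hτ0 hz0
  have hz₁M : z₁ ∈ M := M.smul_mem _ hzM
  have hmulfix : ∀ a ∈ fixF (frobHom hF), ∀ b ∈ fixF (frobHom hF), a * b ∈ fixF (frobHom hF) := by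
    intro a ha b hb
    show frobHom hF (a * b) = a * b
    rw [map_mul]
    rw [show frobHom hF a = a from ha, show frobHom hF b = b from hb]
  have hlam : ∀ l ∈ fixF (frobHom hF), l • z₁ ∈ B := by
    intro l hl
    rw [hz₁, smul_add, smul_smul, smul_smul]
    exact hB2 _ (hmulfix _ hl _ hα₁) _ (hmulfix _ hl _ hβ₁)
  rw [← hcardfix]
  symm
  refine Nat.card_congr (Equiv.ofBijective (fun l : fixF (frobHom hF) =>
    ⟨l.1 • z₁, hlam l.1 l.2, M.smul_mem _ hz₁M⟩) ⟨?_, ?_⟩)
  · intro l l' hll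
    have h1 : l.1 • z₁ = l'.1 • z₁ := congrArg (fun w : {w : V // w ∈ B ∧ w ∈ M} => w.1) hll
    apply Subtype.ext
    exact smul_left_injective F hz₁0 h1
  · rintro ⟨w, hwB, hwM⟩
    -- `w` is a multiple of `z₁`
    obtain ⟨a, b, hab⟩ := hspan w hwM
    have hwf : h w f = 0 := hwB.1.2
    rw [hab, S.add_left, S.smul_left, S.smul_left, H.ef S, hzW.2] at hwf
    have ha0 : a = 0 := by linear_combination hwf
    rw [ha0, zero_smul, zero_add] at hab
    set μ := b * τ⁻¹ with hμ
    have hwz₁ : w = μ • z₁ := by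
      rw [hab, hμ, hz₁def, smul_smul, mul_assoc, inv_mul_cancel₀ hτ0, mul_one]
    have hw1 := hfixB w hwB
    have hval1 : h w y / c = μ * α₁ := by
      rw [hwz₁, hz₁, S.smul_left, S.add_left, S.smul_left, S.smul_left, hyy, ← hc]
      field_simp
      ring
    have hval2 : h w x / c = μ * β₁ := by
      rw [hwz₁, hz₁, S.smul_left, S.add_left, S.smul_left, S.smul_left, hxx, hyx]
      field_simp
      ring
    rw [hval1] at hw1
    rw [hval2] at hw1
    have hμfix : μ ∈ fixF (frobHom hF) := by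
      rcases hne with h1 | h1
      · have h2 : frobHom hF (μ * α₁) = μ * α₁ := hw1.1
        rw [map_mul, show frobHom hF α₁ = α₁ from hα₁] at h2
        exact mul_right_cancel₀ h1 h2
      · have h2 : frobHom hF (μ * β₁) = μ * β₁ := hw1.2
        rw [map_mul, show frobHom hF β₁ = β₁ from hβ₁] at h2
        exact mul_right_cancel₀ h1 h2
    refine ⟨⟨μ, hμfix⟩, ?_⟩
    apply Subtype.ext
    exact hwz₁.symm

theorem two_eq_zero_of_ne {K : Subgroup (suGroup h)} (D : LocalData hF S H K)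
    {x y : V} (hx : x ∈ Bof S (invol_frob' hF S) H K) (hy : y ∈ Bof S (invol_frob' hF S) H K)
    (hxy : h x y ≠ 0) : (2 : F) = 0 := by
  have hσ := invol_frob' hF S
  set B := Bof S hσ H K with hB
  have h1 := comm_mem_Aof S hσ H hx hy
  rw [D.A0] at h1
  have h2 : h x y - frobHom hF (h x y) = 0 := h1
  have h3 : h y x = h x y := by
    rw [S.conj x y]
    linear_combination -h2
  have h4 := D.sing _ (B.add_mem hx hy)
  rw [S.add_left, S.add_right, S.add_right, D.sing x hx, D.sing y hy, h3] at h4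
  have h5 : (2 : F) * h x y = 0 := by linear_combination h4
  exact (mul_eq_zero.1 h5).resolve_right hxy

omit H

/-- The lower bound in dimension four. -/
theorem four_bound (hV : finrank F V = 4) (K : Subgroup (suGroup h)) (hK : K ≠ ⊤) :
    (q + 1) * (q ^ 3 + 1) ≤ K.index := by
  classical
  have hσ := invol_frob' hF S
  haveI : Finite F := Finite.of_fintype F
  haveI : Finite V := Module.finite_of_finite F
  haveI : Finite (suGroup h) := finite_su
  have hq := two_le_q hF S
  by_contra hc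
  push Not at hc
  have hR := root_case hF S hV hK hc
  have hroot : ∀ (v : V) (hv : v ≠ 0) (hvv : h v v = 0), Aof S hσ v hvv K = ⊥ := by
    intro v hv hvv
    obtain ⟨f, hff, hfe⟩ := S.exists_partner hσ hv hvv
    exact (local_of_empty hF S hV hc hR (e := v) (f := f) ⟨hvv, hff, hfe⟩).A0
  obtain ⟨e₀, f₀, H₀⟩ := exists_hp S hσ (show 2 ≤ finrank F V by omega)
  have hcardQ : ∀ {e f : V} (H : IsHP h e f), Nat.card ↥(K ⊓ radQ S hσ e H.ee) = q ^ 2 := by
    intro e f H
    have D := local_of_empty hF S hV hc hR H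
    rw [card_inf_radQ S hσ H K, D.A0, D.cardB]
    have h2 : Nat.card (⊥ : AddSubgroup F) = 1 := Nat.card_unique
    rw [h2, one_mul]
  have hEpos : ∀ M : Submodule F V, 0 < Nat.card ↥(K ⊓ lineG h M) := fun M => Nat.card_pos
  by_cases hTA : TA hF S K e₀ H₀.ee
  · obtain ⟨M₀, hM₀, he₀M, hle⟩ := id hTA
    have hdvd : q ^ 2 ∣ Nat.card ↥(K ⊓ lineG h M₀) := by
      rw [← hcardQ H₀]
      exact Subgroup.card_dvd_of_le (le_inf inf_le_left hle)
    have hEge : q ^ 2 ≤ Nat.card ↥(K ⊓ lineG h M₀) := Nat.le_of_dvd (hEpos M₀) hdvd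
    have hk : ∀ (u : V) (hu : u ∈ M₀), u ≠ 0 →
        Nat.card ↥(K ⊓ lineG h M₀ ⊓ radQ S hσ u (hM₀.2 u hu u hu)) = q ^ 2 := by
      intro u hu hu0
      have huu : h u u = 0 := hM₀.2 u hu u hu
      obtain ⟨f, hff, hfe⟩ := S.exists_partner hσ hu0 huu
      have H : IsHP h u f := ⟨huu, hff, hfe⟩
      have D := local_of_empty hF S hV hc hR H
      obtain ⟨k, hkK, c, hc0, hkc⟩ := K_transitive hF S hV hc hR H (H₀.ne_left S) H₀.ee
      obtain ⟨Mu, hMu, huMu, hleu⟩ := TA_transport hF S hkK H₀.ee huu hc0 hkc hTA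
      have hcl := card_line_le hF S hV hM₀ K hu hu0
      set N := K ⊓ lineG h M₀ ⊓ radQ S hσ u (hM₀.2 u hu u hu) with hN
      have hNq : q ≤ Nat.card N := by
        apply Nat.le_of_mul_le_mul_left _ (show 0 < q by omega)
        calc q * q = q ^ 2 := by ring
          _ ≤ Nat.card ↥(K ⊓ lineG h M₀) := hEge
          _ ≤ q * Nat.card N := hcl
      have hnt : Nontrivial N := by
        apply Finite.one_lt_card_iff_nontrivial.1
        omega
      obtain ⟨g, hg1⟩ := exists_ne (1 : N)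
      have hg1' : g.1 ≠ 1 := fun h0 => hg1 (Subtype.ext h0)
      have hgK : g.1 ∈ K := g.2.1.1
      have hgL : g.1 ∈ lineG h M₀ := g.2.1.2
      have hgQ : g.1 ∈ radQ S hσ u huu := g.2.2
      have hMeq : Mu = M₀ := plane_unique hF S H hV D.A0 hgK hg1' hgQ hMu hM₀ huMu hu
        (hleu ⟨hgK, hgQ⟩) hgL
      subst hMeq
      have hNeq : N = K ⊓ radQ S hσ u huu := by
        apply le_antisymm
        · exact le_inf (inf_le_left.trans inf_le_left) inf_le_right
        · exact le_inf (le_inf inf_le_left hleu) inf_le_right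
      rw [hNeq]
      exact hcardQ H
    have hcount := count_line hF S hV hM₀ hroot (q ^ 2) hk
    exact arith_a q _ hq hcount hdvd (hEpos M₀)
  · have hnot : ∀ (u : V) (huu : h u u = 0), u ≠ 0 → ¬ TA hF S K u huu := by
      intro u huu hu0 hTu
      obtain ⟨k, hkK, c, hc0, hkc⟩ := K_transitive hF S hV hc hR H₀ hu0 huu
      exact hTA (TA_transport hF S hkK huu H₀.ee hc0 hkc hTu)
    have D₀ := local_of_empty hF S hV hc hR H₀
    have hex : ¬ ∀ x ∈ Bof S hσ H₀ K, ∀ y ∈ Bof S hσ H₀ K, h x y = 0 :=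
      fun horth => hTA (TA_of_orth hF S H₀ hV D₀ horth)
    push Not at hex
    obtain ⟨x₀, hx₀, y₀, hy₀, hxy₀⟩ := hex
    have h2F := two_eq_zero_of_ne hF S H₀ D₀ hx₀ hy₀ hxy₀
    have hx₀0 : x₀ ≠ 0 := by
      rintro rfl
      exact hxy₀ (S.zero_left _)
    have hM := plane_of_pair hF S H₀ hx₀.1 hx₀0 (D₀.sing x₀ hx₀)
    set M := Submodule.span F {e₀, x₀} with hMdef
    have hk : ∀ (u : V) (hu : u ∈ M), u ≠ 0 →
        Nat.card ↥(K ⊓ lineG h M ⊓ radQ S hσ u (hM.2 u hu u hu)) = q := by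
      intro u hu hu0
      have huu : h u u = 0 := hM.2 u hu u hu
      obtain ⟨f, hff, hfe⟩ := S.exists_partner hσ hu0 huu
      have H : IsHP h u f := ⟨huu, hff, hfe⟩
      have D := local_of_empty hF S hV hc hR H
      have hex : ¬ ∀ x ∈ Bof S hσ H K, ∀ y ∈ Bof S hσ H K, h x y = 0 :=
        fun horth => hnot u huu hu0 (TA_of_orth hF S H hV D horth)
      push Not at hex
      obtain ⟨x, hx, y, hy, hxy⟩ := hex
      rw [card_N_eq hF S H hV D.A0 hM hu, card_B_M hF S H hV D hx hy hxy hM hu]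
    have hcount := count_line hF S hV hM hroot q hk
    have heven : Even q := by
      have h1 : ringChar F = 2 := CharP.ringChar_of_prime_eq_zero Nat.prime_two (by exact_mod_cast h2F)
      have h2 := FiniteField.even_card_iff_char_two.1 h1
      rw [hF] at h2
      have h3 : Even (q ^ 2) := Nat.even_iff.2 h2
      exact (Nat.even_pow.1 h3).1
    exact arith_b q _ hq heven hcount (hEpos M)

end frob

end Cfsg.Agent.Lib.MinSU
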