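/-
The minimal index in odd dimension.
-/
import Mathlib
import Cfsg.Agent.Lib.MinSU.Five
import Cfsg.Agent.Lib.MinSU.NoRegQ2

set_option autoImplicit false
set_option linter.unusedSimpArgs false
set_option linter.unusedSectionVars false
set_option linter.style.haveILetI false
set_option linter.unusedVariables false

namespace Cfsg.Agent.Lib.MinSU

open Module Cfsg.Agent.Lib.Classical.HermBasic Cfsg.Agent.Lib.Classical.HermElem
open Cfsg.Agent.Lib.Classical.HermGen Cfsg.Agent.Lib.Classical.HermSimple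
open Cfsg.Agent.Lib.HermCount.Field

universe u v

variable {F : Type u} [Field F] {V : Type v} [AddCommGroup V] [Module F V]
variable {σ : F →+* F} {h : V → V → F}

section family

variable [Finite F] [FiniteDimensional F V] (S : HForm σ h) (hσ : Invol σ) {e f : V} (H : IsHP h e f)

include S hσ H

/-- The family of conjugates given by the stabilizer of `Bof` in the complement. -/
theorem family_stab (hV : 3 ≤ finrank F V) (K : Subgroup (suGroup h))
    (hA : Aof S hσ e H.ee K ≠ pureF σ) :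
    (setStab (fun a b : perp2 S e f => h a b)
      ((Bof S hσ H K).addSubgroupOf (perp2 S e f).toAddSubgroup)).index *
        (Nat.card (pureF σ) * Nat.card (perp2 S e f)) ≤
      K.index * Nat.card (Bof S hσ H K) := by
  classical
  haveI : Finite V := Module.finite_of_finite F
  haveI : Finite (suGroup h) := finite_su
  haveI : Finite (suGroup (fun a b : perp2 S e f => h a b)) := finite_su
  set B := Bof S hσ H K with hBdef
  set B' : AddSubgroup (perp2 S e f) := B.addSubgroupOf (perp2 S e f).toAddSubgroup with hB'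
  set K₀ := setStab (fun a b : perp2 S e f => h a b) B' with hK₀
  choose lift hlift1 hlift2 using fun g₀ => exists_lift S hσ H g₀
  let J := suGroup (fun a b : perp2 S e f => h a b) ⧸ K₀
  let g : J → suGroup h := fun j => lift (Quotient.out j)
  have hs1 : ∀ j : J, (1 : F) * σ 1 = 1 := fun _ => by simp
  have hJ : Function.Injective fun j : J => B.map (hatY σ 1 (g j).1) := by
    intro a b hab
    set a₀ := (Quotient.out a) with ha₀
    set b₀ := (Quotient.out b) with hb₀
    have hab' : B.map (hatY σ 1 (lift a₀).1) = B.map (hatY σ 1 (lift b₀).1) := hab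
    have himg : ∀ x : perp2 S e f, x ∈ B' → ∃ y ∈ B', b₀.1 y = a₀.1 x := by
      intro x hx
      have h1 : hatY σ 1 (lift a₀).1 x.1 ∈ B.map (hatY σ 1 (lift b₀).1) := by
        rw [← hab']
        exact ⟨_, hx, rfl⟩
      obtain ⟨y, hy, hy2⟩ := h1
      have hy2' : (lift b₀).1 y = (lift a₀).1 x.1 := by simpa using hy2
      refine ⟨⟨y, hy.1⟩, hy, ?_⟩
      apply Subtype.ext
      rw [← hlift2 b₀ ⟨y, hy.1⟩, ← hlift2 a₀ x]
      exact hy2'
    have himg' : ∀ x : perp2 S e f, x ∈ B' → ∃ y ∈ B', a₀.1 y = b₀.1 x := by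
      intro x hx
      have h1 : hatY σ 1 (lift b₀).1 x.1 ∈ B.map (hatY σ 1 (lift a₀).1) := by
        rw [hab']
        exact ⟨_, hx, rfl⟩
      obtain ⟨y, hy, hy2⟩ := h1
      have hy2' : (lift a₀).1 y = (lift b₀).1 x.1 := by simpa using hy2
      refine ⟨⟨y, hy.1⟩, hy, ?_⟩
      apply Subtype.ext
      rw [← hlift2 a₀ ⟨y, hy.1⟩, ← hlift2 b₀ x]
      exact hy2'
    have hmem : a₀⁻¹ * b₀ ∈ K₀ := by
      intro x
      constructor
      · intro hx
        obtain ⟨y, hy, hy2⟩ := himg' x hx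
        have : (a₀⁻¹ * b₀).1 x = y := by
          show a₀.1.symm (b₀.1 x) = y
          rw [← hy2]
          exact a₀.1.symm_apply_apply y
        rw [this]
        exact hy
      · intro hx
        have h5 : a₀.1 ((a₀⁻¹ * b₀).1 x) = b₀.1 x := by
          show a₀.1 (a₀.1.symm (b₀.1 x)) = b₀.1 x
          exact a₀.1.apply_symm_apply _
        obtain ⟨y, hy, hy2⟩ := himg _ hx
        rw [h5] at hy2
        have := b₀.1.injective hy2
        rw [← this]
        exact hy
    have h6 : (QuotientGroup.mk a₀ : J) = QuotientGroup.mk b₀ := QuotientGroup.eq.2 hmem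
    rw [ha₀, hb₀, QuotientGroup.out_eq', QuotientGroup.out_eq'] at h6
    exact h6
  have hfam := family_bound₁ S hσ H hV K hA g (fun _ => 1)
    (fun j => hlift1 _) hs1 hJ
  have hJcard : Nat.card J = K₀.index := (Subgroup.index_eq_card _).symm
  rw [hJcard] at hfam
  exact hfam

theorem card_addSubgroupOf_Bof (K : Subgroup (suGroup h)) :
    Nat.card ((Bof S hσ H K).addSubgroupOf (perp2 S e f).toAddSubgroup) =
      Nat.card (Bof S hσ H K) := by
  apply Nat.card_congr
  exact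
    { toFun := fun x => ⟨x.1.1, x.2⟩
      invFun := fun x => ⟨⟨x.1, x.2.1⟩, x.2⟩
      left_inv := fun x => rfl
      right_inv := fun x => rfl }

end family

section step

variable [Fintype F] [FiniteDimensional F V] {q : ℕ} (hF : Fintype.card F = q ^ 2)
variable (S : HForm (frobHom hF) h)

include S

/-- The inductive step, with the dichotomy as a hypothesis. -/
theorem step_core (k : ℕ) (hk : finrank F V = k + 1) (hk5 : 5 ≤ k + 1)
    (Tg : ℕ) (hD : ∀ L : Subgroup (suGroup h), L.index < Tg → DichAt S (invol_frob' hF S) L)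
    (h4 : ((q ^ 2 - 1 : ℕ) : ℤ) * (Tg : ℤ) ≤
      ((q : ℤ) ^ (k + 1) - (-1) ^ (k + 1)) * ((q : ℤ) ^ k - (-1) ^ k))
    (h5 : ((q ^ 2 - 1 : ℕ) : ℤ) * (Tg : ℤ) ≤
      (q : ℤ) ^ (2 * (k + 1)) - 1 - ((q : ℤ) ^ (k + 1) - (-1) ^ (k + 1)) * ((q : ℤ) ^ k - (-1) ^ k))
    (hns : ∀ K : Subgroup (suGroup h),
      (∀ (e : V) (hee : h e e = 0), e ≠ 0 → ∀ g, cj g K ⊓ radQ S (invol_frob' hF S) e hee = ⊥) →
      K.index < Tg → False)
    (K : Subgroup (suGroup h)) (hK : K ≠ ⊤) : Tg ≤ K.index := by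
  classical
  have hσ := invol_frob' hF S
  haveI : Finite F := Finite.of_fintype F
  haveI : Finite V := Module.finite_of_finite F
  haveI : Finite (suGroup h) := finite_su
  have hq := two_le_q hF S
  by_contra hc
  push Not at hc
  have hDK : ∀ K', K ≤ K' → DichAt S hσ K' := by
    intro K' hle
    apply hD
    refine lt_of_le_of_lt ?_ hc
    exact Nat.le_of_dvd (Nat.pos_of_ne_zero Subgroup.index_ne_zero_of_finite)
      (Subgroup.index_dvd_of_le hle)
  have hq1 : (0 : ℤ) < ((q ^ 2 - 1 : ℕ) : ℤ) := by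
    have : 4 ≤ q ^ 2 := by nlinarith
    have h3 : 0 < q ^ 2 - 1 := by omega
    exact_mod_cast h3
  have hlt : ((q ^ 2 - 1 : ℕ) : ℤ) * (K.index : ℤ) < ((q ^ 2 - 1 : ℕ) : ℤ) * (Tg : ℤ) :=
    mul_lt_mul_of_pos_left (by exact_mod_cast hc) hq1
  by_cases hne : (rootSet S hσ K).Nonempty
  · rcases subspace_step S hσ (by omega) hK hDK hne with ⟨y, hy, hyy, hKy⟩ | ⟨u, huu, hKu⟩
    · have := index_sing_bound hF S k hk (by omega) hy hyy hKy
      linarith
    · have := index_nonsing_bound hF S k hk (by omega) huu hKu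
      linarith
  · apply hns K _ hc
    intro e hee he0 g
    have hidx : (cj g K).index < Tg := by rw [index_cj]; exact hc
    rcases hD _ hidx e he0 hee with hle | hbot
    · exact absurd ⟨_, rootX_of_cj S hσ he0 hee hle⟩ hne
    · exact hbot

/-- The lower bound in dimension five when `Bof` is non-trivial. -/
theorem five_Bof (hV : finrank F V = 5) {e f : V} (H : IsHP h e f) (L : Subgroup (suGroup h))
    (hA : Aof S (invol_frob' hF S) e H.ee L ≠ pureF (frobHom hF))
    (hB : Bof S (invol_frob' hF S) H L ≠ ⊥) : (q ^ 5 + 1) * (q ^ 2 + 1) ≤ L.index := by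
  classical
  have hσ := invol_frob' hF S
  haveI : Finite F := Finite.of_fintype F
  haveI : Finite V := Module.finite_of_finite F
  haveI : Finite (suGroup h) := finite_su
  have hq := two_le_q hF S
  have hfr : finrank F (perp2 S e f) = 3 := by
    have := finrank_perp2 S H
    omega
  set B := Bof S hσ H L with hBdef
  set B' : AddSubgroup (perp2 S e f) := B.addSubgroupOf (perp2 S e f).toAddSubgroup with hB'
  have hcard : Nat.card B' = Nat.card B := card_addSubgroupOf_Bof S hσ H L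
  have hb : Nat.card B ≤ q ^ 3 := by
    have h1 := card_Bof_sq_le S hσ H L hA
    rw [card_perp_frob hF S H 3 hfr] at h1
    by_contra hc
    push Not at hc
    have h2 : q ^ 3 * q ^ 3 < Nat.card B * Nat.card B := Nat.mul_lt_mul'' hc hc
    have h3 : q ^ 3 * q ^ 3 = q ^ (2 * 3) := by ring
    rw [h3] at h2
    exact absurd (lt_of_lt_of_le h2 h1) (lt_irrefl _)
  have hB'0 : B' ≠ ⊥ := by
    intro h0
    apply hB
    rw [eq_bot_iff]
    intro x hx
    have hx' : (⟨x, hx.1⟩ : perp2 S e f) ∈ B' := hx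
    rw [h0, AddSubgroup.mem_bot] at hx'
    rw [AddSubgroup.mem_bot]
    exact congrArg Subtype.val hx'
  have h1 := stab_bound3 hF (restrict S H) hfr B' hB'0 (by rw [hcard]; exact hb)
  have h2 := family_stab S hσ H (by omega) L hA
  rw [card_pure_frob hF S, card_perp_frob hF S H 3 hfr, ← hB', ← hBdef] at h2
  rw [hcard] at h1
  have hbpos : 0 < Nat.card B := Nat.card_pos
  apply Nat.le_of_mul_le_mul_right _ hbpos
  calc (q ^ 5 + 1) * (q ^ 2 + 1) * Nat.card B ≤ _ := h1
    _ = (setStab (fun a b : perp2 S e f => h a b) B').index * (q * q ^ (2 * 3)) := by ring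
    _ ≤ L.index * Nat.card B := h2

/-- The bound in dimension five. -/
theorem five_bound (hV : finrank F V = 5) (K : Subgroup (suGroup h)) (hK : K ≠ ⊤) :
    (q ^ 5 + 1) * (q ^ 2 + 1) ≤ K.index := by
  classical
  have hσ := invol_frob' hF S
  haveI : Finite F := Finite.of_fintype F
  haveI : Finite V := Module.finite_of_finite F
  haveI : Finite (suGroup h) := finite_su
  have hq := two_le_q hF S
  have hqc := card_pure_frob hF S
  have hQ : (2 : ℤ) ≤ q := by exact_mod_cast hq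
  have hnum1 : (q ^ 5 + 1) * (q ^ 2 + 1) ≤ (q + 1) * q ^ 6 := by
    have h1 : q ^ 5 * 2 ≤ q ^ 6 := by
      have : q ^ 6 = q ^ 5 * q := by ring
      rw [this]
      exact Nat.mul_le_mul_left _ hq
    have h3 : q ^ 2 * 8 ≤ q ^ 5 := by
      have : q ^ 5 = q ^ 2 * q ^ 3 := by ring
      rw [this]
      exact Nat.mul_le_mul_left _ (by nlinarith)
    have h4 : 4 ≤ q ^ 2 := by nlinarith
    nlinarith
  have hcast : ((q ^ 2 - 1 : ℕ) : ℤ) = (q : ℤ) ^ 2 - 1 := by
    have : 1 ≤ q ^ 2 := Nat.one_le_pow _ _ (by omega)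
    push_cast [Nat.cast_sub this]
    ring
  refine step_core hF S 4 (by omega) (by omega) _ ?_ ?_ ?_ ?_ K hK
  · intro L hL e he hee
    obtain ⟨f, hff, hfe⟩ := S.exists_partner hσ he hee
    have H : IsHP h e f := ⟨hee, hff, hfe⟩
    have hfr : finrank F (perp2 S e f) = 3 := by
      have := finrank_perp2 S H
      omega
    by_cases hA : Aof S hσ e hee L = pureF (frobHom hF)
    · exact Or.inl ((rootX_le_iff S hσ hee L).2 hA)
    · right
      have hB : Bof S hσ H L = ⊥ := by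
        by_contra hB
        exact absurd (five_Bof hF S hV H L hA hB) (by omega)
      have hA0 : Aof S hσ e hee L = ⊥ := by
        by_contra hA0
        have h1 := bound_of_Aof_ne_bot S hσ H (by omega) q 3 hqc (by omega) L hA hA0 hB
        have h2 : (q + 1) * q ^ (2 * 3) = (q + 1) * q ^ 6 := by norm_num
        omega
      exact inf_radQ_eq_bot S hσ H hA0 hB
  · rw [hcast]
    norm_num
    nlinarith
  · rw [hcast]
    norm_num
    have h1 : 0 ≤ ((q : ℤ) ^ 5 + 1) * (q : ℤ) ^ 4 * ((q : ℤ) - 2) := by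
      apply mul_nonneg (by positivity) (by omega)
    have h2 : 0 ≤ ((q : ℤ) ^ 5 + 1) := by positivity
    nlinarith
  · intro L hsemi hidx
    have hlt : L.index < (q + 1) * q ^ (2 * 3) := lt_of_lt_of_le hidx hnum1
    rcases (show q = 2 ∨ 3 ≤ q by omega) with rfl | hq3
    · exact no_semiregular_q2 S hσ (by omega) 3 hqc (by omega) L hsemi (by
        norm_num at hlt ⊢
        omega)
    · refine no_semiregular_q3 S hσ (by omega) q 3 hqc hq3 (by omega) L hsemi ?_
      have h1 : q + 1 ≤ 2 * q := by omega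
      calc L.index < (q + 1) * q ^ (2 * 3) := hlt
        _ ≤ (2 * q) * q ^ (2 * 3) := Nat.mul_le_mul_right _ h1
        _ = 2 * (q * q ^ (2 * 3)) := by ring

end step

/-- The number of isotropic points in odd dimension. -/
def Ov (q n : ℕ) : ℕ := (q ^ n + 1) * (q ^ (n - 1) - 1) / (q ^ 2 - 1)

theorem Ov_spec (q k : ℕ) (hq : 2 ≤ q) :
    ((q : ℤ) ^ 2 - 1) * (Ov q (2 * k + 5) : ℤ) =
      ((q : ℤ) ^ (2 * k + 5) + 1) * ((q : ℤ) ^ (2 * k + 4) - 1) := by
  have hdvd : q ^ 2 - 1 ∣ q ^ (2 * k + 4) - 1 := by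
    have h1 := Nat.sub_dvd_pow_sub_pow (q ^ 2) 1 (k + 2)
    rw [one_pow, ← pow_mul, show 2 * (k + 2) = 2 * k + 4 by ring] at h1
    exact h1
  have h4 : 4 ≤ q ^ 2 := by nlinarith
  have h5 : 1 ≤ q ^ (2 * k + 4) := Nat.one_le_pow _ _ (by omega)
  have h6 : (q ^ 2 - 1) * Ov q (2 * k + 5) = (q ^ (2 * k + 5) + 1) * (q ^ (2 * k + 4) - 1) := by
    unfold Ov
    rw [show 2 * k + 5 - 1 = 2 * k + 4 by omega]
    exact Nat.mul_div_cancel' (Dvd.dvd.mul_left hdvd _)
  have h7 := congrArg (fun x : ℕ => (x : ℤ)) h6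
  push_cast [Nat.cast_sub (show 1 ≤ q ^ 2 by omega), Nat.cast_sub h5] at h7
  exact h7

section chain

variable {F : Type u} [Field F] [Fintype F] {q : ℕ} (hF : Fintype.card F = q ^ 2)

/-- The odd chain. -/
theorem chain_odd : ∀ (k : ℕ) (V : Type v) [AddCommGroup V] [Module F V]
    [FiniteDimensional F V] (h : V → V → F) (S : HForm (frobHom hF) h)
    (_ : finrank F V = 2 * k + 5) (K : Subgroup (suGroup h)) (_ : K ≠ ⊤),
    Ov q (2 * k + 5) ≤ K.index := by
  intro k
  induction k with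
  | zero =>
    intro V _ _ _ h S hn K hK
    have hq2 := two_le_q hF S
    have hb := five_bound hF S hn K hK
    refine le_trans (le_of_eq ?_) hb
    have hs := Ov_spec q 0 hq2
    have hQ : (2 : ℤ) ≤ q := by exact_mod_cast hq2
    have hq1pos : (0 : ℤ) < (q : ℤ) ^ 2 - 1 := by nlinarith
    have h5 : ((q : ℤ) ^ 2 - 1) * (Ov q (2 * 0 + 5) : ℤ) =
        ((q : ℤ) ^ 2 - 1) * (((q : ℤ) ^ 5 + 1) * ((q : ℤ) ^ 2 + 1)) := by
      rw [hs]
      norm_num
      ring
    have h6 := mul_left_cancel₀ (ne_of_gt hq1pos) h5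
    exact_mod_cast h6
  | succ k ih =>
    intro V _ _ _ h S hn K hK
    have hq2 := two_le_q hF S
    have hQ : (2 : ℤ) ≤ q := by exact_mod_cast hq2
    have hq1pos : (0 : ℤ) < (q : ℤ) ^ 2 - 1 := by nlinarith
    have hcast : ((q ^ 2 - 1 : ℕ) : ℤ) = (q : ℤ) ^ 2 - 1 := by
      have : 1 ≤ q ^ 2 := Nat.one_le_pow _ _ (by omega)
      push_cast [Nat.cast_sub this]
      ring
    have hs1 := Ov_spec q k hq2
    have hs2 := Ov_spec q (k + 1) hq2
    have hY4 : (q : ℤ) ^ 4 ≤ (q : ℤ) ^ (2 * k + 4) := pow_le_pow_right₀ (by omega) (by omega)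
    have hYq : (q : ℤ) ^ 2 + 1 ≤ (q : ℤ) ^ (2 * k + 4) := by nlinarith [pow_pos (show (0 : ℤ) < q by omega) 2]
    set Y := (q : ℤ) ^ (2 * k + 4) with hYdef
    have hY2 : 2 ≤ Y := by nlinarith [pow_pos (show (0 : ℤ) < q by omega) 2]
    have e1 : (q : ℤ) ^ (2 * k + 5) = (q : ℤ) * Y := by rw [hYdef]; ring
    have e2 : (q : ℤ) ^ (2 * (k + 1) + 5) = (q : ℤ) ^ 3 * Y := by rw [hYdef]; ring
    have e3 : (q : ℤ) ^ (2 * (k + 1) + 4) = (q : ℤ) ^ 2 * Y := by rw [hYdef]; ring
    rw [e1] at hs1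
    rw [e2, e3] at hs2
    have h2 : Ov q (2 * (k + 1) + 5) ≤ (q + 1) * q ^ (2 * (2 * (k + 1) + 3)) := by
      have h7 : ((q : ℤ) ^ 2 - 1) * (Ov q (2 * (k + 1) + 5) : ℤ) ≤
          ((q : ℤ) ^ 2 - 1) * (((q : ℤ) + 1) * (q : ℤ) ^ (2 * (2 * (k + 1) + 3))) := by
        rw [hs2]
        have e4 : (q : ℤ) ^ (2 * (2 * (k + 1) + 3)) = ((q : ℤ) * Y) ^ 2 := by rw [hYdef]; ring
        rw [e4]
        have h8 : 0 ≤ ((q : ℤ) ^ 2 - (q : ℤ) - 1) * ((q : ℤ) * Y) ^ 2 := by
          apply mul_nonneg _ (by positivity)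
          nlinarith
        have h9 : 0 ≤ ((q : ℤ) ^ 2 - (q : ℤ)) * ((q : ℤ) * Y) := by
          apply mul_nonneg _ (by positivity)
          nlinarith
        nlinarith
      have h8 := le_of_mul_le_mul_left h7 hq1pos
      exact_mod_cast h8
    have e5 : (-1 : ℤ) ^ (2 * (k + 1) + 4 + 1) = -1 := Odd.neg_one_pow ⟨k + 3, by ring⟩
    have e6 : (-1 : ℤ) ^ (2 * (k + 1) + 4) = 1 := Even.neg_one_pow ⟨k + 3, by ring⟩
    have e7 : (q : ℤ) ^ (2 * (k + 1) + 4 + 1) = (q : ℤ) ^ 3 * Y := by rw [hYdef]; ring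
    refine step_bound hF S (2 * (k + 1) + 4) (2 * (k + 1) + 3) (by omega) (by omega) (by omega)
      (Ov q (2 * k + 5)) _ ?_ ?_ h2 ?_ ?_ ?_ K hK
    · intro e f H K₀ hK₀
      have hfr := finrank_perp2 S H
      exact ih _ _ (restrict S H) (by omega) K₀ hK₀
    · have h7 : ((q : ℤ) ^ 2 - 1) * (Ov q (2 * (k + 1) + 5) : ℤ) ≤
          ((q : ℤ) ^ 2 - 1) * ((Ov q (2 * k + 5) : ℤ) * (q : ℤ) ^ (2 * (k + 1) + 3 + 1)) := by
        have e8 : (q : ℤ) ^ (2 * (k + 1) + 3 + 1) = (q : ℤ) ^ 2 * Y := by rw [hYdef]; ring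
        rw [e8, hs2, ← mul_assoc, hs1]
        have h8 : 0 ≤ (q : ℤ) ^ 3 * Y ^ 2 * (Y - 1 - (q : ℤ) ^ 2) := by
          apply mul_nonneg (by positivity) (by linarith)
        have h9 : 0 ≤ (q : ℤ) ^ 2 * Y * (Y - 2) := by
          apply mul_nonneg (by positivity) (by linarith)
        have h10 : 0 ≤ (q : ℤ) ^ 3 * Y := by positivity
        nlinarith
      have h8 := le_of_mul_le_mul_left h7 hq1pos
      exact_mod_cast h8
    · rw [hcast, e5, e6, e7, e3, hs2]
      apply le_of_eq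
      ring
    · rw [hcast, e5, e6, e7, e3, hs2]
      have e8 : (q : ℤ) ^ (2 * (2 * (k + 1) + 4 + 1)) = ((q : ℤ) ^ 3 * Y) ^ 2 := by
        rw [hYdef]; ring
      rw [e8]
      have h8 : 0 ≤ ((q : ℤ) ^ 3 * Y + 1) * (((q : ℤ) - 2) * ((q : ℤ) ^ 2 * Y) + 1) := by
        apply mul_nonneg (by positivity)
        apply add_nonneg _ (by norm_num)
        apply mul_nonneg (by omega) (by positivity)
      nlinarith
    · intro L hsemi hidx
      have hlt := lt_of_lt_of_le hidx h2
      rcases (show q = 2 ∨ 3 ≤ q by omega) with rfl | hq3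
      · refine no_semiregular_q2 S (invol_frob' hF S) (by omega) (2 * (k + 1) + 3) (card_pure_frob hF S)
          (by omega) L hsemi (lt_of_lt_of_le hlt ?_)
        norm_num
        nlinarith [Nat.zero_le (2 ^ (2 * (2 * (k + 1) + 3)))]
      · refine no_semiregular_q3 S (invol_frob' hF S) (by omega) q (2 * (k + 1) + 3) (card_pure_frob hF S)
          hq3 (by omega) L hsemi (lt_of_lt_of_le hlt ?_)
        have : q + 1 ≤ 2 * q := by omega
        calc (q + 1) * q ^ (2 * (2 * (k + 1) + 3)) ≤ (2 * q) * q ^ (2 * (2 * (k + 1) + 3)) :=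
              Nat.mul_le_mul_right _ this
          _ = 2 * (q * q ^ (2 * (2 * (k + 1) + 3))) := by ring

end chain

end Cfsg.Agent.Lib.MinSU
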